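import Mathlib
import Cfsg.Agent.Lib.Helper96.HallSymStmt

/-!
# S2536 piece B4 (the arithmetic of the imprimitive case)
-/

set_option autoImplicit false

namespace Cfsg.Agent.Lib.Helper8.HSB4

open Equiv Cfsg.Agent.Lib.Helper96.HallSymStmt

theorem main : Cfsg.Agent.Lib.Helper96.HallSymStmt.B4' := by
  intro hS1 hS2 hB4A a b π ha hb hTwo hdiv hval hconcl
  obtain ⟨p₀, hp₀def⟩ : ∃ p₀ : ℕ, p₀ = b.minFac := ⟨_, rfl⟩
  have hp₀ : p₀.Prime := by rw [hp₀def]; exact Nat.minFac_prime (by omega)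
  have hp₀b : p₀ ∣ b := by rw [hp₀def]; exact Nat.minFac_dvd b
  have hp₀π : p₀ ∈ π := hdiv p₀ hp₀ (Dvd.dvd.mul_left hp₀b a)
  have key1 : ∀ p₁ : ℕ, p₁.Prime → p₁ ∣ b → ∃ e : ℕ, 1 ≤ e ∧ a = p₁ ^ e := by
    intro p₁ hp₁ hp₁b
    have hle : p₁ ≤ b := Nat.le_of_dvd (by omega) hp₁b
    rcases hS1 p₁ a b hp₁ (by omega) (by omega)
      (hval p₁ hp₁ (hdiv p₁ hp₁ (Dvd.dvd.mul_left hp₁b a))) with ⟨e, he⟩ | hlt
    · refine ⟨e, ?_, he⟩
      rcases Nat.eq_zero_or_pos e with rfl | h
      · rw [pow_zero] at he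
        omega
      · exact h
    · omega
  obtain ⟨i, hi1, hai⟩ := key1 p₀ hp₀ hp₀b
  have hp₀a : p₀ ∣ a := by rw [hai]; exact dvd_pow_self p₀ (by omega)
  have huniq : ∀ q : ℕ, q.Prime → q ∣ a → q = p₀ := by
    intro q hq hqa
    rw [hai] at hqa
    exact (Nat.prime_dvd_prime_iff_eq hq hp₀).1 (hq.dvd_of_dvd_pow hqa)
  -- the key consequence of STAR1 and STAR2
  have star : ∀ q : ℕ, q.Prime → q ∈ π → q ≠ p₀ → q ≤ a * b →
      b < q ∧ q ≤ a ∧ ∀ k : ℕ, 1 ≤ k → b * (a % q ^ k) < q ^ k := by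
    intro q hq hqπ hne hqab
    have hqa : ¬ q ∣ a := fun h => hne (huniq q hq h)
    have hbq : b < q := by
      rcases hS1 q a b hq (by omega) (by omega) (hval q hq hqπ) with ⟨e, he⟩ | hlt
      · exfalso
        rcases Nat.eq_zero_or_pos e with rfl | h
        · rw [pow_zero] at he
          omega
        · exact hqa (by rw [he]; exact dvd_pow_self q (by omega))
      · exact hlt
    have hk := hS2 q a b hq (by omega) hqa hbq (hval q hq hqπ)
    refine ⟨hbq, ?_, hk⟩
    by_contra hlt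
    have hlt' : a < q := by omega
    have h1 := hk 1 le_rfl
    rw [pow_one, Nat.mod_eq_of_lt hlt'] at h1
    have : a * b = b * a := Nat.mul_comm a b
    omega
  obtain ⟨r, s, hr, hs, hrs, hrπ, hsπ, hrle, hsle⟩ := hTwo
  obtain ⟨q, hq, hqπ, hqne, hqab⟩ : ∃ q : ℕ, q.Prime ∧ q ∈ π ∧ q ≠ p₀ ∧ q ≤ a * b := by
    by_cases h : r = p₀
    · exact ⟨s, hs, hsπ, fun h' => hrs (h.trans h'.symm), hsle⟩
    · exact ⟨r, hr, hrπ, h, hrle⟩
  obtain ⟨hbq, hqa, hqk⟩ := star q hq hqπ hqne hqab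
  have hba : b < a := by omega
  have hp₀lea : p₀ ≤ a := Nat.le_of_dvd (by omega) hp₀a
  have hTwoa : TwoP a π := ⟨p₀, q, hp₀, hq, fun h => hqne h.symm, hp₀π, hqπ, hp₀lea, hqa⟩
  have hle_ab : a ≤ a * b := Nat.le_mul_of_pos_right a (by omega)
  -- all primes up to `a` are in `π`
  have hall : ∀ r : ℕ, r.Prime → r ≤ a → r ∈ π := by
    by_contra hcon
    have hcon' : ∃ r' : ℕ, r'.Prime ∧ r' ≤ a ∧ r' ∉ π := by
      by_contra hno
      apply hcon
      intro r' hr' hr'le
      by_contra hr'π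
      exact hno ⟨r', hr', hr'le, hr'π⟩
    obtain ⟨r', hr', hr'le, hr'π⟩ := hcon'
    have hNA : NotAll a π := ⟨r', hr', hr'le, hr'π⟩
    rcases hconcl hTwoa hNA with ⟨hap, hiff⟩ | ⟨h78, hiff⟩
    · have hpa : p₀ = a := (Nat.prime_dvd_prime_iff_eq hp₀ hap).1 hp₀a
      have h1 := (hiff p₀ hp₀ hp₀lea).1 hp₀π
      omega
    · rcases h78 with h7 | h8
      · have h7p : Nat.Prime 7 := by norm_num
        have hp7 : p₀ = 7 := (Nat.prime_dvd_prime_iff_eq hp₀ h7p).1 (h7 ▸ hp₀a)
        have h1 := (hiff p₀ hp₀ hp₀lea).1 hp₀π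
        omega
      · have h3 : (3 : ℕ) ∈ π := (hiff 3 (by norm_num) (by omega)).2 (Or.inr rfl)
        have hp₀2 : p₀ = 2 := by
          have h23 : p₀ ∣ 2 ^ 3 := by
            have h' := hp₀a
            rw [h8] at h'
            exact h'
          exact (Nat.prime_dvd_prime_iff_eq hp₀ Nat.prime_two).1 (hp₀.dvd_of_dvd_pow h23)
        obtain ⟨hb3, -, hk3⟩ := star 3 (by norm_num) h3 (by omega) (by omega)
        have h1 := hk3 1 le_rfl
        rw [h8] at h1
        norm_num at h1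
        omega
  -- `b = 2`
  have hb2 : b = 2 := by
    by_contra hne
    have hb3 : 3 ≤ b := by omega
    by_cases h2 : p₀ = 2
    · obtain ⟨hb3', -, -⟩ := star 3 (by norm_num) (hall 3 (by norm_num) (by omega))
        (by omega) (by omega)
      omega
    · obtain ⟨hb2', -, -⟩ := star 2 (by norm_num) (hall 2 (by norm_num) (by omega))
        (fun h => h2 h.symm) (by omega)
      omega
  subst hb2
  have hp₀2 : p₀ = 2 := (Nat.prime_dvd_prime_iff_eq hp₀ Nat.prime_two).1 hp₀b
  rw [hp₀2] at hai star hp₀π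
  have ha3 : 3 ≤ a := by omega
  have hi2 : 2 ≤ i := by
    by_contra h
    have hi1' : i = 1 := by omega
    rw [hi1', pow_one] at hai
    omega
  have hi_eq : i = 2 := by
    by_contra hi_ne
    by_cases hi4 : i = 4
    · have ha16 : a = 16 := by rw [hai, hi4]; norm_num
      obtain ⟨-, -, hk3⟩ := star 3 (by norm_num) (hall 3 (by norm_num) (by omega))
        (by omega) (by omega)
      have h1 := hk3 2 (by norm_num)
      rw [ha16] at h1
      norm_num at h1
    · obtain ⟨q', hq', hq'5, hq'd⟩ := hB4A (i - 1) (by omega) (by omega) (by omega)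
      obtain ⟨t, ht⟩ : ∃ t : ℕ, t = 2 ^ (i - 1) := ⟨_, rfl⟩
      rw [← ht] at hq'd
      have hpow : a = 2 * t := by
        rw [hai, ht]
        conv_lhs => rw [show i = (i - 1) + 1 by omega]
        rw [pow_succ]
        ring
      have h2pos : 1 ≤ t := by
        rw [ht]
        exact Nat.one_le_two_pow
      have hq'le : q' ≤ a := by
        have := Nat.le_of_dvd (by omega) hq'd
        omega
      obtain ⟨-, -, hk⟩ := star q' hq' (hall q' hq' hq'le) (by omega) (by omega)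
      have h1 := hk 1 le_rfl
      rw [pow_one] at h1
      have hd2 : q' ∣ a + 2 := by
        have e : a + 2 = 2 * (t + 1) := by omega
        rw [e]
        exact Dvd.dvd.mul_left hq'd 2
      have hlt : a % q' < q' := Nat.mod_lt _ (by omega)
      have hdm : q' * (a / q') + a % q' = a := Nat.div_add_mod a q'
      have hd3 : q' ∣ a % q' + 2 := by
        have e : a + 2 = q' * (a / q') + (a % q' + 2) := by omega
        rw [e] at hd2
        exact (Nat.dvd_add_right (Dvd.intro _ rfl)).1 hd2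
      obtain ⟨c, hc⟩ := hd3
      have hc1 : c = 1 := by
        rcases c with _ | _ | c
        · omega
        · rfl
        · exfalso
          nlinarith [Nat.zero_le (q' * c)]
      rw [hc1, mul_one] at hc
      omega
  have ha4 : a = 4 := by rw [hai, hi_eq]; norm_num
  refine ⟨ha4, rfl, ?_⟩
  intro r hr hr8
  constructor
  · intro hrπ
    by_contra hcon
    have hr2 : r ≠ 2 := fun h => hcon (Or.inl h)
    have hr3 : r ≠ 3 := fun h => hcon (Or.inr h)
    obtain ⟨-, hra, -⟩ := star r hr hrπ hr2 (by omega)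
    have hr4 : r = 4 := by
      have := hr.two_le
      omega
    rw [hr4] at hr
    norm_num at hr
  · rintro (rfl | rfl)
    · exact hp₀π
    · exact hall 3 hr (by omega)

end Cfsg.Agent.Lib.Helper8.HSB4
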