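import Mathlib
import Cfsg.Agent.Lib.Helper96.HallSymStmt

/-!
# S2536 piece EK3 (the second case of the binomial lemma)
-/

set_option autoImplicit false

namespace Cfsg.Agent.Lib.Helper8.HSEK3

open Equiv Cfsg.Agent.Lib.Helper96.HallSymStmt

theorem desc4 (n : ℕ) : n.descFactorial 4 = (n - 3) * ((n - 2) * ((n - 1) * n)) := by
  simp [Nat.descFactorial]

theorem no_sol (a b b0 C : ℕ) (h : (a + b - 1) * (b + 2) = C)
    (h1 : (a + b0 - 1) * (b0 + 2) < C) (h2 : C < (a + b0) * (b0 + 3)) : False := by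
  rcases Nat.lt_or_ge b (b0 + 1) with hb | hb
  · have : (a + b - 1) * (b + 2) ≤ (a + b0 - 1) * (b0 + 2) :=
      Nat.mul_le_mul (by omega) (by omega)
    omega
  · have : (a + b0) * (b0 + 3) ≤ (a + b - 1) * (b + 2) :=
      Nat.mul_le_mul (by omega) (by omega)
    omega

theorem sol_eq (a b b0 C : ℕ) (hb0 : 1 ≤ b0) (h : (a + b - 1) * (b + 2) = C)
    (h1 : (a + b0 - 2) * (b0 + 1) < C) (h2 : C < (a + b0) * (b0 + 3)) : b = b0 := by
  by_contra hne
  rcases Nat.lt_or_ge b b0 with hb | hb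
  · have : (a + b - 1) * (b + 2) ≤ (a + b0 - 2) * (b0 + 1) :=
      Nat.mul_le_mul (by omega) (by omega)
    omega
  · have : (a + b0) * (b0 + 3) ≤ (a + b - 1) * (b + 2) :=
      Nat.mul_le_mul (by omega) (by omega)
    omega

theorem divs (N : ℕ) (h : N ∣ 862400) :
    ∃ i j k l : ℕ, i ≤ 6 ∧ j ≤ 2 ∧ k ≤ 2 ∧ l ≤ 1 ∧ N = 2 ^ i * (5 ^ j * (7 ^ k * 11 ^ l)) := by
  have e : (862400 : ℕ) = 2 ^ 6 * (5 ^ 2 * (7 ^ 2 * 11 ^ 1)) := by norm_num
  rw [e] at h
  obtain ⟨y, z, hy, hz, rfl⟩ := (Nat.dvd_mul).1 h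
  obtain ⟨z1, z2, hz1, hz2, rfl⟩ := (Nat.dvd_mul).1 hz
  obtain ⟨z3, z4, hz3, hz4, rfl⟩ := (Nat.dvd_mul).1 hz2
  obtain ⟨i, hi, rfl⟩ := (Nat.dvd_prime_pow Nat.prime_two).1 hy
  obtain ⟨j, hj, rfl⟩ := (Nat.dvd_prime_pow (by norm_num : Nat.Prime 5)).1 hz1
  obtain ⟨k, hk, rfl⟩ := (Nat.dvd_prime_pow (by norm_num : Nat.Prime 7)).1 hz3
  obtain ⟨l, hl, rfl⟩ := (Nat.dvd_prime_pow (by norm_num : Nat.Prime 11)).1 hz4
  exact ⟨i, j, k, l, hi, hj, hk, hl, rfl⟩

theorem cands (a : ℕ) (h5 : 5 ≤ a) (hodd : a % 2 = 1) (h : 3 * a + 5 ∣ 862400) :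
    a = 5 ∨ a = 9 ∨ a = 13 ∨ a = 15 ∨ a = 17 ∨ a = 25 ∨ a = 31 ∨ a = 35 ∨ a = 45 ∨ a = 57 ∨ a
      = 65 ∨ a = 73 ∨ a = 101 ∨ a = 105 ∨ a = 115 ∨ a = 129 ∨ a = 145 ∨ a = 185 ∨ a = 233 ∨ a =
      255 ∨ a = 265 ∨ a = 325 ∨ a = 365 ∨ a = 409 ∨ a = 465 ∨ a = 521 ∨ a = 585 ∨ a = 717 ∨ a =
      745 ∨ a = 815 ∨ a = 1025 ∨ a = 1305 ∨ a = 1465 ∨ a = 1641 ∨ a = 1795 ∨ a = 1865 ∨ a = 2565
      ∨ a = 2873 ∨ a = 3265 ∨ a = 4105 ∨ a = 5225 ∨ a = 5865 ∨ a = 7185 ∨ a = 10265 ∨ a = 11497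
      ∨ a = 13065 ∨ a = 17965 ∨ a = 28745 ∨ a = 41065 ∨ a = 71865 ∨ a = 287465 := by
  obtain ⟨i, j, k, l, hi, hj, hk, hl, hN⟩ := divs _ h
  interval_cases i <;> interval_cases j <;> interval_cases k <;> interval_cases l <;>
    norm_num at hN <;> omega

theorem int_core (A B : ℤ) (hA : 5 ≤ A) (hB : A ≤ B)
    (hE : (A + B - 1) * (B + 2) = 3 * A * (A - 1))
    (hD1 : (A + B - 1) * (A + B - 3) ∣ A * (A - 1) * (A - 2) * (A - 3))
    (hD2 : (B + 2) * (B + 4) ∣ A * (A - 1) * (A - 2) * (A - 3)) :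
    (3 * A + 5) ∣ 862400 ∧ (A + B - 3) ∣ (A - 5) * (A - 2) * (A - 3) := by
  obtain ⟨c, hc⟩ := hD1
  obtain ⟨d, hd⟩ := hD2
  have hne1 : A + B - 1 ≠ 0 := by omega
  have hne2 : B + 2 ≠ 0 := by omega
  have hne3 : A - 2 ≠ 0 := by omega
  have h1 : (B + 2) * (A - 2) * (A - 3) = 3 * (A + B - 3) * c := by
    apply mul_left_cancel₀ hne1
    linear_combination (A - 2) * (A - 3) * hE + 3 * hc
  have h2 : (A + B - 1) * (A - 2) * (A - 3) = 3 * (B + 4) * d := by
    apply mul_left_cancel₀ hne2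
    linear_combination (A - 2) * (A - 3) * hE + 3 * hd
  have hu : (A - 5) * (A - 2) * (A - 3) = (A + B - 3) * ((A - 2) * (A - 3) - 3 * c) := by
    linear_combination (-1 : ℤ) * h1
  have hw : (A - 5) * (A - 2) * (A - 3) = (B + 4) * (3 * d - (A - 2) * (A - 3)) := by
    linear_combination h2
  have hDE : (A + B - 3) * (B + 4) = (3 * A + 5) * (A - 2) := by
    linear_combination hE
  have h3 : (A - 2) * (A - 3) ^ 2 * (A - 5) ^ 2
      = (3 * A + 5) * (((A - 2) * (A - 3) - 3 * c) * (3 * d - (A - 2) * (A - 3))) := by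
    apply mul_left_cancel₀ hne3
    linear_combination (A - 5) * (A - 2) * (A - 3) * hu
      + (A + B - 3) * ((A - 2) * (A - 3) - 3 * c) * hw
      + ((A - 2) * (A - 3) - 3 * c) * (3 * d - (A - 2) * (A - 3)) * hDE
  refine ⟨?_, ⟨_, hu⟩⟩
  refine ⟨(3 * A + 5) ^ 4 - 79 * (3 * A + 5) ^ 3 + 2464 * (3 * A + 5) ^ 2 - 37916 * (3 * A + 5)
    + 287840 - 243 * (((A - 2) * (A - 3) - 3 * c) * (3 * d - (A - 2) * (A - 3))), ?_⟩
  linear_combination (-243 : ℤ) * h3

theorem main : Cfsg.Agent.Lib.Helper96.HallSymStmt.EK3' := by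
  intro hTL a b ha hab hNS hodd heq
  obtain ⟨c, hc⟩ := hodd
  have hE : (a + b - 1) * (b + 2) = 3 * (a * (a - 1)) := by omega
  have hEz : ((a : ℤ) + b - 1) * ((b : ℤ) + 2) = 3 * (a : ℤ) * ((a : ℤ) - 1) := by
    have h1 : ((a + b - 1 : ℕ) : ℤ) = (a : ℤ) + b - 1 := by omega
    have h2 : ((a - 1 : ℕ) : ℤ) = (a : ℤ) - 1 := by omega
    have h3 := congrArg (Nat.cast : ℕ → ℤ) hE
    push_cast at h3
    rw [h1, h2] at h3
    linear_combination h3
  -- `b` is even
  have hbe : b % 2 = 0 := by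
    by_contra hb
    obtain ⟨d, hd⟩ : ∃ d : ℕ, b = 2 * d + 1 := ⟨b / 2, by omega⟩
    have hz : ((2 * (c : ℤ) + 1) + (2 * (d : ℤ) + 1) - 1) * ((2 * (d : ℤ) + 1) + 2)
        = 3 * (2 * (c : ℤ) + 1) * ((2 * (c : ℤ) + 1) - 1) := by
      have := hEz
      rw [hc, hd] at this
      push_cast at this
      exact this
    have hz2 : (2 : ℤ) * (2 * c * d + 3 * c + 2 * d * d + 4 * d + 1 - 3 * c * (2 * c + 1)) = -1 := by
      linear_combination hz
    omega
  obtain ⟨d, hd⟩ : ∃ d : ℕ, b = 2 * d := ⟨b / 2, by omega⟩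
  -- `a ≠ 3`
  have ha5 : 5 ≤ a := by
    by_contra h5
    have ha3 : a = 3 := by omega
    subst ha3
    exact no_sol 3 b 2 _ hE (by norm_num) (by norm_num)
  have hprime2 : ∀ q m : ℕ, q.Prime → q ∣ 2 * m → 1 ≤ m → m ≤ b → q ≤ b := by
    intro q m hq hqm hm1 hmb
    rcases (Nat.Prime.dvd_mul hq).1 hqm with h | h
    · have := Nat.le_of_dvd (by norm_num) h
      omega
    · have := Nat.le_of_dvd (by omega) h
      omega
  -- the two applications of TL
  have hT1 : (a + b - 1) * (a + b - 3) ∣ a.descFactorial 4 := by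
    refine hTL a b hNS 4 0 (by omega) _ ?_ ?_
    · intro q hq hqN
      rcases (Nat.Prime.dvd_mul hq).1 hqN with h | h
      · have e : a + b - 1 = 2 * (c + d) := by omega
        rw [e] at h
        exact hprime2 q _ hq h (by omega) (by omega)
      · have e : a + b - 3 = 2 * (c + d - 1) := by omega
        rw [e] at h
        exact hprime2 q _ hq h (by omega) (by omega)
    · rw [Nat.descFactorial_zero, mul_one, desc4]
      refine ⟨(a + b - 2) * (a + b), ?_⟩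
      ring
  have hT2 : (b + 2) * (b + 4) ∣ a.descFactorial 4 := by
    have h := hTL a b hNS 0 4 (by omega) ((b + 2) * (b + 4)) ?_ ?_
    · rw [zero_add] at h
      exact h
    · intro q hq hqN
      rcases (Nat.Prime.dvd_mul hq).1 hqN with h | h
      · have e : b + 2 = 2 * (d + 1) := by omega
        rw [e] at h
        exact hprime2 q _ hq h (by omega) (by omega)
      · have e : b + 4 = 2 * (d + 2) := by omega
        rw [e] at h
        exact hprime2 q _ hq h (by omega) (by omega)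
    · rw [Nat.descFactorial_zero, one_mul, desc4]
      refine ⟨(b + 1) * (b + 3), ?_⟩
      have e1 : b + 4 - 3 = b + 1 := by omega
      have e2 : b + 4 - 2 = b + 2 := by omega
      have e3 : b + 4 - 1 = b + 3 := by omega
      rw [e1, e2, e3]
      ring
  have cast4 : ((a.descFactorial 4 : ℕ) : ℤ)
      = (a : ℤ) * ((a : ℤ) - 1) * ((a : ℤ) - 2) * ((a : ℤ) - 3) := by
    rw [desc4]
    have h1 : ((a - 1 : ℕ) : ℤ) = (a : ℤ) - 1 := by omega
    have h2 : ((a - 2 : ℕ) : ℤ) = (a : ℤ) - 2 := by omega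
    have h3 : ((a - 3 : ℕ) : ℤ) = (a : ℤ) - 3 := by omega
    push_cast
    rw [h1, h2, h3]
    ring
  have hD1 : ((a : ℤ) + b - 1) * ((a : ℤ) + b - 3)
      ∣ (a : ℤ) * ((a : ℤ) - 1) * ((a : ℤ) - 2) * ((a : ℤ) - 3) := by
    have h := Int.natCast_dvd_natCast.2 hT1
    rw [cast4] at h
    have h1 : ((a + b - 1 : ℕ) : ℤ) = (a : ℤ) + b - 1 := by omega
    have h3 : ((a + b - 3 : ℕ) : ℤ) = (a : ℤ) + b - 3 := by omega
    push_cast at h
    rw [h1, h3] at h
    exact h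
  have hD2 : ((b : ℤ) + 2) * ((b : ℤ) + 4)
      ∣ (a : ℤ) * ((a : ℤ) - 1) * ((a : ℤ) - 2) * ((a : ℤ) - 3) := by
    have h := Int.natCast_dvd_natCast.2 hT2
    rw [cast4] at h
    push_cast at h
    exact h
  obtain ⟨hdv, hDP⟩ := int_core (a : ℤ) (b : ℤ) (by omega) (by omega) hEz hD1 hD2
  have hdvN : 3 * a + 5 ∣ 862400 := by
    have : ((3 * a + 5 : ℕ) : ℤ) ∣ ((862400 : ℕ) : ℤ) := by
      push_cast
      exact hdv
    exact Int.natCast_dvd_natCast.1 this
  rcases cands a ha5 (by omega) hdvN with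
    rfl | rfl | rfl | rfl | rfl | rfl | rfl | rfl | rfl | rfl | rfl | rfl | rfl | rfl | rfl |
    rfl | rfl | rfl | rfl | rfl | rfl | rfl | rfl | rfl | rfl | rfl | rfl | rfl | rfl | rfl |
    rfl | rfl | rfl | rfl | rfl | rfl | rfl | rfl | rfl | rfl | rfl | rfl | rfl | rfl | rfl |
    rfl | rfl | rfl | rfl | rfl | rfl
  · exact no_sol 5 b 4 _ hE (by norm_num) (by norm_num)
  · have hb10 : b = 10 := sol_eq 9 b 10 _ (by norm_num) hE (by norm_num) (by norm_num)
    subst hb10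
    norm_num at hDP
  · exact no_sol 13 b 15 _ hE (by norm_num) (by norm_num)
  · exact no_sol 15 b 17 _ hE (by norm_num) (by norm_num)
  · exact no_sol 17 b 20 _ hE (by norm_num) (by norm_num)
  · exact no_sol 25 b 30 _ hE (by norm_num) (by norm_num)
  · exact no_sol 31 b 38 _ hE (by norm_num) (by norm_num)
  · exact no_sol 35 b 43 _ hE (by norm_num) (by norm_num)
  · exact no_sol 45 b 56 _ hE (by norm_num) (by norm_num)
  · exact no_sol 57 b 72 _ hE (by norm_num) (by norm_num)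
  · exact no_sol 65 b 82 _ hE (by norm_num) (by norm_num)
  · exact no_sol 73 b 93 _ hE (by norm_num) (by norm_num)
  · exact no_sol 101 b 129 _ hE (by norm_num) (by norm_num)
  · exact no_sol 105 b 135 _ hE (by norm_num) (by norm_num)
  · exact no_sol 115 b 148 _ hE (by norm_num) (by norm_num)
  · exact no_sol 129 b 166 _ hE (by norm_num) (by norm_num)
  · exact no_sol 145 b 187 _ hE (by norm_num) (by norm_num)
  · exact no_sol 185 b 239 _ hE (by norm_num) (by norm_num)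
  · exact no_sol 233 b 301 _ hE (by norm_num) (by norm_num)
  · exact no_sol 255 b 330 _ hE (by norm_num) (by norm_num)
  · exact no_sol 265 b 343 _ hE (by norm_num) (by norm_num)
  · exact no_sol 325 b 421 _ hE (by norm_num) (by norm_num)
  · exact no_sol 365 b 473 _ hE (by norm_num) (by norm_num)
  · exact no_sol 409 b 531 _ hE (by norm_num) (by norm_num)
  · exact no_sol 465 b 604 _ hE (by norm_num) (by norm_num)
  · exact no_sol 521 b 676 _ hE (by norm_num) (by norm_num)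
  · exact no_sol 585 b 760 _ hE (by norm_num) (by norm_num)
  · exact no_sol 717 b 932 _ hE (by norm_num) (by norm_num)
  · exact no_sol 745 b 968 _ hE (by norm_num) (by norm_num)
  · exact no_sol 815 b 1060 _ hE (by norm_num) (by norm_num)
  · exact no_sol 1025 b 1333 _ hE (by norm_num) (by norm_num)
  · exact no_sol 1305 b 1698 _ hE (by norm_num) (by norm_num)
  · exact no_sol 1465 b 1906 _ hE (by norm_num) (by norm_num)
  · exact no_sol 1641 b 2136 _ hE (by norm_num) (by norm_num)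
  · exact no_sol 1795 b 2336 _ hE (by norm_num) (by norm_num)
  · exact no_sol 1865 b 2427 _ hE (by norm_num) (by norm_num)
  · exact no_sol 2565 b 3339 _ hE (by norm_num) (by norm_num)
  · exact no_sol 2873 b 3741 _ hE (by norm_num) (by norm_num)
  · exact no_sol 3265 b 4251 _ hE (by norm_num) (by norm_num)
  · exact no_sol 4105 b 5346 _ hE (by norm_num) (by norm_num)
  · exact no_sol 5225 b 6805 _ hE (by norm_num) (by norm_num)
  · exact no_sol 5865 b 7639 _ hE (by norm_num) (by norm_num)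
  · exact no_sol 7185 b 9358 _ hE (by norm_num) (by norm_num)
  · exact no_sol 10265 b 13371 _ hE (by norm_num) (by norm_num)
  · exact no_sol 11497 b 14976 _ hE (by norm_num) (by norm_num)
  · exact no_sol 13065 b 17019 _ hE (by norm_num) (by norm_num)
  · exact no_sol 17965 b 23402 _ hE (by norm_num) (by norm_num)
  · exact no_sol 28745 b 37446 _ hE (by norm_num) (by norm_num)
  · exact no_sol 41065 b 53496 _ hE (by norm_num) (by norm_num)
  · exact no_sol 71865 b 93622 _ hE (by norm_num) (by norm_num)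
  · exact no_sol 287465 b 374500 _ hE (by norm_num) (by norm_num)

end Cfsg.Agent.Lib.Helper8.HSEK3
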