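import Mathlib
import Cfsg.Agent.Lib.Helper96.HallSymStmt

/-!
# S2536 piece STAR1 (base `p` digit sums)
-/

set_option autoImplicit false

namespace Cfsg.Agent.Lib.Helper8.HSSTAR1

open Equiv Cfsg.Agent.Lib.Helper96.HallSymStmt

/-- the base `p` digit sum -/
def ds (p n : ℕ) : ℕ := (p.digits n).sum

theorem ds_le (p n : ℕ) : ds p n ≤ n := Nat.digit_sum_le p n

theorem leg (p : ℕ) [Fact p.Prime] (n : ℕ) :
    (p - 1) * padicValNat p n.factorial + ds p n = n := by
  have h := sub_one_mul_padicValNat_factorial (p := p) n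
  have h2 := ds_le p n
  unfold ds at *
  omega

theorem ds_step (p : ℕ) (hp : 1 < p) (n : ℕ) (hn : 0 < n) :
    ds p n = n % p + ds p (n / p) := by
  unfold ds
  rw [Nat.digits_def' hp hn, List.sum_cons]

theorem ds_zero (p : ℕ) : ds p 0 = 0 := by simp [ds]

theorem ds_step' (p : ℕ) (hp : 1 < p) (n : ℕ) :
    ds p n = n % p + ds p (n / p) := by
  rcases Nat.eq_zero_or_pos n with rfl | hn
  · simp [ds_zero]
  · exact ds_step p hp n hn

theorem ds_add (p : ℕ) [hp : Fact p.Prime] (m n : ℕ) : ds p (m + n) ≤ ds p m + ds p n := by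
  have h1 := leg p m
  have h2 := leg p n
  have h3 := leg p (m + n)
  have hd : m.factorial * n.factorial ∣ (m + n).factorial :=
    Nat.factorial_mul_factorial_dvd_factorial_add m n
  have hv : padicValNat p m.factorial + padicValNat p n.factorial
      ≤ padicValNat p (m + n).factorial := by
    rw [← padicValNat.mul (Nat.factorial_ne_zero m) (Nat.factorial_ne_zero n)]
    exact (padicValNat_dvd_iff_le (Nat.factorial_ne_zero _)).1
      ((pow_padicValNat_dvd).trans hd)
  have hv' : (p - 1) * (padicValNat p m.factorial + padicValNat p n.factorial)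
      ≤ (p - 1) * padicValNat p (m + n).factorial := Nat.mul_le_mul_left _ hv
  rw [Nat.mul_add] at hv'
  omega

theorem ds_mul_le (p : ℕ) [hp : Fact p.Prime] (c m : ℕ) : ds p (c * m) ≤ c * ds p m := by
  induction c with
  | zero => simp [ds_zero]
  | succ c ih =>
    have := ds_add p (c * m) m
    have e : (c + 1) * m = c * m + m := by ring
    have e' : (c + 1) * ds p m = c * ds p m + ds p m := by ring
    rw [e, e']
    omega

theorem ds_base_mul (p : ℕ) (hp : 1 < p) (m : ℕ) : ds p (p * m) = ds p m := by
  rw [ds_step' p hp (p * m)]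
  have h1 : p * m % p = 0 := Nat.mul_mod_right p m
  have h2 : p * m / p = m := Nat.mul_div_cancel_left m (by omega)
  rw [h1, h2, zero_add]

theorem ds_submul (p : ℕ) [hp : Fact p.Prime] (a : ℕ) :
    ∀ b : ℕ, ds p (a * b) ≤ ds p a * ds p b := by
  have hp1 : 1 < p := hp.out.one_lt
  intro b
  induction b using Nat.strong_induction_on with
  | _ b ih =>
    rcases Nat.eq_zero_or_pos b with rfl | hb
    · simp [ds_zero]
    · have hlt : b / p < b := Nat.div_lt_self hb hp1
      have ih' := ih (b / p) hlt
      have hb' : b = p * (b / p) + b % p := (Nat.div_add_mod b p).symm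
      have e : a * b = p * (a * (b / p)) + (b % p) * a := by
        conv_lhs => rw [hb']
        ring
      have h1 := ds_add p (p * (a * (b / p))) ((b % p) * a)
      have h2 := ds_base_mul p hp1 (a * (b / p))
      have h3 := ds_mul_le p (b % p) a
      have h4 := ds_step p hp1 b hb
      rw [e, h4]
      have e2 : ds p a * (b % p + ds p (b / p)) = (b % p) * ds p a + ds p a * ds p (b / p) := by
        ring
      rw [e2]
      omega

theorem ds_lt (p : ℕ) (hp : 1 < p) (b : ℕ) (hb : p ≤ b) : ds p b < b := by
  have hb0 : 0 < b := by omega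
  have h4 := ds_step p hp b hb0
  have h5 := ds_le p (b / p)
  have hb' : p * (b / p) + b % p = b := Nat.div_add_mod b p
  have h6 : 1 ≤ b / p := (Nat.one_le_div_iff (by omega)).2 hb
  have h7 : 2 * (b / p) ≤ p * (b / p) := Nat.mul_le_mul_right _ hp
  omega

theorem ds_eq_zero (p : ℕ) (hp : 1 < p) : ∀ n : ℕ, ds p n = 0 → n = 0 := by
  intro n
  induction n using Nat.strong_induction_on with
  | _ n ih =>
    intro h
    by_contra hn
    have hn0 : 0 < n := Nat.pos_of_ne_zero hn
    have h4 := ds_step p hp n hn0
    have hlt : n / p < n := Nat.div_lt_self hn0 hp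
    have h5 := ih (n / p) hlt (by omega)
    have hb' : p * (n / p) + n % p = n := Nat.div_add_mod n p
    rw [h5] at hb'
    omega

theorem ds_le_one (p : ℕ) (hp : 1 < p) : ∀ n : ℕ, ds p n ≤ 1 → n = 0 ∨ ∃ e : ℕ, n = p ^ e := by
  intro n
  induction n using Nat.strong_induction_on with
  | _ n ih =>
    intro h
    rcases Nat.eq_zero_or_pos n with rfl | hn0
    · exact Or.inl rfl
    · right
      have h4 := ds_step p hp n hn0
      have hlt : n / p < n := Nat.div_lt_self hn0 hp
      have hb' : p * (n / p) + n % p = n := Nat.div_add_mod n p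
      rcases Nat.eq_zero_or_pos (n % p) with h0 | h0
      · rcases ih (n / p) hlt (by omega) with h5 | ⟨e, he⟩
        · rw [h5] at hb'
          omega
        · refine ⟨e + 1, ?_⟩
          rw [he, h0] at hb'
          rw [pow_succ, ← hb']
          ring
      · have h5 : ds p (n / p) = 0 := by omega
        have h6 := ds_eq_zero p hp _ h5
        rw [h6] at hb'
        refine ⟨0, ?_⟩
        have : ds p (n / p) = 0 := h5
        have h7 : n % p = 1 := by omega
        rw [pow_zero]
        omega

theorem main : Cfsg.Agent.Lib.Helper96.HallSymStmt.STAR1 := by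
  intro p a b hp ha hb h
  haveI : Fact p.Prime := ⟨hp⟩
  have hp1 : 1 < p := hp.one_lt
  by_contra hcon
  push_neg at hcon
  obtain ⟨hne, hpb⟩ := hcon
  have hsa : 2 ≤ ds p a := by
    by_contra h2
    rcases ds_le_one p hp1 a (by omega) with h0 | ⟨e, he⟩
    · omega
    · exact hne e he
  have hsb : ds p b < b := ds_lt p hp1 b hpb
  have hsub := ds_submul p a b
  have l1 := leg p (a * b)
  have l2 := leg p a
  have l3 := leg p b
  have hmul : (p - 1) * padicValNat p (a * b).factorial
      ≤ (p - 1) * (b * padicValNat p a.factorial + padicValNat p b.factorial) :=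
    Nat.mul_le_mul_left _ h
  have l2' : b * ((p - 1) * padicValNat p a.factorial) + b * ds p a = b * a := by
    rw [← Nat.mul_add, l2]
  have e1 : (p - 1) * (b * padicValNat p a.factorial + padicValNat p b.factorial)
      = b * ((p - 1) * padicValNat p a.factorial) + (p - 1) * padicValNat p b.factorial := by
    ring
  rw [e1] at hmul
  have hkey : ds p a * ds p b + b < b * ds p a + ds p b := by
    obtain ⟨s, hs⟩ : ∃ s, ds p a = s + 2 := ⟨ds p a - 2, by omega⟩
    obtain ⟨t, ht⟩ : ∃ t, b = ds p b + t + 1 := ⟨b - ds p b - 1, by omega⟩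
    rw [hs]
    conv_rhs => rw [ht]
    conv_lhs => rw [ht]
    nlinarith [Nat.zero_le (s * t), Nat.zero_le s, Nat.zero_le t]
  have e3 : a * b = b * a := Nat.mul_comm a b
  omega

end Cfsg.Agent.Lib.Helper8.HSSTAR1
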