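import Mathlib
import Cfsg.Agent.Lib.Helper37.HypStmt
import Cfsg.Agent.Lib.Helper44.OEmb
import Cfsg.Agent.Lib.Helper44.NegPairs
import Cfsg.Agent.Lib.Helper44.WittND2
import Cfsg.Agent.Lib.Helper44.TSTrans

/-!
# S5992 / HYPSUB: completing a nondegenerate even-dimensional `E` to a hyperbolic `m`-space
inside `E ⊥ Y`
-/

set_option autoImplicit false

namespace Cfsg.Agent.Lib.Helper8.HypHYPSUB

open Module QuadraticMap
open Cfsg.Agent.Lib.Helper44.QSpace Cfsg.Agent.Lib.Helper44.NegPairs Cfsg.Agent.Lib.Helper44.OEmb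
open Cfsg.Agent.Lib.Helper44.WittND Cfsg.Agent.Lib.Helper44.WittND2
open Cfsg.Agent.Lib.Helper44.TSTrans
open Cfsg.Agent.Lib.Helper37.HypStmt

universe u v w

section gen

variable {F : Type w} [Field F]

theorem isom_polar {V₁ : Type u} {V₂ : Type v} [AddCommGroup V₁] [Module F V₁] [AddCommGroup V₂]
    [Module F V₂] {Q₁ : QuadraticForm F V₁} {Q₂ : QuadraticForm F V₂} (j : V₁ →ₗ[F] V₂)
    (hj : ∀ v, Q₂ (j v) = Q₁ v) (x y : V₁) : polar Q₂ (j x) (j y) = polar Q₁ x y := by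
  unfold polar
  rw [← map_add, hj, hj, hj]

theorem isom_inj {V₁ : Type u} {V₂ : Type v} [AddCommGroup V₁] [Module F V₁] [AddCommGroup V₂]
    [Module F V₂] {Q₁ : QuadraticForm F V₁} {Q₂ : QuadraticForm F V₂} (hS : Sep Q₁)
    (j : V₁ →ₗ[F] V₂) (hj : ∀ v, Q₂ (j v) = Q₁ v) : Function.Injective j := by
  rw [injective_iff_map_eq_zero]
  intro x hx
  apply hS
  intro y
  rw [← isom_polar j hj, hx]
  simp [polar]

/-- The first half of the coordinates of the standard hyperbolic space. -/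
def inlMap (h : ℕ) : (Fin h → F) →ₗ[F] (Fin h ⊕ Fin h → F) where
  toFun a := Sum.elim a 0
  map_add' a b := by
    ext s
    rcases s with s | s <;> simp
  map_smul' c a := by
    ext s
    rcases s with s | s <;> simp

theorem inlMap_inj (h : ℕ) : Function.Injective (inlMap (F := F) h) := by
  intro a b hab
  ext i
  have := congrFun hab (Sum.inl i)
  simpa [inlMap] using this

theorem plusQ_inlMap (h : ℕ) (a : Fin h → F) : plusQ h F (inlMap h a) = 0 := by
  rw [coe_plusQ]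
  unfold Cfsg.quadFormPlus
  simp [inlMap]

theorem core [Fintype F] {V : Type u} [AddCommGroup V] [Module F V] [FiniteDimensional F V]
    (Q : QuadraticForm F V) (E Y : Submodule F V) (hE : NDsub Q E) (hY : NDsub Q Y)
    (hEY : ∀ u ∈ E, ∀ v ∈ Y, polar Q u v = 0) (k h : ℕ) (hk : finrank F E = 2 * k)
    (hkh : k < h) (hY2 : 2 * h - 2 * k < finrank F Y) :
    ∃ (W₁ : Submodule F V) (Φ : (Fin h ⊕ Fin h → F) →ₗ[F] V), W₁ ≤ Y ∧
      (∀ x, Q (Φ x) = plusQ h F x) ∧ LinearMap.range Φ = E ⊔ W₁ := by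
  classical
  have hSH : Sep (plusQ h F) := sep_plusQ h
  have hfH : finrank F (Fin h ⊕ Fin h → F) = 2 * h := by
    rw [Module.finrank_fintype_fun_eq_card, Fintype.card_sum, Fintype.card_fin]
    ring
  obtain ⟨j, hj⟩ := exists_embedding k E (res Q E) (Fin h ⊕ Fin h → F) (plusQ h F) hk
    (by rw [hfH]; omega) (sep_res_of_ndsub hE) hSH
  have hjinj := isom_inj (sep_res_of_ndsub hE) j hj
  obtain ⟨T, hTdef⟩ : ∃ T, T = LinearMap.BilinForm.orthogonal (polarBilin (plusQ h F))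
      (LinearMap.range j) := ⟨_, rfl⟩
  have hTmem : ∀ t ∈ T, ∀ v : E, polar (plusQ h F) (j v) t = 0 := by
    intro t ht v
    rw [hTdef] at ht
    exact ht (j v) ⟨v, rfl⟩
  have hAT : LinearMap.range j ⊓ T = ⊥ := by
    rw [eq_bot_iff]
    rintro x ⟨⟨v, rfl⟩, hx⟩
    have hv : v = 0 := by
      apply sep_res_of_ndsub hE
      intro y
      rw [← isom_polar j hj, polar_comm]
      exact hTmem _ hx y
    rw [hv, map_zero]
    exact Submodule.zero_mem _
  have hfA : finrank F (LinearMap.range j) = 2 * k := by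
    rw [← hk]
    exact LinearMap.finrank_range_of_inj hjinj
  have hfT : finrank F T = 2 * h - 2 * k := by
    rw [hTdef, LinearMap.BilinForm.finrank_orthogonal (nondegenerate_of_sep hSH), hfH, hfA]
  have hTnd : NDsub (plusQ h F) T := by
    rw [hTdef]
    apply ndsub_orth hSH
    rw [← hTdef]
    exact hAT
  obtain ⟨j', hj'⟩ := exists_embedding (h - k) T (res (plusQ h F) T) Y (res Q Y)
    (by rw [hfT]; omega) (by rw [hfT]; exact hY2) (sep_res_of_ndsub hTnd) (sep_res_of_ndsub hY)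
  -- the two maps out of `E × T`
  obtain ⟨κ₀, hκ₀⟩ : ∃ κ₀ : (E × T) →ₗ[F] (Fin h ⊕ Fin h → F), κ₀ = LinearMap.coprod j T.subtype :=
    ⟨_, rfl⟩
  obtain ⟨Ψ, hΨ⟩ : ∃ Ψ : (E × T) →ₗ[F] V, Ψ = LinearMap.coprod E.subtype (Y.subtype ∘ₗ j') :=
    ⟨_, rfl⟩
  have hκ₀app : ∀ p : E × T, κ₀ p = j p.1 + (p.2 : Fin h ⊕ Fin h → F) := by
    intro p
    rw [hκ₀, LinearMap.coprod_apply]
    rfl
  have hΨapp : ∀ p : E × T, Ψ p = (p.1 : V) + ((j' p.2 : Y) : V) := by
    intro p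
    rw [hΨ, LinearMap.coprod_apply]
    rfl
  have hκinj : Function.Injective κ₀ := by
    rw [injective_iff_map_eq_zero]
    intro p hp
    rw [hκ₀app] at hp
    have h1 : j p.1 ∈ LinearMap.range j ⊓ T := by
      refine ⟨⟨p.1, rfl⟩, ?_⟩
      have h2 : j p.1 = -(p.2 : Fin h ⊕ Fin h → F) := eq_neg_of_add_eq_zero_left hp
      rw [h2]
      exact T.neg_mem p.2.2
    rw [hAT, Submodule.mem_bot] at h1
    have h3 : p.1 = 0 := hjinj (by rw [h1, map_zero])
    have h4 : (p.2 : Fin h ⊕ Fin h → F) = 0 := by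
      rw [h1, zero_add] at hp
      exact hp
    exact Prod.ext h3 (Subtype.ext h4)
  have hdim : finrank F (E × T) = finrank F (Fin h ⊕ Fin h → F) := by
    rw [Module.finrank_prod, hk, hfT, hfH]
    omega
  obtain ⟨κ, hκ⟩ : ∃ κ : (E × T) ≃ₗ[F] (Fin h ⊕ Fin h → F), ∀ p, κ p = κ₀ p :=
    ⟨LinearMap.linearEquivOfInjective κ₀ hκinj hdim, fun p => rfl⟩
  have hiso : ∀ p : E × T, Q (Ψ p) = plusQ h F (κ p) := by
    intro p
    rw [hκ, hκ₀app, hΨapp, q_add, q_add, hEY _ p.1.2 _ (j' p.2).2, hTmem _ p.2.2 p.1, hj]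
    have h5 := hj' p.2
    rw [res_apply, res_apply] at h5
    rw [h5, res_apply]
  refine ⟨LinearMap.range (Y.subtype ∘ₗ j'), Ψ ∘ₗ κ.symm.toLinearMap, ?_, ?_, ?_⟩
  · rintro _ ⟨t, rfl⟩
    exact (j' t).2
  · intro x
    have h6 := hiso (κ.symm x)
    rw [LinearEquiv.apply_symm_apply] at h6
    exact h6
  · rw [LinearMap.range_comp_of_range_eq_top _ (LinearEquiv.range κ.symm), hΨ,
      LinearMap.range_coprod, Submodule.range_subtype]

end gen

theorem ndsub_of_ndeg {F : Type u} [Field F] {d : ℕ} {W : Submodule F (I d → F)}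
    (h : NDeg d F W) : NDsub (oddQ d F) W := by
  intro x hx hxy
  by_contra hx0
  obtain ⟨-, y, hy, hxy'⟩ := h x hx hx0
  exact hxy' (hxy y hy)

theorem main : HypSub.{u} := by
  intro F _ _ hodd d m hm E Y hE hY hEY hEe hEm hYm
  classical
  obtain ⟨h, rfl⟩ : ∃ h, m = 2 * h := by
    obtain ⟨h, hh⟩ := hm
    exact ⟨h, by omega⟩
  obtain ⟨k, hk⟩ : ∃ k, finrank F E = 2 * k := by
    obtain ⟨k, hk⟩ := hEe
    exact ⟨k, by omega⟩
  have hE' : NDsub (oddQ d F) E := ndsub_of_ndeg hE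
  have hY' : NDsub (oddQ d F) Y := ndsub_of_ndeg hY
  obtain ⟨W₁, Φ, hW₁, hΦ, hr⟩ := core (oddQ d F) E Y hE' hY'
    (fun u hu v hv => hEY u hu v hv) k h hk (by omega)
    (by
      have h9 := hYm
      rw [hk] at h9
      exact h9)
  have hinj := isom_inj (sep_plusQ h) Φ hΦ
  have hfH : finrank F (Fin h ⊕ Fin h → F) = 2 * h := by
    rw [Module.finrank_fintype_fun_eq_card, Fintype.card_sum, Fintype.card_fin]
    ring
  refine ⟨W₁, hW₁, ?_, ?_, ?_⟩
  · rw [← hr, LinearMap.finrank_range_of_inj hinj, hfH]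
  · intro w hw hw0
    rw [← hr] at hw
    obtain ⟨z, rfl⟩ := hw
    have hz : z ≠ 0 := by
      rintro rfl
      exact hw0 (map_zero _)
    have hex : ∃ y, polar (plusQ h F) z y ≠ 0 := by
      by_contra hc
      push Not at hc
      exact hz (sep_plusQ h z hc)
    obtain ⟨y, hy⟩ := hex
    have hpol : polar (oddQ d F) (Φ z) (Φ y) = polar (plusQ h F) z y := isom_polar Φ hΦ z y
    have hmem : Φ y ∈ E ⊔ W₁ := by
      rw [← hr]
      exact ⟨y, rfl⟩
    refine ⟨⟨Φ y, hmem, ?_⟩, ⟨Φ y, hmem, ?_⟩⟩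
    · rw [polar_comm]
      show polar (oddQ d F) (Φ z) (Φ y) ≠ 0
      rw [hpol]
      exact hy
    · show polar (oddQ d F) (Φ z) (Φ y) ≠ 0
      rw [hpol]
      exact hy
  · refine ⟨LinearMap.range (Φ ∘ₗ inlMap h), ?_, ?_, ?_⟩
    · rw [← hr]
      rintro _ ⟨a, rfl⟩
      exact ⟨inlMap h a, rfl⟩
    · rintro _ ⟨a, rfl⟩
      show oddQ d F (Φ (inlMap h a)) = 0
      rw [hΦ, plusQ_inlMap]
    · have hinj2 : Function.Injective (Φ ∘ₗ inlMap h) := by
        rw [LinearMap.coe_comp]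
        exact hinj.comp (inlMap_inj h)
      rw [LinearMap.finrank_range_of_inj hinj2, ← hr,
        LinearMap.finrank_range_of_inj hinj, hfH, Module.finrank_fintype_fun_eq_card,
        Fintype.card_fin]

end Cfsg.Agent.Lib.Helper8.HypHYPSUB
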