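import Cfsg.Agent.Lib.Helper59.HypDERELT
import Cfsg.Agent.Lib.Helper44.OTyp3

/-!
# Elements of odd prime order `r ≠ p` with smallest fixed space in even-dimensional orthogonal
groups (generic form, plus and minus corollaries)

`exists_elt`: for a nondegenerate quadratic form `Q` on `τ → F`, `|τ| = 2 (k + 1)`, `q` odd,
`i = ord_r(q)`, `c = cc i ≤ 2 (k + 1)`: there is `g ∈ Ω(Q)` of order `r` whose fixed space has
dimension `(2 (k + 1)) % c`, provided this remainder is positive or the number of singular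
vectors of `Q` is the one forced by `OTyp3.obs_matrix`.
-/

set_option autoImplicit false

namespace Cfsg.Agent.Lib.Helper8.OrdRElt

open Polynomial UniqueFactorizationMonoid Matrix
open Cfsg.Agent.Lib.Helper40.RecipPoly Cfsg.Agent.Lib.Helper44.OCls2 Cfsg.Agent.Lib.Helper44.OCls3
  Cfsg.Agent.Lib.Helper44.OCls4
open Cfsg.Agent.Lib.Helper37.HypStmt (cc)
open Cfsg.Agent.Lib.Helper59.HypDERELT (order_facts exists_block real_pow)

universe u

/-- dimension of the fixed space of a matrix of order prime to the characteristic -/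
theorem finrank_ker {F : Type u} [Field F] {τ : Type} [Fintype τ] [DecidableEq τ]
    (x : Matrix τ τ F) (r : ℕ) (hr0 : (r : F) ≠ 0) (hx : x ^ r = 1) :
    Module.finrank F ↥(LinearMap.ker (Matrix.toLin' x - LinearMap.id)) =
      x.charpoly.rootMultiplicity 1 := by
  have hss : Module.End.IsSemisimple (Matrix.toLin' x) :=
    Cfsg.Agent.Lib.Helper40.SSConj.isSemisimple_toLin' x r hr0 hx
  have h1 : LinearMap.ker (Matrix.toLin' x - LinearMap.id) =
      Module.End.eigenspace (Matrix.toLin' x) 1 := by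
    rw [Module.End.eigenspace_def, one_smul]
    rfl
  rw [h1, ← hss.isFinitelySemisimple.maxGenEigenspace_eq_eigenspace 1,
    LinearMap.finrank_maxGenEigenspace_eq, Matrix.charpoly_toLin']

theorem exists_elt {F : Type u} [Field F] [Fintype F] (p : ℕ) [Fact p.Prime] [CharP F p]
    (hodd : Odd (Fintype.card F)) {τ : Type} [Fintype τ] [DecidableEq τ]
    (Q : QuadraticForm F (τ → F)) (hSQ : Cfsg.Agent.Lib.Helper44.QSpace.Sep Q) (k : ℕ)
    (hτ : Fintype.card τ = 2 * (k + 1))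
    (r : ℕ) [Fact r.Prime] (hr2 : r ≠ 2) (hrp : r ≠ p)
    (hcle : cc (orderOf ((Fintype.card F : ℕ) : ZMod r)) ≤ 2 * (k + 1))
    (hcond : 0 < (2 * (k + 1)) % cc (orderOf ((Fintype.card F : ℕ) : ZMod r)) ∨
      ((Odd (orderOf ((Fintype.card F : ℕ) : ZMod r)) ∨
          Even (2 * (k + 1) / orderOf ((Fintype.card F : ℕ) : ZMod r))) ∧
        Nat.card {v : τ → F // Q v = 0} * Fintype.card F = Fintype.card F ^ (k + 1 + 1)
          + (Fintype.card F ^ (k + 1) - 1) * Fintype.card F ^ (k + 1)) ∨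
      (¬ (Odd (orderOf ((Fintype.card F : ℕ) : ZMod r)) ∨
          Even (2 * (k + 1) / orderOf ((Fintype.card F : ℕ) : ZMod r))) ∧
        Nat.card {v : τ → F // Q v = 0} * Fintype.card F = Fintype.card F ^ (k + 1)
          + Fintype.card F ^ 2 * ((Fintype.card F ^ k - 1) * Fintype.card F ^ k))) :
    ∃ g : Matrix.GeneralLinearGroup τ F, ∃ hg : g ∈ Cfsg.isometryGroup F ⇑Q,
      (⟨g, hg⟩ : ↥(Cfsg.isometryGroup F ⇑Q)) ∈ Cfsg.Omega F ⇑Q ∧ orderOf g = r ∧
      Module.finrank F ↥(LinearMap.ker (Matrix.toLin' (g : Matrix τ τ F) - LinearMap.id)) =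
        (2 * (k + 1)) % cc (orderOf ((Fintype.card F : ℕ) : ZMod r)) := by
  classical
  have hr : r.Prime := Fact.out
  have hrodd : Odd r := hr.odd_of_ne_two hr2
  obtain ⟨c', hreal, hdeg, hnd⟩ := exists_block F p r hr hr2 hrp
  obtain ⟨hipos, hidvd⟩ := order_facts F p r hr hrp
  obtain ⟨i, hi⟩ : ∃ i, i = orderOf ((Fintype.card F : ℕ) : ZMod r) := ⟨_, rfl⟩
  rw [← hi] at hdeg hcle hcond hipos hidvd ⊢
  obtain ⟨t, ht'⟩ := hidvd
  have ht : t * i = r - 1 := by rw [ht', mul_comm]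
  obtain ⟨c0, hc0⟩ : ∃ c0, c0 = cc i := ⟨_, rfl⟩
  rw [← hc0] at hdeg hcle hcond ⊢
  have hc0even : Even c0 := by
    rw [hc0]
    unfold cc
    split_ifs with h
    · exact h
    · exact even_two_mul _
  have hc0pos : 0 < c0 := by
    rw [hc0]
    unfold cc
    split_ifs with h
    · exact hipos
    · omega
  obtain ⟨b, hb⟩ : ∃ b, b = (2 * (k + 1)) / c0 := ⟨_, rfl⟩
  obtain ⟨ι, _, _, s, N, hsc, hsr, hsN, hNdet⟩ := real_pow hreal b
  have hcard : Fintype.card ι = b * c0 := by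
    have h1 := Matrix.charpoly_natDegree_eq_dim s
    rw [hsc, natDegree_pow, hdeg] at h1
    exact h1.symm
  have hbc : b * c0 + (2 * (k + 1)) % c0 = 2 * (k + 1) := by
    rw [hb]
    exact Nat.div_add_mod' _ _
  have hbceven : Even (b * c0) := hc0even.mul_left b
  have h2 : (2 : F) ≠ 0 := Cfsg.Agent.Lib.Helper44.FinSq.two_ne_zero_of_odd_card hodd
  have hSN : Cfsg.Agent.Lib.Helper44.QSpace.Sep (Cfsg.Agent.Lib.Helper44.OExt.qN N) :=
    Cfsg.Agent.Lib.Helper44.OExt.sep_qN hNdet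
  have hLp : Prime (X - C (1 : F)) := (irreducible_X_sub_C 1).prime
  have hsL : ¬ (X - C (1 : F)) ∣ s.charpoly := by
    rw [hsc]
    intro h
    exact hnd (hLp.dvd_of_dvd_pow h)
  have hj : ∃ j : (ι → F) →ₗ[F] (τ → F), ∀ v,
      Q (j v) = Cfsg.Agent.Lib.Helper44.OExt.qN N v := by
    rcases Nat.eq_zero_or_pos ((2 * (k + 1)) % c0) with hk0 | hkpos
    · have hcard' : Fintype.card ι = 2 * (k + 1) := by
        rw [hcard]
        omega
      have hobs := Cfsg.Agent.Lib.Helper44.OTyp3.obs_matrix (p := p)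
        (Cfsg.Agent.Lib.Helper44.OExt.qN N) hSN hcard' r i t hr hr2 hrp hi ht s hsr
        (fun u => Cfsg.Agent.Lib.Helper44.OExt.qN_isom hsN u) hsL
      have hq0 : 0 < Fintype.card F := Fintype.card_pos
      have hc : Nat.card {v : ι → F // Cfsg.Agent.Lib.Helper44.OExt.qN N v = 0} =
          Nat.card {v : τ → F // Q v = 0} := by
        apply Nat.eq_of_mul_eq_mul_right hq0
        rcases hcond with h | ⟨h, hcnt⟩ | ⟨h, hcnt⟩
        · omega
        · rw [hobs.1 h, hcnt]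
        · rw [hobs.2 h, hcnt]
      exact Cfsg.Agent.Lib.Helper44.OTyp1.exists_iso (Cfsg.Agent.Lib.Helper44.OExt.qN N)
        Q hSN hSQ
        (by rw [Module.finrank_fintype_fun_eq_card, hcard'])
        (by rw [Module.finrank_fintype_fun_eq_card, hτ]) hc
    · obtain ⟨k', hk'⟩ := hbceven
      exact Cfsg.Agent.Lib.Helper44.OEmb.exists_embedding (F := F) k' (ι → F)
        (Cfsg.Agent.Lib.Helper44.OExt.qN N) (τ → F) Q
        (by rw [Module.finrank_fintype_fun_eq_card, hcard]; omega)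
        (by rw [Module.finrank_fintype_fun_eq_card, Module.finrank_fintype_fun_eq_card, hcard,
              hτ]; omega) hSN hSQ
  obtain ⟨j, hj⟩ := hj
  obtain ⟨g, hgiso, hgcp, hgr⟩ := Cfsg.Agent.Lib.Helper44.OExt.exists_ext
    Q N s hNdet hsN r hr.pos hsr j hj
    (by rw [hcard, hτ]; omega)
  have hr0 : (r : F) ≠ 0 := by
    rw [Ne, CharP.cast_eq_zero_iff F p]
    intro h
    exact hrp ((Nat.prime_dvd_prime_iff_eq (Fact.out : p.Prime) hr).mp h).symm
  have hgrM : (g : Matrix τ τ F) ^ r = 1 := by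
    rw [← Units.val_pow_eq_pow_val, hgr]
    rfl
  have hfix : Module.finrank F ↥(LinearMap.ker (Matrix.toLin' (g : Matrix τ τ F) -
      LinearMap.id)) = (2 * (k + 1)) % c0 := by
    rw [finrank_ker _ r hr0 hgrM, hgcp, hsc, hcard, hτ]
    have hc'0 : c' ≠ 0 := by
      intro h
      exact hnd (h ▸ dvd_zero _)
    have hne : (X - C (1 : F)) ^ (2 * (k + 1) - b * c0) * c' ^ b ≠ 0 :=
      mul_ne_zero (pow_ne_zero _ (X_sub_C_ne_zero 1)) (pow_ne_zero _ hc'0)
    rw [rootMultiplicity_mul hne, rootMultiplicity_X_sub_C_pow]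
    have h3 : rootMultiplicity 1 (c' ^ b) = 0 := by
      apply rootMultiplicity_eq_zero
      intro hroot
      have h4 : (X - C (1 : F)) ∣ c' ^ b := dvd_iff_isRoot.mpr hroot
      exact hnd (hLp.dvd_of_dvd_pow h4)
    rw [h3]
    omega
  have hg1 : g ≠ 1 := by
    intro h
    rw [h] at hfix
    have h3 : LinearMap.ker (Matrix.toLin'
        ((1 : Matrix.GeneralLinearGroup τ F) : Matrix τ τ F) - LinearMap.id) = ⊤ := by
      rw [eq_top_iff]
      intro v _
      rw [LinearMap.mem_ker]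
      simp
    rw [h3, finrank_top, Module.finrank_fintype_fun_eq_card, hτ] at hfix
    have := Nat.mod_lt (2 * (k + 1)) hc0pos
    omega
  refine ⟨g, hgiso, ?_, orderOf_eq_prime hgr hg1, hfix⟩
  obtain ⟨a, ha⟩ := hrodd
  obtain ⟨g', hg'⟩ : ∃ g' : ↥(Cfsg.isometryGroup F ⇑Q), g' = ⟨g, hgiso⟩ := ⟨_, rfl⟩
  have hg'r : g' ^ r = 1 := by
    apply Subtype.ext
    rw [Subgroup.coe_pow, hg']
    exact hgr
  have hsq : g' = g' ^ (a + 1) * g' ^ (a + 1) := by
    rw [← pow_add]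
    have h3 : a + 1 + (a + 1) = r + 1 := by omega
    rw [h3, pow_succ, hg'r, one_mul]
  rw [← hg', hsq]
  exact Cfsg.Agent.Lib.Helper14.OrthIndex.sq_mem_omega h2 Q hSQ (by rw [hτ]; omega) _

/-- minus type: `Ω⁻_{2(k+1)}(q)`, form `Cfsg.quadFormMinus k F a c` with anisotropic binary
part. -/
theorem exists_elt_minus {F : Type u} [Field F] [Fintype F] (p : ℕ) [Fact p.Prime] [CharP F p]
    (hodd : Odd (Fintype.card F)) (k : ℕ) (a c : F)
    (hac : ∀ z₁ z₂ : F, z₁ ^ 2 + a * z₁ * z₂ + c * z₂ ^ 2 = 0 → z₁ = 0 ∧ z₂ = 0)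
    (r : ℕ) [Fact r.Prime] (hr2 : r ≠ 2) (hrp : r ≠ p)
    (hcle : cc (orderOf ((Fintype.card F : ℕ) : ZMod r)) ≤ 2 * (k + 1))
    (hcond : 0 < (2 * (k + 1)) % cc (orderOf ((Fintype.card F : ℕ) : ZMod r)) ∨
      ¬ (Odd (orderOf ((Fintype.card F : ℕ) : ZMod r)) ∨
          Even (2 * (k + 1) / orderOf ((Fintype.card F : ℕ) : ZMod r)))) :
    ∃ g : Matrix.GeneralLinearGroup ((Fin k ⊕ Fin k) ⊕ Fin 2) F,
      g ∈ Cfsg.Geo.omegaGL (Cfsg.quadFormMinus k F a c) ∧ orderOf g = r ∧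
      Module.finrank F ↥(LinearMap.ker (Matrix.toLin'
          (g : Matrix ((Fin k ⊕ Fin k) ⊕ Fin 2) ((Fin k ⊕ Fin k) ⊕ Fin 2) F) - LinearMap.id)) =
        (2 * (k + 1)) % cc (orderOf ((Fintype.card F : ℕ) : ZMod r)) := by
  classical
  have h2 : (2 : F) ≠ 0 := Cfsg.Agent.Lib.Helper44.FinSq.two_ne_zero_of_odd_card hodd
  have hcardτ : Fintype.card ((Fin k ⊕ Fin k) ⊕ Fin 2) = 2 * (k + 1) := by
    simp
    omega
  obtain ⟨g, hg, hΩ, hord, hfix⟩ := exists_elt p hodd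
    (Cfsg.Agent.Lib.Helper44.NegPairs.minusQ k F a c)
    (Cfsg.Agent.Lib.Helper44.NegPairs.sep_minusQ h2 k a c hac) k hcardτ r hr2 hrp hcle
    (by
      rcases hcond with h | h
      · exact Or.inl h
      · exact Or.inr (Or.inr ⟨h, Cfsg.Agent.Lib.Helper44.OTyp3.sing_minus k a c hac⟩))
  exact ⟨g, Subgroup.mem_map.mpr ⟨⟨g, hg⟩, hΩ, rfl⟩, hord, hfix⟩

/-- plus type: `Ω⁺_{2(k+1)}(q)`. -/
theorem exists_elt_plus {F : Type u} [Field F] [Fintype F] (p : ℕ) [Fact p.Prime] [CharP F p]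
    (hodd : Odd (Fintype.card F)) (k : ℕ)
    (r : ℕ) [Fact r.Prime] (hr2 : r ≠ 2) (hrp : r ≠ p)
    (hcle : cc (orderOf ((Fintype.card F : ℕ) : ZMod r)) ≤ 2 * (k + 1))
    (hcond : 0 < (2 * (k + 1)) % cc (orderOf ((Fintype.card F : ℕ) : ZMod r)) ∨
      (Odd (orderOf ((Fintype.card F : ℕ) : ZMod r)) ∨
          Even (2 * (k + 1) / orderOf ((Fintype.card F : ℕ) : ZMod r)))) :
    ∃ g : Matrix.GeneralLinearGroup (Fin (k + 1) ⊕ Fin (k + 1)) F,
      g ∈ Cfsg.Geo.omegaGL (Cfsg.quadFormPlus (k + 1) F) ∧ orderOf g = r ∧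
      Module.finrank F ↥(LinearMap.ker (Matrix.toLin'
          (g : Matrix (Fin (k + 1) ⊕ Fin (k + 1)) (Fin (k + 1) ⊕ Fin (k + 1)) F)
            - LinearMap.id)) =
        (2 * (k + 1)) % cc (orderOf ((Fintype.card F : ℕ) : ZMod r)) := by
  classical
  have hcardτ : Fintype.card (Fin (k + 1) ⊕ Fin (k + 1)) = 2 * (k + 1) := by
    simp
    omega
  obtain ⟨g, hg, hΩ, hord, hfix⟩ := exists_elt p hodd
    (Cfsg.Agent.Lib.Helper44.NegPairs.plusQ (k + 1) F)
    (Cfsg.Agent.Lib.Helper44.NegPairs.sep_plusQ (k + 1)) k hcardτ r hr2 hrp hcle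
    (by
      rcases hcond with h | h
      · exact Or.inl h
      · exact Or.inr (Or.inl ⟨h, Cfsg.Agent.Lib.Helper44.OTyp3.sing_plus k⟩))
  exact ⟨g, Subgroup.mem_map.mpr ⟨⟨g, hg⟩, hΩ, rfl⟩, hord, hfix⟩

end Cfsg.Agent.Lib.Helper8.OrdRElt
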