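import Mathlib
import Cfsg.Agent.Lib.Helper96.AltStmt

set_option autoImplicit false

/-!
# Piece OC of S5165: a `PClosed` set of `A_n` with a nontrivial element contains a `p`-cycle
(`p` odd).
-/

namespace Cfsg.Agent.Lib.Helper8.AltOC

open Equiv Cfsg.Agent.Lib.Helper96.AltStmt

/-- two commuting elements killed by `p` lie in a common `p`-subgroup -/
theorem exists_pgroup {G : Type} [Group G] (p : ℕ) [Fact p.Prime] (x y : G) (hx : x ^ p = 1)
    (hy : y ^ p = 1) (hc : x * y = y * x) :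
    ∃ Q : Subgroup G, IsPGroup p Q ∧ x ∈ Q ∧ y ∈ Q := by
  have hz : ∀ z : G, z ^ p = 1 → IsPGroup p (Subgroup.zpowers z) := by
    intro z hz g
    obtain ⟨g, hg⟩ := g
    obtain ⟨k, rfl⟩ := Subgroup.mem_zpowers_iff.mp hg
    refine ⟨1, Subtype.ext ?_⟩
    simp only [pow_one, Subgroup.coe_pow, Subgroup.coe_one]
    rw [← zpow_natCast, ← zpow_mul, mul_comm, zpow_mul, zpow_natCast, hz, one_zpow]
  refine ⟨Subgroup.zpowers x ⊔ Subgroup.zpowers y, ?_, ?_, ?_⟩
  · apply IsPGroup.to_sup_of_normal_right' (hz x hx) (hz y hy)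
    rw [Subgroup.zpowers_le]
    apply Subgroup.centralizer_le_normalizer
    rw [Subgroup.mem_centralizer_iff]
    intro h hh
    obtain ⟨k, rfl⟩ := Subgroup.mem_zpowers_iff.mp hh
    exact (Commute.zpow_left (show Commute y x from hc.symm) k).eq
  · exact Subgroup.mem_sup_left (Subgroup.mem_zpowers x)
  · exact Subgroup.mem_sup_right (Subgroup.mem_zpowers y)

theorem main : OddCycleIn := by
  intro n p _ hp2 hpn X hX ⟨x, hxX, hx1⟩
  have hp := (Fact.out : p.Prime)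
  -- Step 1: an element of order p in X
  obtain ⟨x', hx'X, hx'o⟩ : ∃ x' ∈ X, orderOf x' = p := by
    obtain ⟨k, hk⟩ := hX.pel x hxX
    obtain ⟨j, hjk, hj⟩ := (Nat.dvd_prime_pow hp).mp (orderOf_dvd_of_pow_eq_one hk)
    have hj0 : j ≠ 0 := by
      rintro rfl
      rw [pow_zero, orderOf_eq_one_iff] at hj
      exact hx1 hj
    refine ⟨x ^ p ^ (j - 1), hX.pow x hxX _, ?_⟩
    rw [orderOf_pow_of_dvd (pow_ne_zero _ hp.ne_zero) (by rw [hj]; exact pow_dvd_pow p (by omega)),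
      hj]
    obtain ⟨i, rfl⟩ : ∃ i, j = i + 1 := ⟨j - 1, by omega⟩
    rw [Nat.add_sub_cancel, pow_succ, Nat.mul_div_cancel_left _ (pow_pos hp.pos i)]
  set σ : Perm (Fin n) := (x' : Perm (Fin n)) with hσdef
  have hσo : orderOf σ = p := by rw [hσdef, Subgroup.orderOf_coe, hx'o]
  have hσ1 : σ ≠ 1 := by
    intro h
    rw [h, orderOf_one] at hσo
    exact hp.one_lt.ne hσo
  obtain ⟨a, ha⟩ : ∃ a, σ a ≠ a := by
    by_contra h
    push Not at h
    exact hσ1 (Equiv.ext h)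
  set c₁ : Perm (Fin n) := σ.cycleOf a with hc₁def
  have hc₁ : c₁.IsCycle := Equiv.Perm.isCycle_cycleOf σ ha
  have hc₁o : orderOf c₁ = p := by
    rcases (Nat.dvd_prime hp).mp (hσo ▸ Equiv.Perm.orderOf_cycleOf_dvd_orderOf σ a) with h | h
    · exact absurd (orderOf_eq_one_iff.mp h) hc₁.ne_one
    · exact h
  have hc₁card : c₁.support.card = p := by rw [← hc₁.orderOf, hc₁o]
  have hc₁p : c₁ ^ p = 1 := by rw [← hc₁o]; exact pow_orderOf_eq_one c₁
  have hmem : c₁ ∈ σ.cycleFactorsFinset :=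
    Equiv.Perm.cycleOf_mem_cycleFactorsFinset_iff.mpr (Equiv.Perm.mem_support.mpr ha)
  have hdisj : Equiv.Perm.Disjoint (σ * c₁⁻¹) c₁ :=
    Equiv.Perm.disjoint_mul_inv_of_mem_cycleFactorsFinset hmem
  set r : Perm (Fin n) := σ * c₁⁻¹ with hrdef
  have hσ : σ = r * c₁ := by simp [hrdef]
  by_cases hr : r = 1
  · refine ⟨x', hx'X, ?_⟩
    have : (x' : Perm (Fin n)) = c₁ := by rw [← hσdef, hσ, hr, one_mul]
    unfold IsPCyc
    rw [this]
    exact ⟨hc₁, hc₁card⟩
  · have hct : (c₁ * r⁻¹).cycleType = σ.cycleType := by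
      rw [hσ, (hdisj.symm.inv_right).cycleType_mul, hdisj.cycleType_mul, Equiv.Perm.cycleType_inv,
        add_comm]
    obtain ⟨ρ, hρ⟩ := isConj_iff.mp (Equiv.Perm.isConj_iff_cycleType_eq.mpr hct.symm)
    have hcount : 2 ≤ σ.cycleType.count p := by
      have h1 : σ.cycleType = r.cycleType + {p} := by
        rw [hσ, hdisj.cycleType_mul, hc₁.cycleType, hc₁card]
      obtain ⟨m, hm⟩ := Multiset.exists_mem_of_ne_zero
        (fun h => hr (Equiv.Perm.cycleType_eq_zero.mp h))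
      have hmσ : m ∈ σ.cycleType := by rw [h1]; exact Multiset.mem_add.mpr (Or.inl hm)
      have hmp : m = p := by
        rcases (Nat.dvd_prime hp).mp (hσo ▸ Equiv.Perm.dvd_of_mem_cycleType hmσ) with h | h
        · have := Equiv.Perm.two_le_of_mem_cycleType hmσ
          omega
        · exact h
      rw [h1, Multiset.count_add, Multiset.count_singleton_self]
      have := Multiset.one_le_count_iff_mem.mpr (hmp ▸ hm)
      omega
    obtain ⟨κ, hκc, hκs⟩ : ∃ κ : Perm (Fin n), κ * σ = σ * κ ∧ Equiv.Perm.sign κ = -1 := by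
      by_contra hno
      push Not at hno
      have hle : Subgroup.centralizer {σ} ≤ alternatingGroup (Fin n) := by
        intro κ hκ
        rw [Subgroup.mem_centralizer_iff] at hκ
        have h2 := hκ σ (Set.mem_singleton σ)
        rw [Equiv.Perm.mem_alternatingGroup]
        rcases Int.units_eq_one_or (Equiv.Perm.sign κ) with h | h
        · exact h
        · exact absurd h (hno κ h2.symm)
      have := Equiv.Perm.count_le_one_of_centralizer_le_alternating hle p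
      omega
    obtain ⟨ρ', hρ's, hρ'⟩ : ∃ ρ' : Perm (Fin n), Equiv.Perm.sign ρ' = 1 ∧
        ρ' * σ * ρ'⁻¹ = c₁ * r⁻¹ := by
      rcases Int.units_eq_one_or (Equiv.Perm.sign ρ) with h | h
      · exact ⟨ρ, h, hρ⟩
      · refine ⟨ρ * κ, by simp [h, hκs], ?_⟩
        have h3 : κ * σ * κ⁻¹ = σ := by rw [hκc]; simp
        calc ρ * κ * σ * (ρ * κ)⁻¹ = ρ * (κ * σ * κ⁻¹) * ρ⁻¹ := by group
          _ = c₁ * r⁻¹ := by rw [h3, hρ]
    let g : alternatingGroup (Fin n) := ⟨ρ', Equiv.Perm.mem_alternatingGroup.mpr hρ's⟩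
    have hyX : g * x' * g⁻¹ ∈ X := hX.conj x' hx'X g
    have hyc : ((g * x' * g⁻¹ : alternatingGroup (Fin n)) : Perm (Fin n)) = c₁ * r⁻¹ := by
      rw [← hρ']
      rfl
    have hcomm : c₁ * r = r * c₁ := hdisj.symm.commute.eq
    have hprod : ((x' * (g * x' * g⁻¹) : alternatingGroup (Fin n)) : Perm (Fin n)) = c₁ ^ 2 := by
      rw [Subgroup.coe_mul, hyc, ← hσdef, hσ]
      calc r * c₁ * (c₁ * r⁻¹) = (r * c₁) * c₁ * r⁻¹ := by simp only [mul_assoc]
        _ = (c₁ * r) * c₁ * r⁻¹ := by rw [hcomm]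
        _ = c₁ * (r * c₁) * r⁻¹ := by simp only [mul_assoc]
        _ = c₁ * (c₁ * r) * r⁻¹ := by rw [hcomm]
        _ = c₁ ^ 2 := by rw [mul_assoc, mul_assoc, mul_inv_cancel, mul_one, sq]
    have hxy : x' * (g * x' * g⁻¹) = (g * x' * g⁻¹) * x' := by
      apply Subtype.ext
      rw [hprod, Subgroup.coe_mul, hyc, ← hσdef, hσ]
      calc c₁ ^ 2 = c₁ * r⁻¹ * r * c₁ := by rw [inv_mul_cancel_right, sq]
        _ = c₁ * r⁻¹ * (r * c₁) := by simp only [mul_assoc]
    have hx'p : x' ^ p = 1 := by rw [← hx'o]; exact pow_orderOf_eq_one x'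
    have hyp : (g * x' * g⁻¹) ^ p = 1 := by
      rw [conj_pow, hx'p]; simp
    have hmul : x' * (g * x' * g⁻¹) ∈ X :=
      hX.mul x' hx'X _ hyX (exists_pgroup p x' _ hx'p hyp hxy)
    have hpow := hX.pow _ hmul ((p + 1) / 2)
    refine ⟨(x' * (g * x' * g⁻¹)) ^ ((p + 1) / 2), hpow, ?_⟩
    have hval : (((x' * (g * x' * g⁻¹)) ^ ((p + 1) / 2) : alternatingGroup (Fin n)) :
        Perm (Fin n)) = c₁ := by
      rw [Subgroup.coe_pow, hprod, ← pow_mul]
      obtain ⟨m, hm⟩ := hp.odd_of_ne_two hp2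
      have h4 : 2 * ((p + 1) / 2) = p + 1 := by omega
      rw [h4, pow_succ, hc₁p, one_mul]
    unfold IsPCyc
    rw [hval]
    exact ⟨hc₁, hc₁card⟩

end Cfsg.Agent.Lib.Helper8.AltOC
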