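import Mathlib
import Cfsg.Agent.Lib.Helper96.AltStmt
import Cfsg.Agent.Lib.Helper8.AltOC

set_option autoImplicit false

/-!
# Piece TD of S5165: a `PClosed 2` set of `A_n` with a nontrivial element contains a double
transposition.
-/

namespace Cfsg.Agent.Lib.Helper8.AltTD

open Equiv Cfsg.Agent.Lib.Helper96.AltStmt

/-- a nontrivial element of a `PClosed` set has a power of order `p` in the set -/
theorem exists_order_p {G : Type} [Group G] (p : ℕ) [Fact p.Prime] (X : Set G) (hX : PClosed p X)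
    (x : G) (hxX : x ∈ X) (hx1 : x ≠ 1) : ∃ x' ∈ X, orderOf x' = p := by
  have hp := (Fact.out : p.Prime)
  obtain ⟨k, hk⟩ := hX.pel x hxX
  obtain ⟨j, hjk, hj⟩ := (Nat.dvd_prime_pow hp).mp (orderOf_dvd_of_pow_eq_one hk)
  have hj0 : j ≠ 0 := by
    rintro rfl
    rw [pow_zero, orderOf_eq_one_iff] at hj
    exact hx1 hj
  refine ⟨x ^ p ^ (j - 1), hX.pow x hxX _, ?_⟩
  rw [orderOf_pow_of_dvd (pow_ne_zero _ hp.ne_zero) (by rw [hj]; exact pow_dvd_pow p (by omega)),
    hj]
  obtain ⟨i, rfl⟩ : ∃ i, j = i + 1 := ⟨j - 1, by omega⟩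
  rw [Nat.add_sub_cancel, pow_succ, Nat.mul_div_cancel_left _ (pow_pos hp.pos i)]

/-- the key computation: for an involution `σ` with `σ a = b`, `σ c = d` the product of `σ` with
its conjugate under `(b c)(a b)` is `(a d)(b c)` -/
theorem key {α : Type} [DecidableEq α] (σ : Perm α) (hσ2 : ∀ z, σ (σ z) = z) (a b c d : α)
    (hb : σ a = b) (hd : σ c = d) (hab : a ≠ b) (hca : c ≠ a) (hcb : c ≠ b) (hcd : c ≠ d)
    (hda : d ≠ a) (hdb : d ≠ b) :
    σ * ((swap b c * swap a b) * σ * (swap b c * swap a b)⁻¹) = swap a d * swap b c := by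
  have hba : σ b = a := by rw [← hb]; exact hσ2 a
  have hdc : σ d = c := by rw [← hd]; exact hσ2 c
  have hinv : (swap b c * swap a b)⁻¹ = swap a b * swap b c := by simp [mul_inv_rev]
  rw [hinv]
  have hab' := hab.symm
  have hca' := hca.symm
  have hcb' := hcb.symm
  have hcd' := hcd.symm
  have hda' := hda.symm
  have hdb' := hdb.symm
  ext z
  simp only [Perm.mul_apply]
  by_cases hza : z = a
  · subst hza
    simp [swap_apply_def, hb, hd, hba, hdc, hab, hab', hca, hca', hcb, hcb', hcd, hcd', hda, hda',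
      hdb, hdb']
  · by_cases hzb : z = b
    · subst hzb
      simp [swap_apply_def, hb, hd, hba, hdc, hab, hab', hca, hca', hcb, hcb', hcd, hcd', hda,
        hda', hdb, hdb']
    · by_cases hzc : z = c
      · subst hzc
        simp [swap_apply_def, hb, hd, hba, hdc, hab, hab', hca, hca', hcb, hcb', hcd, hcd', hda,
          hda', hdb, hdb']
      · by_cases hzd : z = d
        · subst hzd
          simp [swap_apply_def, hb, hd, hba, hdc, hab, hab', hca, hca', hcb, hcb', hcd, hcd', hda,
            hda', hdb, hdb']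
        · -- z outside {a, b, c, d}
          have hwa : σ z ≠ a := fun h => hzb (by rw [← hσ2 z, h, hb])
          have hwb : σ z ≠ b := fun h => hza (by rw [← hσ2 z, h, hba])
          have hwc : σ z ≠ c := fun h => hzd (by rw [← hσ2 z, h, hd])
          simp [swap_apply_def, hza, hzb, hzc, hzd, hwa, hwb, hwc, hσ2]

theorem main : TwoDouble := by
  intro n hn X hX ⟨x, hxX, hx1⟩
  obtain ⟨x', hx'X, hx'o⟩ := exists_order_p 2 X hX x hxX hx1
  set σ : Perm (Fin n) := (x' : Perm (Fin n)) with hσdef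
  have hσo : orderOf σ = 2 := by rw [hσdef, Subgroup.orderOf_coe, hx'o]
  have hσsq : σ ^ 2 = 1 := by rw [← hσo]; exact pow_orderOf_eq_one σ
  have hσ2 : ∀ z, σ (σ z) = z := by
    intro z
    have := congrArg (fun f : Perm (Fin n) => f z) hσsq
    simpa [sq] using this
  have hσs : Perm.sign σ = 1 := Perm.mem_alternatingGroup.mp x'.2
  have hσ1 : σ ≠ 1 := by
    intro h
    rw [h, orderOf_one] at hσo
    omega
  obtain ⟨a, ha⟩ : ∃ a, σ a ≠ a := by
    by_contra h
    push Not at h
    exact hσ1 (Equiv.ext h)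
  obtain ⟨b, hb⟩ : ∃ b, σ a = b := ⟨_, rfl⟩
  have hba : σ b = a := by rw [← hb]; exact hσ2 a
  have hab : a ≠ b := fun h => ha (by rw [hb]; exact h.symm)
  obtain ⟨c, hca, hcb, hc⟩ : ∃ c, c ≠ a ∧ c ≠ b ∧ σ c ≠ c := by
    by_contra hno
    push Not at hno
    have : σ = swap a b := by
      ext z
      by_cases hza : z = a
      · subst hza; rw [swap_apply_left, hb]
      · by_cases hzb : z = b
        · subst hzb; rw [swap_apply_right, hba]
        · rw [hno z hza hzb, swap_apply_of_ne_of_ne hza hzb]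
    rw [this, Perm.sign_swap hab] at hσs
    exact absurd hσs (by decide)
  obtain ⟨d, hd⟩ : ∃ d, σ c = d := ⟨_, rfl⟩
  have hcd : c ≠ d := fun h => hc (by rw [hd]; exact h.symm)
  have hda : d ≠ a := by
    intro h
    exact hcb (by rw [← hσ2 c, hd, h, hb])
  have hdb : d ≠ b := by
    intro h
    exact hca (by rw [← hσ2 c, hd, h, hba])
  let ρ : Perm (Fin n) := swap b c * swap a b
  have hρs : Perm.sign ρ = 1 := by
    simp [ρ, Perm.sign_swap hab, Perm.sign_swap hcb.symm]
  let g : alternatingGroup (Fin n) := ⟨ρ, Perm.mem_alternatingGroup.mpr hρs⟩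
  have hyX : g * x' * g⁻¹ ∈ X := hX.conj x' hx'X g
  have hprod : ((x' * (g * x' * g⁻¹) : alternatingGroup (Fin n)) : Perm (Fin n)) =
      swap a d * swap b c := by
    rw [← key σ hσ2 a b c d hb hd hab hca hcb hcd hda hdb]
    rfl
  have hx'2 : x' ^ 2 = 1 := by rw [← hx'o]; exact pow_orderOf_eq_one x'
  have hy2 : (g * x' * g⁻¹) ^ 2 = 1 := by rw [conj_pow, hx'2]; simp
  have hdisj : (swap a d).Disjoint (swap b c) := by
    intro z
    by_cases hza : z = a
    · subst hza; right; exact swap_apply_of_ne_of_ne hab hca.symm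
    · by_cases hzd : z = d
      · subst hzd; right; exact swap_apply_of_ne_of_ne hdb hcd.symm
      · left; exact swap_apply_of_ne_of_ne hza hzd
  have hprod2 : (x' * (g * x' * g⁻¹)) * (x' * (g * x' * g⁻¹)) = 1 := by
    apply Subtype.ext
    rw [Subgroup.coe_mul, hprod]
    have h1 : swap a d * swap b c = swap b c * swap a d := hdisj.commute.eq
    calc swap a d * swap b c * (swap a d * swap b c)
        = swap a d * (swap b c * swap a d) * swap b c := by simp only [mul_assoc]
      _ = swap a d * (swap a d * swap b c) * swap b c := by rw [h1]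
      _ = (swap a d * swap a d) * (swap b c * swap b c) := by simp only [mul_assoc]
      _ = 1 := by rw [swap_mul_self, swap_mul_self, one_mul]
  have hxy : x' * (g * x' * g⁻¹) = (g * x' * g⁻¹) * x' := by
    have hx'i : x'⁻¹ = x' := by
      rw [inv_eq_iff_mul_eq_one, ← sq, hx'2]
    have hyi : (g * x' * g⁻¹)⁻¹ = g * x' * g⁻¹ := by
      rw [inv_eq_iff_mul_eq_one, ← sq, hy2]
    have h2 := eq_inv_of_mul_eq_one_left hprod2
    rw [mul_inv_rev, hx'i, hyi] at h2
    exact h2
  have hmul : x' * (g * x' * g⁻¹) ∈ X :=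
    hX.mul x' hx'X _ hyX (Cfsg.Agent.Lib.Helper8.AltOC.exists_pgroup 2 x' _ hx'2 hy2 hxy)
  refine ⟨_, hmul, ?_⟩
  rw [hprod]
  rw [hdisj.cycleType_mul, (Perm.isCycle_swap hda.symm).cycleType,
    (Perm.isCycle_swap hcb.symm).cycleType, Perm.card_support_swap hda.symm,
    Perm.card_support_swap hcb.symm]
  rfl

end Cfsg.Agent.Lib.Helper8.AltTD
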