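import Mathlib
import Cfsg.Prelude.Def_Sporadic_a
import Cfsg.Agent.Lib.Helper8.CodeSpan

/-!
Transport of spans of indicator words along a bijection of the coordinate sets, at the level
of submodules.
-/

set_option autoImplicit false

namespace Cfsg.Agent.Lib.Helper8.CodeSpan2

open Finset Cfsg.Agent.Lib.Helper8.CodeSpan

theorem map_span {X Y : Type*} [DecidableEq X] [DecidableEq Y] (Φ : X ≃ Y)
    (𝓧 : Set (Finset X)) :
    (Submodule.span (ZMod 2) (ind '' 𝓧)).map
        (LinearEquiv.funCongrLeft (ZMod 2) (ZMod 2) Φ.symm).toLinearMap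
      = Submodule.span (ZMod 2) (ind '' ((fun b => b.image Φ) '' 𝓧)) := by
  have hf : ∀ S : Finset X,
      (LinearEquiv.funCongrLeft (ZMod 2) (ZMod 2) Φ.symm) (ind S) = ind (S.image Φ) :=
    fun S => (ind_image Φ S).symm
  rw [Submodule.map_span, Set.image_image, Set.image_image]
  congr 1
  ext v
  simp only [Set.mem_image, LinearEquiv.coe_coe, hf]

theorem ind_support {X : Type*} [Fintype X] [DecidableEq X] (w : X → ZMod 2) :
    ind (Cfsg.support₂ w) = w := by
  ext x
  simp only [ind, Cfsg.support₂, mem_filter, mem_univ, true_and]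
  by_cases h : w x = 0
  · simp [h]
  · rw [if_pos h]
    have : ∀ a : ZMod 2, a ≠ 0 → a = 1 := by decide
    exact (this _ h).symm

theorem support_ind {X : Type*} [Fintype X] [DecidableEq X] (S : Finset X) :
    Cfsg.support₂ (ind S) = S := by
  ext x
  simp [ind, Cfsg.support₂]

/-- A word lies in the transported span iff its pull-back lies in the span. -/
theorem mem_map_span {X Y : Type*} [DecidableEq X] [DecidableEq Y] (Φ : X ≃ Y)
    (𝓧 : Set (Finset X)) (w : Y → ZMod 2) :
    w ∈ Submodule.span (ZMod 2) (ind '' ((fun b => b.image Φ) '' 𝓧)) ↔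
      (fun x => w (Φ x)) ∈ Submodule.span (ZMod 2) (ind '' 𝓧) := by
  rw [← map_span]
  constructor
  · rintro ⟨u, hu, rfl⟩
    have : (fun x => (LinearEquiv.funCongrLeft (ZMod 2) (ZMod 2) Φ.symm) u (Φ x)) = u := by
      ext x
      simp [LinearEquiv.funCongrLeft]
    simp only [LinearEquiv.coe_coe]
    rw [this]
    exact hu
  · intro h
    refine ⟨_, h, ?_⟩
    ext y
    simp [LinearEquiv.funCongrLeft]

end Cfsg.Agent.Lib.Helper8.CodeSpan2
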