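import Mathlib
import Cfsg.Agent.Lib.Helper94.EllStmt
import Cfsg.Agent.Lib.Helper8.HypHYPSUB
import Cfsg.Agent.Lib.Helper44.Inv8
import Cfsg.Agent.Lib.Helper44.FinSq

/-!
# S5993 / ELLSUB: completing a nondegenerate even-dimensional `E` to an elliptic `m`-space
inside `E ⊥ Y`
-/

set_option autoImplicit false

namespace Cfsg.Agent.Lib.Helper8.EllELLSUB

open Module QuadraticMap
open Cfsg.Agent.Lib.Helper44.QSpace Cfsg.Agent.Lib.Helper44.NegPairs Cfsg.Agent.Lib.Helper44.OEmb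
open Cfsg.Agent.Lib.Helper44.WittND Cfsg.Agent.Lib.Helper44.WittND2
open Cfsg.Agent.Lib.Helper44.TSTrans
open Cfsg.Agent.Lib.Helper37.HypStmt Cfsg.Agent.Lib.Helper94.EllStmt
open Cfsg.Agent.Lib.Helper8.HypHYPSUB

universe u v w

/-- The completion lemma with an arbitrary nondegenerate model space `M` of dimension `2 h`. -/
theorem coreG {F : Type w} [Field F] [Fintype F] {V : Type u} [AddCommGroup V] [Module F V]
    [FiniteDimensional F V]
    (Q : QuadraticForm F V) (E Y : Submodule F V) (hE : NDsub Q E) (hY : NDsub Q Y)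
    (hEY : ∀ u ∈ E, ∀ v ∈ Y, polar Q u v = 0) (k h : ℕ) (hk : finrank F E = 2 * k)
    (hkh : k < h) (hY2 : 2 * h - 2 * k < finrank F Y)
    {M : Type v} [AddCommGroup M] [Module F M] [FiniteDimensional F M] (QM : QuadraticForm F M)
    (hSH : Sep QM) (hfH : finrank F M = 2 * h) :
    ∃ (W₁ : Submodule F V) (Φ : M →ₗ[F] V), W₁ ≤ Y ∧
      (∀ x, Q (Φ x) = QM x) ∧ LinearMap.range Φ = E ⊔ W₁ := by
  classical
  obtain ⟨j, hj⟩ := exists_embedding k E (res Q E) M QM hk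
    (by rw [hfH]; omega) (sep_res_of_ndsub hE) hSH
  have hjinj := isom_inj (sep_res_of_ndsub hE) j hj
  obtain ⟨T, hTdef⟩ : ∃ T, T = LinearMap.BilinForm.orthogonal (polarBilin QM)
      (LinearMap.range j) := ⟨_, rfl⟩
  have hTmem : ∀ t ∈ T, ∀ v : E, polar QM (j v) t = 0 := by
    intro t ht v
    rw [hTdef] at ht
    exact ht (j v) ⟨v, rfl⟩
  have hAT : LinearMap.range j ⊓ T = ⊥ := by
    rw [eq_bot_iff]
    rintro x ⟨⟨v, rfl⟩, hx⟩
    have hv : v = 0 := by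
      apply sep_res_of_ndsub hE
      intro y
      rw [← isom_polar j hj, polar_comm]
      exact hTmem _ hx y
    rw [hv, map_zero]
    exact Submodule.zero_mem _
  have hfA : finrank F (LinearMap.range j) = 2 * k := by
    rw [← hk]
    exact LinearMap.finrank_range_of_inj hjinj
  have hfT : finrank F T = 2 * h - 2 * k := by
    rw [hTdef, LinearMap.BilinForm.finrank_orthogonal (nondegenerate_of_sep hSH), hfH, hfA]
  have hTnd : NDsub QM T := by
    rw [hTdef]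
    apply ndsub_orth hSH
    rw [← hTdef]
    exact hAT
  obtain ⟨j', hj'⟩ := exists_embedding (h - k) T (res QM T) Y (res Q Y)
    (by rw [hfT]; omega) (by rw [hfT]; exact hY2) (sep_res_of_ndsub hTnd) (sep_res_of_ndsub hY)
  -- the two maps out of `E × T`
  obtain ⟨κ₀, hκ₀⟩ : ∃ κ₀ : (E × T) →ₗ[F] M, κ₀ = LinearMap.coprod j T.subtype :=
    ⟨_, rfl⟩
  obtain ⟨Ψ, hΨ⟩ : ∃ Ψ : (E × T) →ₗ[F] V, Ψ = LinearMap.coprod E.subtype (Y.subtype ∘ₗ j') :=
    ⟨_, rfl⟩
  have hκ₀app : ∀ p : E × T, κ₀ p = j p.1 + (p.2 : M) := by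
    intro p
    rw [hκ₀, LinearMap.coprod_apply]
    rfl
  have hΨapp : ∀ p : E × T, Ψ p = (p.1 : V) + ((j' p.2 : Y) : V) := by
    intro p
    rw [hΨ, LinearMap.coprod_apply]
    rfl
  have hκinj : Function.Injective κ₀ := by
    rw [injective_iff_map_eq_zero]
    intro p hp
    rw [hκ₀app] at hp
    have h1 : j p.1 ∈ LinearMap.range j ⊓ T := by
      refine ⟨⟨p.1, rfl⟩, ?_⟩
      have h2 : j p.1 = -(p.2 : M) := eq_neg_of_add_eq_zero_left hp
      rw [h2]
      exact T.neg_mem p.2.2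
    rw [hAT, Submodule.mem_bot] at h1
    have h3 : p.1 = 0 := hjinj (by rw [h1, map_zero])
    have h4 : (p.2 : M) = 0 := by
      rw [h1, zero_add] at hp
      exact hp
    exact Prod.ext h3 (Subtype.ext h4)
  have hdim : finrank F (E × T) = finrank F M := by
    rw [Module.finrank_prod, hk, hfT, hfH]
    omega
  obtain ⟨κ, hκ⟩ : ∃ κ : (E × T) ≃ₗ[F] M, ∀ p, κ p = κ₀ p :=
    ⟨LinearMap.linearEquivOfInjective κ₀ hκinj hdim, fun p => rfl⟩
  have hiso : ∀ p : E × T, Q (Ψ p) = QM (κ p) := by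
    intro p
    rw [hκ, hκ₀app, hΨapp, q_add, q_add, hEY _ p.1.2 _ (j' p.2).2, hTmem _ p.2.2 p.1, hj]
    have h5 := hj' p.2
    rw [res_apply, res_apply] at h5
    rw [h5, res_apply]
  refine ⟨LinearMap.range (Y.subtype ∘ₗ j'), Ψ ∘ₗ κ.symm.toLinearMap, ?_, ?_, ?_⟩
  · rintro _ ⟨t, rfl⟩
    exact (j' t).2
  · intro x
    have h6 := hiso (κ.symm x)
    rw [LinearEquiv.apply_symm_apply] at h6
    exact h6
  · rw [LinearMap.range_comp_of_range_eq_top _ (LinearEquiv.range κ.symm), hΨ,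
      LinearMap.range_coprod, Submodule.range_subtype]

/-- An anisotropic binary form exists over a finite field of odd characteristic. -/
theorem exists_aniso' {F : Type u} [Field F] [Fintype F] (h2 : (2 : F) ≠ 0) :
    ∃ a b : F, ∀ z₁ z₂ : F, z₁ ^ 2 + a * z₁ * z₂ + b * z₂ ^ 2 = 0 → z₁ = 0 ∧ z₂ = 0 := by
  obtain ⟨ζ, hζ⟩ := FiniteField.exists_nonsquare
    (Cfsg.Agent.Lib.Helper44.FinSq.ringChar_ne_two_of_two_ne_zero h2)
  refine ⟨0, -ζ, ?_⟩
  intro z₁ z₂ h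
  have hz₂ : z₂ = 0 := by
    by_contra hne
    apply hζ
    refine ⟨z₁ / z₂, ?_⟩
    field_simp
    linear_combination -h
  rw [hz₂] at h
  have hz₁ : z₁ ^ 2 = 0 := by linear_combination h
  exact ⟨pow_eq_zero_iff (by norm_num) |>.mp hz₁, hz₂⟩

theorem main : EllSub.{u} := by
  intro F _ _ hodd d m hm E Y hE hY hEY hEe hEm hYm
  classical
  have h2 : (2 : F) ≠ 0 := Cfsg.Agent.Lib.Helper44.FinSq.two_ne_zero_of_odd_card hodd
  obtain ⟨h, rfl⟩ : ∃ h, m = 2 * h := by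
    obtain ⟨h, hh⟩ := hm
    exact ⟨h, by omega⟩
  obtain ⟨k, hk⟩ : ∃ k, finrank F E = 2 * k := by
    obtain ⟨k, hk⟩ := hEe
    exact ⟨k, by omega⟩
  have hkh : k < h := by omega
  obtain ⟨h', rfl⟩ : ∃ h', h = h' + 1 := ⟨h - 1, by omega⟩
  obtain ⟨a, b, hab⟩ := exists_aniso' h2
  have hSM : Sep (minusQ h' F a b) := sep_minusQ h2 h' a b hab
  have hfM : finrank F ((Fin h' ⊕ Fin h') ⊕ Fin 2 → F) = 2 * (h' + 1) := by
    rw [Module.finrank_fintype_fun_eq_card, Fintype.card_sum, Fintype.card_sum, Fintype.card_fin,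
      Fintype.card_fin]
    ring
  have hE' : NDsub (oddQ d F) E := ndsub_of_ndeg hE
  have hY' : NDsub (oddQ d F) Y := ndsub_of_ndeg hY
  obtain ⟨W₁, Φ, hW₁, hΦ, hr⟩ := coreG (oddQ d F) E Y hE' hY'
    (fun u hu v hv => hEY u hu v hv) k (h' + 1) hk hkh
    (by
      have h9 := hYm
      rw [hk] at h9
      exact h9) (minusQ h' F a b) hSM hfM
  have hinj := isom_inj hSM Φ hΦ
  have hdimW : finrank F ↥(E ⊔ W₁) = 2 * (h' + 1) := by
    rw [← hr, LinearMap.finrank_range_of_inj hinj, hfM]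
  refine ⟨W₁, hW₁, hdimW, ?_, ?_⟩
  · intro w hw hw0
    rw [← hr] at hw
    obtain ⟨z, rfl⟩ := hw
    have hz : z ≠ 0 := by
      rintro rfl
      exact hw0 (map_zero _)
    have hex : ∃ y, polar (minusQ h' F a b) z y ≠ 0 := by
      by_contra hc
      push Not at hc
      exact hz (hSM z hc)
    obtain ⟨y, hy⟩ := hex
    have hpol : polar (oddQ d F) (Φ z) (Φ y) = polar (minusQ h' F a b) z y :=
      isom_polar Φ hΦ z y
    have hmem : Φ y ∈ E ⊔ W₁ := by
      rw [← hr]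
      exact ⟨y, rfl⟩
    refine ⟨⟨Φ y, hmem, ?_⟩, ⟨Φ y, hmem, ?_⟩⟩
    · rw [polar_comm]
      show polar (oddQ d F) (Φ z) (Φ y) ≠ 0
      rw [hpol]
      exact hy
    · show polar (oddQ d F) (Φ z) (Φ y) ≠ 0
      rw [hpol]
      exact hy
  · rintro ⟨U, hUW, hUts, hUdim⟩
    have hU' : ∀ w ∈ U.comap Φ, minusQ h' F a b w = 0 := by
      intro w hw
      rw [← hΦ]
      exact hUts _ hw
    have hle := Cfsg.Agent.Lib.Helper44.Inv8.minus_ts_le hSM hab hU'
    have hmap : (U.comap Φ).map Φ = U := by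
      rw [Submodule.map_comap_eq, hr]
      exact inf_eq_right.mpr hUW
    have hfin : finrank F ↥(U.comap Φ) = finrank F ↥((U.comap Φ).map Φ) :=
      LinearEquiv.finrank_eq (Submodule.equivMapOfInjective Φ hinj (U.comap Φ))
    rw [hmap] at hfin
    rw [hdimW] at hUdim
    omega

end Cfsg.Agent.Lib.Helper8.EllELLSUB
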