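import Cfsg.Agent.Lib.Helper59.HypDERELT
import Cfsg.Agent.Lib.Helper44.OTyp3
import Cfsg.Agent.Lib.Helper44.TPStmt
import Cfsg.Agent.Lib.Helper8.OrdRElt

/-!
# S5973 / ELTDIM: elements of order `r` of `Omega^+_(2d)(q)` (all `q`) with `b` blocks of size
`cc i` and fixed space of finrank `2 d - b cc i`.
-/

set_option autoImplicit false

namespace Cfsg.Agent.Lib.Helper8.TPELTDIM

open Polynomial UniqueFactorizationMonoid Matrix
open Cfsg.Agent.Lib.Helper40.RecipPoly Cfsg.Agent.Lib.Helper44.OCls2 Cfsg.Agent.Lib.Helper44.OCls3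
  Cfsg.Agent.Lib.Helper44.OCls4
open Cfsg.Agent.Lib.Helper37.HypStmt (cc)
open Cfsg.Agent.Lib.Helper44.TPStmt
open Cfsg.Agent.Lib.Helper59.HypDERELT (order_facts exists_block real_pow)

universe u

theorem main (hOO : OddOmega.{u}) : EltDim.{u} := by
  classical
  intro F _ _ p _ _ d hd r _ hr2 hrp b hb1 hble hcondb
  have hr : r.Prime := Fact.out
  have hrodd : Odd r := hr.odd_of_ne_two hr2
  obtain ⟨c', hreal, hdeg, hnd⟩ := exists_block F p r hr hr2 hrp
  obtain ⟨hipos, hidvd⟩ := order_facts F p r hr hrp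
  obtain ⟨i, hi⟩ : ∃ i, i = orderOf ((Fintype.card F : ℕ) : ZMod r) := ⟨_, rfl⟩
  rw [← hi] at hdeg hble hcondb hipos hidvd ⊢
  obtain ⟨t, ht'⟩ := hidvd
  have ht : t * i = r - 1 := by rw [ht', mul_comm]
  obtain ⟨c0, hc0⟩ : ∃ c0, c0 = cc i := ⟨_, rfl⟩
  rw [← hc0] at hdeg hble hcondb ⊢
  have hc0even : Even c0 := by
    rw [hc0]
    unfold cc
    split_ifs with h
    · exact h
    · exact even_two_mul _
  have hc0pos : 0 < c0 := by
    rw [hc0]
    unfold cc
    split_ifs with h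
    · exact hipos
    · omega
  obtain ⟨ι, _, _, s, N, hsc, hsr, hsN, hNdet⟩ := real_pow hreal b
  have hcard : Fintype.card ι = b * c0 := by
    have h1 := Matrix.charpoly_natDegree_eq_dim s
    rw [hsc, natDegree_pow, hdeg] at h1
    exact h1.symm
  have hbceven : Even (b * c0) := hc0even.mul_left b
  have hcardJ : ∀ d' : ℕ, Fintype.card (J d') = 2 * d' := by
    intro d'
    simp [Cfsg.Agent.Lib.Helper44.TPStmt.J]
    omega
  have hSQ : ∀ d' : ℕ,
      Cfsg.Agent.Lib.Helper44.QSpace.Sep (Cfsg.Agent.Lib.Helper44.NegPairs.plusQ d' F) :=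
    fun d' => Cfsg.Agent.Lib.Helper44.NegPairs.sep_plusQ d'
  have hSN : Cfsg.Agent.Lib.Helper44.QSpace.Sep (Cfsg.Agent.Lib.Helper44.OExt.qN N) :=
    Cfsg.Agent.Lib.Helper44.OExt.sep_qN hNdet
  have hLp : Prime (X - C (1 : F)) := (irreducible_X_sub_C 1).prime
  have hsL : ¬ (X - C (1 : F)) ∣ s.charpoly := by
    rw [hsc]
    intro h
    exact hnd (hLp.dvd_of_dvd_pow h)
  have hj : ∃ j : (ι → F) →ₗ[F] (J d → F), ∀ v,
      Cfsg.Agent.Lib.Helper44.NegPairs.plusQ d F (j v) =
        Cfsg.Agent.Lib.Helper44.OExt.qN N v := by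
    rcases Nat.lt_or_ge (b * c0) (2 * d) with hlt | hge
    · obtain ⟨k', hk'⟩ := hbceven
      exact Cfsg.Agent.Lib.Helper44.OEmb.exists_embedding (F := F) k' (ι → F)
        (Cfsg.Agent.Lib.Helper44.OExt.qN N) (J d → F)
        (Cfsg.Agent.Lib.Helper44.NegPairs.plusQ d F)
        (by rw [Module.finrank_fintype_fun_eq_card, hcard]; omega)
        (by rw [Module.finrank_fintype_fun_eq_card, Module.finrank_fintype_fun_eq_card, hcard,
              hcardJ]; omega) hSN (hSQ d)
    · have heq : b * c0 = 2 * d := le_antisymm hble hge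
      have hcond' : Odd i ∨ Even (2 * d / i) := by
        rcases hcondb heq with h | h
        · exact Or.inl h
        · by_cases hie : Even i
          · right
            have hc0i : c0 = i := by
              rw [hc0]
              unfold cc
              rw [if_pos hie]
            rw [← heq, hc0i, Nat.mul_div_cancel _ hipos]
            exact h
          · left
            exact Nat.not_even_iff_odd.mp hie
      obtain ⟨k, hk⟩ : ∃ k, d = k + 1 := ⟨d - 1, by omega⟩
      rw [hk] at hcond' heq ⊢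
      have hcard' : Fintype.card ι = 2 * (k + 1) := by
        rw [hcard]
        exact heq
      have hobs := (Cfsg.Agent.Lib.Helper44.OTyp3.obs_matrix (p := p)
        (Cfsg.Agent.Lib.Helper44.OExt.qN N) hSN hcard' r i t hr hr2 hrp hi ht s hsr
        (fun u => Cfsg.Agent.Lib.Helper44.OExt.qN_isom hsN u) hsL).1 hcond'
      have hpl := Cfsg.Agent.Lib.Helper44.OTyp3.sing_plus (F := F) k
      have hq0 : 0 < Fintype.card F := Fintype.card_pos
      have hc : Nat.card {v : ι → F // Cfsg.Agent.Lib.Helper44.OExt.qN N v = 0} =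
          Nat.card {v : Fin (k + 1) ⊕ Fin (k + 1) → F //
            Cfsg.Agent.Lib.Helper44.NegPairs.plusQ (k + 1) F v = 0} := by
        apply Nat.eq_of_mul_eq_mul_right hq0
        rw [hobs, hpl]
      exact Cfsg.Agent.Lib.Helper44.OTyp1.exists_iso (Cfsg.Agent.Lib.Helper44.OExt.qN N)
        (Cfsg.Agent.Lib.Helper44.NegPairs.plusQ (k + 1) F) hSN (hSQ (k + 1))
        (by rw [Module.finrank_fintype_fun_eq_card, hcard'])
        (by rw [Module.finrank_fintype_fun_eq_card, hcardJ]) hc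
  obtain ⟨j, hj⟩ := hj
  obtain ⟨g, hgiso, hgcp, hgr⟩ := Cfsg.Agent.Lib.Helper44.OExt.exists_ext
    (Cfsg.Agent.Lib.Helper44.NegPairs.plusQ d F) N s hNdet hsN r hr.pos hsr j hj
    (by rw [hcard, hcardJ]; exact hble)
  have hr0 : (r : F) ≠ 0 := by
    rw [Ne, CharP.cast_eq_zero_iff F p]
    intro h
    exact hrp ((Nat.prime_dvd_prime_iff_eq (Fact.out : p.Prime) hr).mp h).symm
  have hgrM : (g : Matrix (J d) (J d) F) ^ r = 1 := by
    rw [← Units.val_pow_eq_pow_val, hgr]
    rfl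
  have hfix : Module.finrank F ↥(Fx (g : Matrix (J d) (J d) F)) = 2 * d - b * c0 := by
    unfold Fx
    rw [Cfsg.Agent.Lib.Helper8.OrdRElt.finrank_ker _ r hr0 hgrM, hgcp, hsc, hcard, hcardJ]
    have hc'0 : c' ≠ 0 := by
      intro h
      exact hnd (h ▸ dvd_zero _)
    have hne : (X - C (1 : F)) ^ (2 * d - b * c0) * c' ^ b ≠ 0 :=
      mul_ne_zero (pow_ne_zero _ (X_sub_C_ne_zero 1)) (pow_ne_zero _ hc'0)
    rw [rootMultiplicity_mul hne, rootMultiplicity_X_sub_C_pow]
    have h3 : rootMultiplicity 1 (c' ^ b) = 0 := by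
      apply rootMultiplicity_eq_zero
      intro hroot
      have h4 : (X - C (1 : F)) ∣ c' ^ b := dvd_iff_isRoot.mpr hroot
      exact hnd (hLp.dvd_of_dvd_pow h4)
    rw [h3, add_zero]
  exact ⟨g, hOO F d hd r hrodd g hgiso hgr, hgr, hfix⟩

end Cfsg.Agent.Lib.Helper8.TPELTDIM
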