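import Cfsg.Agent.Lib.Helper8.HPB2Hcore
import Cfsg.Agent.Lib.Helper78.HypIPOS
import Cfsg.Agent.Lib.Helper8.TPELTDIM
import Cfsg.Agent.Lib.Helper91.TPODDOMEGA
import Cfsg.Agent.Lib.Helper28.EPDIMOBSA
import Cfsg.Agent.Lib.Helper31.EPSPLITW
import Cfsg.Agent.Lib.Helper53.TPINVDIM
import Cfsg.Agent.Lib.Helper16.TPHALFODD
import Cfsg.Agent.Lib.Helper90.TPTYPEEVEN
import Cfsg.Agent.Lib.Helper11.TPCANCEL
import Cfsg.Agent.Lib.Helper47.TPTOP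
import Cfsg.Agent.Lib.Helper21.TPPERP

/-!
# S5974 piece B2H (call by helper40), without hypotheses
-/

set_option autoImplicit false

namespace Cfsg.Agent.Lib.Helper8.HPB2H

universe u

theorem main : Cfsg.Agent.Lib.Helper40.HPStmt.B2H.{u} :=
  Cfsg.Agent.Lib.Helper8.HPB2Hcore.core
    Cfsg.Agent.Lib.Helper78.HypIPOS.main
    (Cfsg.Agent.Lib.Helper8.TPELTDIM.main Cfsg.Agent.Lib.Helper91.TPODDOMEGA.main)
    (Cfsg.Agent.Lib.Helper28.EPDIMOBSA.main Cfsg.Agent.Lib.Helper31.EPSPLITW.main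
      Cfsg.Agent.Lib.Helper53.TPINVDIM.main Cfsg.Agent.Lib.Helper16.TPHALFODD.main)
    Cfsg.Agent.Lib.Helper90.TPTYPEEVEN.main
    Cfsg.Agent.Lib.Helper11.TPCANCEL.main
    Cfsg.Agent.Lib.Helper47.TPTOP.main
    (Cfsg.Agent.Lib.Helper21.TPPERP.main Cfsg.Agent.Lib.Helper47.TPTOP.main)

end Cfsg.Agent.Lib.Helper8.HPB2H
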