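import Mathlib
import Cfsg.Agent.Lib.Helper40.HPStmt
import Cfsg.Agent.Lib.Helper45.EPStmt
import Cfsg.Agent.Lib.Helper44.TPStmt

/-!
# S5974 piece B2H (call by helper40): core, from landed Props

`x` from `EltDim` with `b = (2d) / c` blocks, `dim Fix x = k = (2d) % c`.  For an invariant
hyperbolic `W`: `e = dim (W ⊓ Fix x) = m % c` (`DimObsA`, `e ≤ k < c`).
* `i` odd: `CondH` holds (arithmetic).
* `i` even, `e = 0`: `W` has no fixed vectors, so `m / i` is even (`TypeEven`): `CondH`.
* `0 < e < k`: `CondH` if `c ≤ m`, and `NDivC` fails if `m < c`.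
* `e = k`: `Fix x ≤ W`, so `Y = W^⊥` (`Perp`) is invariant without fixed vectors, `W ⊔ Y = ⊤` is
  plus (`Top`), so `Y` is plus (`Cancel`), `(2d - m) / i` even (`TypeEven`), which is `CondH` if
  `c ≤ m` and contradicts `NDivC` if `m < c`.
(Port of `Helper34.EPB2E` with the types swapped.)
-/

set_option autoImplicit false

namespace Cfsg.Agent.Lib.Helper8.HPB2Hcore

open Cfsg.Agent.Lib.Helper37.HypStmt (cc IPos)
open Cfsg.Agent.Lib.Helper94.OPStmt (P NP FxP NDegP StabP mem_FxP)
open Cfsg.Agent.Lib.Helper40.HPStmt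
open scoped Matrix

universe u

theorem cc_pos {i : ℕ} (h : 0 < i) : 0 < cc i := by
  unfold cc
  split_ifs <;> omega

theorem cc_of_even {i : ℕ} (h : Even i) : cc i = i := if_pos h

theorem card_P (d : ℕ) : Fintype.card (P d) = 2 * d := by
  simp [P]
  omega

theorem mem_iso_of_mem_omega {F : Type u} [Field F] {d : ℕ}
    (x : Matrix.GeneralLinearGroup (P d) F)
    (hx : x ∈ Cfsg.Geo.omegaGL (Cfsg.quadFormPlus d F)) :
    x ∈ Cfsg.isometryGroup F (Cfsg.quadFormPlus d F) := by
  unfold Cfsg.Geo.omegaGL at hx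
  obtain ⟨y, -, hy⟩ := Subgroup.mem_map.1 hx
  rw [← hy]
  exact y.2

/-- [B2H] from landed Props -/
theorem core (hIPos : IPos.{u}) (hElt : Cfsg.Agent.Lib.Helper44.TPStmt.EltDim.{u})
    (hDim : Cfsg.Agent.Lib.Helper45.EPStmt.DimObsA.{u})
    (hTE : Cfsg.Agent.Lib.Helper44.TPStmt.TypeEven.{u})
    (hCancel : Cfsg.Agent.Lib.Helper44.TPStmt.Cancel.{u})
    (hTop : Cfsg.Agent.Lib.Helper44.TPStmt.Top.{u})
    (hPerp : Cfsg.Agent.Lib.Helper44.TPStmt.Perp.{u}) : B2H.{u} := by
  intro F _ _ p _ _ d m hd hm hme hmd r _ hr2 hrp hND hnC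
  have hi : 0 < orderOf ((Fintype.card F : ℕ) : ZMod r) := hIPos F p r hrp
  obtain ⟨i, hidef⟩ : ∃ i, i = orderOf ((Fintype.card F : ℕ) : ZMod r) := ⟨_, rfl⟩
  rw [← hidef] at hi hND hnC
  have hND' : (Odd i → cc i ≤ m ∨ (2 * d) % cc i < m) ∧
      (Even i → i ≤ m ∨ (2 * d) % i = 0 ∨ (2 * d) % i < m ∨
        ((2 * d) % i = m ∧ Odd ((2 * d) / i))) := hND
  have hnC' : ¬ ((Odd i ∧ cc i ≤ m ∧ m % cc i ≤ (2 * d) % cc i) ∨
      (Even i ∧
        (((2 * d) % cc i = 0 ∧ (Odd ((2 * d) / i) ∨ (m % cc i = 0 ∧ Even (m / i)))) ∨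
         (i ≤ m ∧ ((m % cc i < (2 * d) % cc i ∧ 0 < m % cc i) ∨
           ((2 * d) % cc i = m % cc i ∧ 0 < m % cc i ∧
             Even ((2 * d + m - 2 * ((2 * d) % cc i)) / i)) ∨
           (0 < (2 * d) % cc i ∧ m % cc i = 0 ∧ Even (m / i))))))) := hnC
  have hcpos := cc_pos hi
  obtain ⟨hNDo, hNDe⟩ := hND'
  obtain ⟨c, hc⟩ : ∃ c, c = cc i := ⟨_, rfl⟩
  rw [← hc] at hcpos hNDo hnC'
  have hci : Even i → c = i := fun h => by rw [hc]; exact cc_of_even h
  -- `c ≤ 2 d`
  have hcn : c ≤ 2 * d := by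
    by_contra hlt
    have hmod : (2 * d) % c = 2 * d := Nat.mod_eq_of_lt (by omega)
    rcases Nat.even_or_odd i with hie | hio
    · have hcieq := hci hie
      have h := hNDe hie
      rw [← hcieq, hmod] at h
      rcases h with h | h | h | h <;> omega
    · rw [hmod] at hNDo
      rcases hNDo hio with h | h <;> omega
  obtain ⟨b, hb⟩ : ∃ b, b = (2 * d) / c := ⟨_, rfl⟩
  obtain ⟨k, hk⟩ : ∃ k, k = (2 * d) % c := ⟨_, rfl⟩
  rw [← hk] at hNDo hnC'
  have hdm : c * b + k = 2 * d := by
    rw [hb, hk]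
    exact Nat.div_add_mod _ _
  have hbc : b * c = c * b := Nat.mul_comm b c
  have hklt : k < c := by
    rw [hk]
    exact Nat.mod_lt _ hcpos
  have hb1 : 1 ≤ b := by
    rw [hb]
    exact Nat.div_pos hcn hcpos
  -- the even part of `NDivC` in terms of `k`, `b`
  have hNDe' : Even i → c ≤ m ∨ k = 0 ∨ k < m ∨ (k = m ∧ Odd b) := by
    intro hie
    have hcieq := hci hie
    have h := hNDe hie
    rw [← hcieq, ← hk, ← hb] at h
    exact h
  have htype : b * c = 2 * d → Odd i ∨ Even b := by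
    intro h2d
    rcases Nat.even_or_odd i with hie | hio
    · rcases Nat.even_or_odd b with hbe | hbo
      · exact Or.inr hbe
      · exfalso
        have hk0 : k = 0 := by omega
        have hbi : (2 * d) / i = b := by rw [hb, hci hie]
        exact hnC' (Or.inr ⟨hie, Or.inl ⟨hk0, Or.inl (by rw [hbi]; exact hbo)⟩⟩)
    · exact Or.inl hio
  obtain ⟨x, hxO, hxr, hxF⟩ := hElt F p d (by omega) r hr2 hrp b hb1
    (by rw [← hidef, ← hc]; omega) (by rw [← hidef, ← hc]; exact htype)
  rw [← hidef, ← hc] at hxF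
  have hxF' : Module.finrank F ↥(FxP (x : Matrix (P d) (P d) F)) = k := by
    have h : Module.finrank F ↥(FxP (x : Matrix (P d) (P d) F)) = 2 * d - b * c := hxF
    omega
  have hx1 : x ≠ 1 := by
    intro h
    rw [h] at hxF'
    have h3 : FxP ((1 : Matrix.GeneralLinearGroup (P d) F) : Matrix (P d) (P d) F) = ⊤ := by
      rw [eq_top_iff]
      intro v _
      rw [mem_FxP]
      simp
    rw [h3, finrank_top, Module.finrank_fintype_fun_eq_card, card_P] at hxF'
    omega
  refine ⟨x, hxO, orderOf_eq_prime hxr hx1, ?_⟩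
  intro W hWmem hWst
  obtain ⟨hWm, hWN, hWp⟩ := (hypJ_iff d m W).mp hWmem
  have hxI := mem_iso_of_mem_omega x hxO
  have hdvd := hDim F p d r hr2 hrp x hxI hxr W hWst hWN
  rw [← hidef, ← hc] at hdvd
  have hf1 : Module.finrank F ↥(W ⊓ FxP (x : Matrix (P d) (P d) F)) ≤ Module.finrank F ↥W :=
    Submodule.finrank_mono inf_le_left
  have hf2 : Module.finrank F ↥(W ⊓ FxP (x : Matrix (P d) (P d) F)) ≤
      Module.finrank F ↥(FxP (x : Matrix (P d) (P d) F)) :=
    Submodule.finrank_mono inf_le_right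
  rw [hWm] at hdvd hf1
  rw [hxF'] at hf2
  obtain ⟨f, hf⟩ : ∃ f, f = Module.finrank F ↥(W ⊓ FxP (x : Matrix (P d) (P d) F)) :=
    ⟨_, rfl⟩
  rw [← hf] at hdvd hf1 hf2
  obtain ⟨t, ht⟩ := hdvd
  have hmt : m = f + c * t := by omega
  have hmod : m % c = f := by
    have h2 : (f + c * t) % c = f := by
      rw [Nat.add_mul_mod_self_left, Nat.mod_eq_of_lt (by omega)]
    rw [← hmt] at h2
    exact h2
  have htc : 0 < t → c ≤ c * t := fun h => Nat.le_mul_of_pos_right c h
  rcases Nat.even_or_odd i with hie | hio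
  swap
  · -- `i` odd: `CondH` holds
    apply hnC'
    refine Or.inl ⟨hio, ?_, by omega⟩
    rcases hNDo hio with h | h
    · exact h
    · have htpos : 0 < t := by
        rcases Nat.eq_zero_or_pos t with h0 | h0
        · rw [h0] at hmt
          omega
        · exact h0
      have := htc htpos
      omega
  have hcieq := hci hie
  rcases Nat.eq_zero_or_pos f with hf0 | hfpos
  · -- no fixed vectors in `W`
    have hW0 : W ⊓ FxP (x : Matrix (P d) (P d) F) = ⊥ := by
      apply Submodule.finrank_eq_zero.1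
      rw [← hf, hf0]
    have hT := hTE F p d r hr2 hrp (by rw [← hidef]; exact hie) x hxI hxr W hWst hWN hW0
    rw [← hidef, hWm] at hT
    have hev_mi : Even (m / i) := hT.1 hWp
    have htpos : 0 < t := by
      rcases Nat.eq_zero_or_pos t with h | h
      · rw [h] at hmt
        omega
      · exact h
    have hcm := htc htpos
    apply hnC'
    by_cases hk0 : k = 0
    · exact Or.inr ⟨hie, Or.inl ⟨hk0, Or.inr ⟨by omega, hev_mi⟩⟩⟩
    · exact Or.inr ⟨hie, Or.inr ⟨by omega, Or.inr (Or.inr ⟨by omega, by omega, hev_mi⟩)⟩⟩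
  · by_cases hfk : f < k
    · by_cases hcm : c ≤ m
      · apply hnC'
        exact Or.inr ⟨hie, Or.inr ⟨by omega, Or.inl ⟨by omega, by omega⟩⟩⟩
      · have hmm : m % c = m := Nat.mod_eq_of_lt (by omega)
        rcases hNDe' hie with h | h | h | h <;> omega
    · have hfk' : f = k := by omega
      have hFxW : FxP (x : Matrix (P d) (P d) F) ≤ W := by
        have heq : W ⊓ FxP (x : Matrix (P d) (P d) F) = FxP (x : Matrix (P d) (P d) F) :=
          Submodule.eq_of_le_of_finrank_eq inf_le_right (by rw [← hf, hxF', hfk'])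
        rw [← heq]
        exact inf_le_left
      obtain ⟨Y, hWY, hYN, hWYbot, hWYdim, hYst⟩ := hPerp F d W hWN
      have hYst' := hYst x hxI hWst
      have hY0 : Y ⊓ FxP (x : Matrix (P d) (P d) F) = ⊥ := by
        rw [eq_bot_iff, ← hWYbot]
        exact le_inf (inf_le_right.trans hFxW) inf_le_left
      have hYdim : Module.finrank F ↥Y = 2 * d - m := by
        have h : Module.finrank F ↥W + Module.finrank F ↥Y = 2 * d := hWYdim
        omega
      have htop : W ⊔ Y = ⊤ := by
        apply Submodule.eq_top_of_finrank_eq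
        have h1 := Submodule.finrank_sup_add_finrank_inf_eq W Y
        have h0 : W ⊓ Y = ⊥ := hWYbot
        rw [h0, finrank_bot, add_zero] at h1
        rw [h1, Module.finrank_fintype_fun_eq_card, card_P]
        exact hWYdim
      have hYp : Cfsg.Agent.Lib.Helper44.TPStmt.Plus d F Y := by
        have hsup : Cfsg.Agent.Lib.Helper44.TPStmt.Plus d F (W ⊔ Y) := by
          rw [htop]
          exact (hTop F d).2
        exact hCancel F d W Y hWN hYN hWY hsup hWp
      have hT := hTE F p d r hr2 hrp (by rw [← hidef]; exact hie) x hxI hxr Y hYst' hYN hY0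
      rw [← hidef, hYdim] at hT
      have hev2 : Even ((2 * d - m) / i) := hT.1 hYp
      have htb : t ≤ b := by
        have h : c * t ≤ c * b := by omega
        exact Nat.le_of_mul_le_mul_left h hcpos
      have e1 : 2 * d - m = c * (b - t) := by
        rw [Nat.mul_sub]
        omega
      have hq1 : (2 * d - m) / i = b - t := by
        rw [e1, ← hcieq, Nat.mul_div_cancel_left _ hcpos]
      rw [hq1] at hev2
      obtain ⟨s, hs⟩ := hev2
      by_cases hcm : c ≤ m
      · have e2 : 2 * d + m - 2 * k = c * (b + t) := by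
          rw [Nat.mul_add]
          omega
        have hq2 : (2 * d + m - 2 * k) / i = b + t := by
          rw [e2, ← hcieq, Nat.mul_div_cancel_left _ hcpos]
        apply hnC'
        refine Or.inr ⟨hie, Or.inr ⟨by omega, Or.inr (Or.inl ⟨by omega, by omega, ?_⟩)⟩⟩
        rw [hq2]
        exact ⟨s + t, by omega⟩
      · have ht0 : t = 0 := by
          rcases Nat.eq_zero_or_pos t with h | h
          · exact h
          · have := htc h
            omega
        have hbev : Even b := ⟨s, by omega⟩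
        rcases hNDe' hie with h | h | h | h
        · omega
        · omega
        · rw [ht0] at hmt
          omega
        · exact (Nat.not_even_iff_odd.mpr h.2) hbev

end Cfsg.Agent.Lib.Helper8.HPB2Hcore
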