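import Cfsg.Agent.Lib.Helper8.M24Sub3
import Cfsg.Agent.Lib.Helper86.SylM23
import Cfsg.Agent.Lib.Helper86.SylowSimple

/-!
A subgroup of `M24` fixing a point `x`, of order divisible by `128`, contains a conjugate of
the explicit Sylow 2-subgroup of `M23`; hence the other 23 points split into a point, a pair,
a 4-set and a 16-set, each inside one orbit of the subgroup.
-/

set_option autoImplicit false

namespace Cfsg.Agent.Lib.Helper8.M23Syl

open Cfsg Cfsg.Spor Cfsg.Agent.Lib.Helper35.M24Fix Cfsg.Agent.Lib.Helper35.PermAut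
  Cfsg.Agent.Lib.Helper35.M24Aut Cfsg.Agent.Lib.Helper8.M24Sub Cfsg.Agent.Lib.Helper8.M24Sub2
  Cfsg.Agent.Lib.Helper7.M24Main Cfsg.Agent.Lib.Helper7.ChainGen Cfsg.Agent.Lib.Helper7.GolayBase
  Cfsg.Agent.Lib.Helper7.GolayPerm Cfsg.Agent.Lib.Helper86.TabGrp
  Cfsg.Agent.Lib.Helper86.TabMathieu Cfsg.Agent.Lib.Helper86.SylM23
  Cfsg.Agent.Lib.Helper86.SylowSimple
open scoped Pointwise

/-- A subgroup of `M24` fixing `x` of order divisible by 128 contains a conjugate of the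
explicit Sylow 2-subgroup of `M23`. -/
theorem syl_conj {K1 : Subgroup (Equiv.Perm GolayPt)} (hK : K1 ≤ M24) {x : GolayPt}
    (hx : ∀ k ∈ K1, k x = x) (h128 : 2 ^ 7 ∣ Nat.card K1) :
    ∃ h : Equiv.Perm GolayPt, h (pt 23) = x ∧ ∀ t ∈ grp gT, h * t * h⁻¹ ∈ K1 := by
  have : Fact (Nat.Prime 2) := ⟨Nat.prime_two⟩
  obtain ⟨S1, hS1⟩ := Sylow.exists_subgroup_card_pow_prime 2 h128
  obtain ⟨g, hg, hmap⟩ := exists_map_base5 [x] (by simp) (by simp)
  simp only [List.map_cons, List.map_nil, List.length_cons, List.length_nil, base5, List.take,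
    List.cons.injEq, and_true] at hmap
  have hS2c : Nat.card ↥((S1.map K1.subtype).map (MulAut.conj g).toMonoidHom) = 2 ^ 7 := by
    rw [card_conj, Subgroup.card_map_of_injective (Subgroup.subtype_injective _), hS1]
  have hS2le : (S1.map K1.subtype).map (MulAut.conj g).toMonoidHom ≤ M23 := by
    rintro _ ⟨_, ⟨k, _, rfl⟩, rfl⟩
    refine ⟨M24.mul_mem (M24.mul_mem hg (hK k.2)) (M24.inv_mem hg),
      MulAction.mem_stabilizer_iff.mpr ?_⟩
    have h1 := conj_fix g k x (hx k k.2)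
    rw [hmap] at h1
    exact h1
  have hfac : (Nat.card M23).factorization 2 = 7 :=
    factorization_of_card 2 7 79695 _ (by rw [card_M23]; norm_num) (by norm_num)
  have hcS : Nat.card (((S1.map K1.subtype).map (MulAut.conj g).toMonoidHom).subgroupOf M23) =
      2 ^ (Nat.card M23).factorization 2 := by
    rw [card_subgroupOf hS2le, hS2c, hfac]
  have hcT : Nat.card ((grp gT).subgroupOf M23) = 2 ^ (Nat.card M23).factorization 2 := by
    rw [card_subgroupOf grpLe, card_grp, hfac]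
  obtain ⟨m, hm⟩ := exists_conj_of_card 2 ((grp gT).subgroupOf M23) hcT
    (Sylow.ofCard (((S1.map K1.subtype).map (MulAut.conj g).toMonoidHom).subgroupOf M23) hcS)
  rw [Sylow.coe_ofCard] at hm
  refine ⟨g⁻¹ * (m : Equiv.Perm GolayPt), ?_, ?_⟩
  · show g⁻¹ ((m : Equiv.Perm GolayPt) (pt 23)) = x
    have hm23 : (m : Equiv.Perm GolayPt) (pt 23) = pt 23 := MulAction.mem_stabilizer_iff.mp m.2.2
    rw [hm23, Equiv.Perm.inv_eq_iff_eq, hmap]
  · intro t ht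
    have h1 : (MulAut.conj m).toMonoidHom ⟨t, grpLe ht⟩ ∈
        ((S1.map K1.subtype).map (MulAut.conj g).toMonoidHom).subgroupOf M23 := by
      rw [hm]
      exact Subgroup.mem_map_of_mem _ (Subgroup.mem_subgroupOf.mpr ht)
    rw [Subgroup.mem_subgroupOf] at h1
    obtain ⟨_, ⟨k, hk, rfl⟩, hk2⟩ := h1
    have hk3 : g * (k : Equiv.Perm GolayPt) * g⁻¹ =
        (m : Equiv.Perm GolayPt) * t * (m : Equiv.Perm GolayPt)⁻¹ := hk2
    have h4 : g⁻¹ * (m : Equiv.Perm GolayPt) * t * (g⁻¹ * (m : Equiv.Perm GolayPt))⁻¹ =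
        (k : Equiv.Perm GolayPt) := by
      have h5 : (k : Equiv.Perm GolayPt) = g⁻¹ * (g * k * g⁻¹) * g := by group
      rw [h5, hk3]
      group
    rw [h4]
    exact k.2

/-- The orbits of the explicit Sylow 2-subgroup of `M23` on the points other than its two
fixed points (indices 23 and 0). -/
def cls : List (List Nat) :=
  [[5, 9], [8, 10, 17, 18], [1, 2, 3, 4, 6, 7, 11, 12, 13, 14, 15, 16, 19, 20, 21, 22]]

theorem cls_ok : cls.all (fun o => o.all (fun a => o.all (fun b =>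
    decide (a < 24) && decide (b < 24) && L.any (fun t => t.getD a 0 == b)))) = true := by
  decide +kernel

theorem move {a b : Nat} (ha : a < 24) (h : L.any (fun t => t.getD a 0 == b) = true) :
    ∃ t ∈ grp gT, t (pt a) = pt b := by
  obtain ⟨t, ht, hab⟩ := List.any_eq_true.mp h
  obtain ⟨g, hg, hr⟩ := hE.rep t ht
  refine ⟨g, hg, ?_⟩
  have h1 := hr.2 (pt a)
  rw [idx_pt ha, beq_iff_eq.mp hab] at h1
  rw [h1, pt_idx]

/-- The finset of points with indices in a list. -/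
def pts (o : List Nat) : Finset GolayPt := (o.map pt).toFinset

theorem conn {K1 : Subgroup (Equiv.Perm GolayPt)} {h : Equiv.Perm GolayPt}
    (hh : ∀ t ∈ grp gT, h * t * h⁻¹ ∈ K1) {o : List Nat} (ho : o ∈ cls) :
    ∀ a ∈ (pts o).map h.toEmbedding, ∀ b ∈ (pts o).map h.toEmbedding, b ∈ orb K1 a := by
  intro a ha b hb
  obtain ⟨a0, ha0, rfl⟩ := Finset.mem_map.mp ha
  obtain ⟨b0, hb0, rfl⟩ := Finset.mem_map.mp hb
  obtain ⟨a', ha', rfl⟩ := List.mem_map.mp (List.mem_toFinset.mp ha0)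
  obtain ⟨b', hb', rfl⟩ := List.mem_map.mp (List.mem_toFinset.mp hb0)
  have h1 := List.all_eq_true.mp (List.all_eq_true.mp (List.all_eq_true.mp cls_ok o ho) a' ha')
    b' hb'
  simp only [Bool.and_eq_true, decide_eq_true_eq] at h1
  obtain ⟨t, ht, htab⟩ := move h1.1.1 h1.2
  refine mem_orb.mpr ⟨h * t * h⁻¹, hh t ht, ?_⟩
  show h (t (h⁻¹ (h (pt a')))) = h (pt b')
  have h2 : h⁻¹ (h (pt a')) = pt a' := h.symm_apply_apply _
  rw [h2, htab]

theorem base_facts : (pts [5, 9]).card = 2 ∧ (pts [8, 10, 17, 18]).card = 4 ∧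
    (pts [1, 2, 3, 4, 6, 7, 11, 12, 13, 14, 15, 16, 19, 20, 21, 22]).card = 16 ∧
    (∀ z : GolayPt, z = pt 23 ∨ z = pt 0 ∨ z ∈ pts [5, 9] ∨ z ∈ pts [8, 10, 17, 18] ∨
      z ∈ pts [1, 2, 3, 4, 6, 7, 11, 12, 13, 14, 15, 16, 19, 20, 21, 22]) ∧
    pt 0 ≠ pt 23 ∧ pt 23 ∉ pts [5, 9] ∧ pt 23 ∉ pts [8, 10, 17, 18] ∧
    pt 23 ∉ pts [1, 2, 3, 4, 6, 7, 11, 12, 13, 14, 15, 16, 19, 20, 21, 22] ∧
    pt 0 ∉ pts [5, 9] ∧ pt 0 ∉ pts [8, 10, 17, 18] ∧
    pt 0 ∉ pts [1, 2, 3, 4, 6, 7, 11, 12, 13, 14, 15, 16, 19, 20, 21, 22] ∧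
    Disjoint (pts [5, 9]) (pts [8, 10, 17, 18]) ∧
    Disjoint (pts [5, 9]) (pts [1, 2, 3, 4, 6, 7, 11, 12, 13, 14, 15, 16, 19, 20, 21, 22]) ∧
    Disjoint (pts [8, 10, 17, 18])
      (pts [1, 2, 3, 4, 6, 7, 11, 12, 13, 14, 15, 16, 19, 20, 21, 22]) := by
  decide +kernel

/-- The classes of points attached to a subgroup fixing `x` of order divisible by 128. -/
theorem syl_classes {K1 : Subgroup (Equiv.Perm GolayPt)} (hK : K1 ≤ M24) {x : GolayPt}
    (hx : ∀ k ∈ K1, k x = x) (h128 : 2 ^ 7 ∣ Nat.card K1) :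
    ∃ (y0 : GolayPt) (P2 P4 P16 : Finset GolayPt), P2.card = 2 ∧ P4.card = 4 ∧ P16.card = 16 ∧
      (∀ z, z = x ∨ z = y0 ∨ z ∈ P2 ∨ z ∈ P4 ∨ z ∈ P16) ∧
      y0 ≠ x ∧ x ∉ P2 ∧ x ∉ P4 ∧ x ∉ P16 ∧ y0 ∉ P2 ∧ y0 ∉ P4 ∧ y0 ∉ P16 ∧
      Disjoint P2 P4 ∧ Disjoint P2 P16 ∧ Disjoint P4 P16 ∧
      (∀ a ∈ P2, ∀ b ∈ P2, b ∈ orb K1 a) ∧ (∀ a ∈ P4, ∀ b ∈ P4, b ∈ orb K1 a) ∧
      (∀ a ∈ P16, ∀ b ∈ P16, b ∈ orb K1 a) := by
  obtain ⟨h, hx23, hh⟩ := syl_conj hK hx h128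
  obtain ⟨c2, c4, c16, hcov, h023, h23a, h23b, h23c, h0a, h0b, h0c, d1, d2, d3⟩ := base_facts
  have hmem : ∀ (B : Finset GolayPt) (z : GolayPt), h z ∈ B.map h.toEmbedding ↔ z ∈ B :=
    fun B z => Finset.mem_map' h.toEmbedding
  refine ⟨h (pt 0), (pts [5, 9]).map h.toEmbedding, (pts [8, 10, 17, 18]).map h.toEmbedding,
    (pts [1, 2, 3, 4, 6, 7, 11, 12, 13, 14, 15, 16, 19, 20, 21, 22]).map h.toEmbedding,
    by rw [Finset.card_map, c2], by rw [Finset.card_map, c4], by rw [Finset.card_map, c16],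
    ?_, ?_, ?_, ?_, ?_, ?_, ?_, ?_, ?_, ?_, ?_,
    conn hh (by simp [cls]), conn hh (by simp [cls]), conn hh (by simp [cls])⟩
  · intro z
    have hz : z = h (h⁻¹ z) := (h.apply_symm_apply z).symm
    rw [hz, ← hx23]
    rcases hcov (h⁻¹ z) with e | e | e | e | e
    · left; rw [e]
    · right; left; rw [e]
    · right; right; left; exact (hmem _ _).mpr e
    · right; right; right; left; exact (hmem _ _).mpr e
    · right; right; right; right; exact (hmem _ _).mpr e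
  · rw [← hx23]
    exact fun e => h023 (h.injective e)
  · rw [← hx23, hmem]; exact h23a
  · rw [← hx23, hmem]; exact h23b
  · rw [← hx23, hmem]; exact h23c
  · rw [hmem]; exact h0a
  · rw [hmem]; exact h0b
  · rw [hmem]; exact h0c
  · exact (Finset.disjoint_map h.toEmbedding).mpr d1
  · exact (Finset.disjoint_map h.toEmbedding).mpr d2
  · exact (Finset.disjoint_map h.toEmbedding).mpr d3

end Cfsg.Agent.Lib.Helper8.M23Syl
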