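import Cfsg.Agent.Lib.Helper8.OrbTools
import Cfsg.Agent.Lib.Helper8.M23Syl
import Cfsg.Prelude.Def_SporadicCombinatorics

/-!
A subgroup of order `138240` of `M24` preserves a sextet.
-/

set_option autoImplicit false

namespace Cfsg.Agent.Lib.Helper8.Idx1771

open Cfsg Cfsg.Agent.Lib.Helper35.M24Fix Cfsg.Agent.Lib.Helper35.PermAut
  Cfsg.Agent.Lib.Helper35.M24Aut Cfsg.Agent.Lib.Helper8.M24Sub Cfsg.Agent.Lib.Helper8.M24Sub2
  Cfsg.Agent.Lib.Helper8.M24Sub3 Cfsg.Agent.Lib.Helper8.OrbTools Cfsg.Agent.Lib.Helper8.M23Syl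
open scoped Pointwise

theorem card_split {α : Type*} [DecidableEq α] (Z A B C D : Finset α)
    (hcov : ∀ z ∈ Z, z ∈ A ∨ z ∈ B ∨ z ∈ C ∨ z ∈ D)
    (hAB : Disjoint A B) (hAC : Disjoint A C) (hAD : Disjoint A D) (hBC : Disjoint B C)
    (hBD : Disjoint B D) (hCD : Disjoint C D) :
    Z.card = (Z ∩ A).card + (Z ∩ B).card + (Z ∩ C).card + (Z ∩ D).card := by
  have h : Z = (Z ∩ A) ∪ (Z ∩ B) ∪ (Z ∩ C) ∪ (Z ∩ D) := by
    ext z
    simp only [Finset.mem_union, Finset.mem_inter]
    constructor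
    · intro hz
      rcases hcov z hz with h | h | h | h
      · exact Or.inl (Or.inl (Or.inl ⟨hz, h⟩))
      · exact Or.inl (Or.inl (Or.inr ⟨hz, h⟩))
      · exact Or.inl (Or.inr ⟨hz, h⟩)
      · exact Or.inr ⟨hz, h⟩
    · rintro (((h | h) | h) | h) <;> exact h.1
  have dj : ∀ {P Q : Finset α}, Disjoint P Q → Disjoint (Z ∩ P) (Z ∩ Q) := fun hPQ =>
    Finset.disjoint_of_subset_left Finset.inter_subset_right
      (Finset.disjoint_of_subset_right Finset.inter_subset_right hPQ)
  have d1 : Disjoint (Z ∩ A) (Z ∩ B) := dj hAB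
  have d2 : Disjoint ((Z ∩ A) ∪ (Z ∩ B)) (Z ∩ C) := by
    rw [Finset.disjoint_union_left]
    exact ⟨dj hAC, dj hBC⟩
  have d3 : Disjoint ((Z ∩ A) ∪ (Z ∩ B) ∪ (Z ∩ C)) (Z ∩ D) := by
    rw [Finset.disjoint_union_left, Finset.disjoint_union_left]
    exact ⟨⟨dj hAD, dj hBD⟩, dj hCD⟩
  conv_lhs => rw [h]
  rw [Finset.card_union_of_disjoint d3, Finset.card_union_of_disjoint d2,
    Finset.card_union_of_disjoint d1]

section K1

variable {K1 : Subgroup (Equiv.Perm GolayPt)} {x : GolayPt}

theorem class_dich {P Z : Finset GolayPt} (hP : ∀ a ∈ P, ∀ b ∈ P, b ∈ orb K1 a)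
    (hZ : Inv K1 Z) :
    (P ⊆ Z ∧ (Z ∩ P).card = P.card) ∨ (Disjoint P Z ∧ (Z ∩ P).card = 0) := by
  by_cases h : ∃ a ∈ P, a ∈ Z
  · obtain ⟨a, haP, haZ⟩ := h
    have hsub : P ⊆ Z := fun b hb => orb_subset hZ haZ (hP a haP b hb)
    exact Or.inl ⟨hsub, by rw [Finset.inter_eq_right.mpr hsub]⟩
  · push Not at h
    have hd : Disjoint P Z := Finset.disjoint_left.mpr h
    refine Or.inr ⟨hd, ?_⟩
    rw [Finset.card_eq_zero, Finset.inter_comm]
    exact Finset.disjoint_iff_inter_eq_empty.mp hd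

theorem profile {y0 : GolayPt} {P2 P4 P16 : Finset GolayPt}
    (hcov : ∀ z, z = x ∨ z = y0 ∨ z ∈ P2 ∨ z ∈ P4 ∨ z ∈ P16)
    (hy0P2 : y0 ∉ P2) (hy0P4 : y0 ∉ P4) (hy0P16 : y0 ∉ P16) (d24 : Disjoint P2 P4)
    (d216 : Disjoint P2 P16) (d416 : Disjoint P4 P16) (c2 : P2.card = 2) (c4 : P4.card = 4)
    (c16 : P16.card = 16) (h2 : ∀ a ∈ P2, ∀ b ∈ P2, b ∈ orb K1 a)
    (h4 : ∀ a ∈ P4, ∀ b ∈ P4, b ∈ orb K1 a) (h16 : ∀ a ∈ P16, ∀ b ∈ P16, b ∈ orb K1 a)
    (Z : Finset GolayPt) (hZ : Inv K1 Z) (hxZ : x ∉ Z) :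
    ∃ a b c d : ℕ, Z.card = a + b + c + d ∧ ((y0 ∈ Z ∧ a = 1) ∨ (y0 ∉ Z ∧ a = 0)) ∧
      ((P2 ⊆ Z ∧ b = 2) ∨ (Disjoint P2 Z ∧ b = 0)) ∧
      ((P4 ⊆ Z ∧ c = 4) ∨ (Disjoint P4 Z ∧ c = 0)) ∧
      ((P16 ⊆ Z ∧ d = 16) ∨ (Disjoint P16 Z ∧ d = 0)) := by
  refine ⟨(Z ∩ {y0}).card, (Z ∩ P2).card, (Z ∩ P4).card, (Z ∩ P16).card,
    card_split Z {y0} P2 P4 P16 ?_ (Finset.disjoint_singleton_left.mpr hy0P2)
      (Finset.disjoint_singleton_left.mpr hy0P4) (Finset.disjoint_singleton_left.mpr hy0P16)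
      d24 d216 d416, ?_, ?_, ?_, ?_⟩
  · intro z hz
    rcases hcov z with h | h | h | h | h
    · exact absurd (h ▸ hz) hxZ
    · exact Or.inl (Finset.mem_singleton.mpr h)
    · exact Or.inr (Or.inl h)
    · exact Or.inr (Or.inr (Or.inl h))
    · exact Or.inr (Or.inr (Or.inr h))
  · by_cases hy : y0 ∈ Z
    · left
      exact ⟨hy, by rw [Finset.inter_singleton_of_mem hy, Finset.card_singleton]⟩
    · right
      exact ⟨hy, by rw [Finset.inter_singleton_of_notMem hy, Finset.card_empty]⟩
  · rcases class_dich h2 hZ with ⟨hs, hc⟩ | ⟨hd, hc⟩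
    · exact Or.inl ⟨hs, hc.trans c2⟩
    · exact Or.inr ⟨hd, hc⟩
  · rcases class_dich h4 hZ with ⟨hs, hc⟩ | ⟨hd, hc⟩
    · exact Or.inl ⟨hs, hc.trans c4⟩
    · exact Or.inr ⟨hd, hc⟩
  · rcases class_dich h16 hZ with ⟨hs, hc⟩ | ⟨hd, hc⟩
    · exact Or.inl ⟨hs, hc.trans c16⟩
    · exact Or.inr ⟨hd, hc⟩

/-- No invariant set of four points avoiding the fixed point. -/
theorem no4 (hK : K1 ≤ M24) (hx : ∀ k ∈ K1, k x = x) (hc : Nat.card K1 = 5760)
    (Z : Finset GolayPt) (hZ : Inv K1 Z) (hxZ : x ∉ Z) (h4 : Z.card = 4) : False := by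
  have h1 := card_dvd_fixer_mul K1 Z hZ
  have h2 := fix_dvd5 ((fixer_le K1 Z).trans hK) (insert x Z) (by
    intro k hk z hz
    rcases Finset.mem_insert.mp hz with hz | hz
    · rw [hz]; exact hx k (fixer_le K1 Z hk)
    · exact hk.2 z hz) (by rw [Finset.card_insert_of_notMem hxZ, h4])
  rw [hc, h4, (by decide : Nat.factorial 4 = 24)] at h1
  have h3 := Nat.le_of_dvd (by norm_num) h2
  obtain ⟨q, hq⟩ := h1
  have hpos : 0 < Nat.card (fixer K1 Z) := Nat.card_pos
  omega

/-- The structure of a subgroup of order `5760` fixing a point: either it fixes a second point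
and has an orbit of six points, or it has an orbit of three points and one of twenty. -/
theorem struct5760 (hK : K1 ≤ M24) (hx : ∀ k ∈ K1, k x = x) (hc : Nat.card K1 = 5760) :
    (∃ (y0 : GolayPt) (H : Finset GolayPt), y0 ≠ x ∧ (∀ k ∈ K1, k y0 = y0) ∧ H.card = 6 ∧
      x ∉ H ∧ y0 ∉ H ∧ Inv K1 H ∧ ∀ h ∈ H, orb K1 h = H) ∨
    (∃ T4 : Finset GolayPt, T4.card = 4 ∧ x ∈ T4 ∧ Inv K1 T4 ∧
      ∀ z, z ∈ T4 ↔ (orb K1 z).card ≤ 3) := by
  obtain ⟨y0, P2, P4, P16, c2, c4, c16, hcov, hy0x, hxP2, hxP4, hxP16, hy0P2, hy0P4, hy0P16,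
    d24, d216, d416, h2, h4, h16⟩ := syl_classes hK hx (by rw [hc]; decide)
  have prof := fun Z hZ hxZ => profile (K1 := K1) hcov hy0P2 hy0P4 hy0P16 d24 d216 d416 c2 c4 c16
    h2 h4 h16 Z hZ hxZ
  have hnot : ∀ z, z ≠ x → x ∉ orb K1 z := fun z hz => notMem_orb_of_fixed hx (Ne.symm hz)
  have hdvd : ∀ z, (orb K1 z).card ∣ 5760 := fun z => hc ▸ orb_card_dvd K1 z
  have hy0not : x ∉ orb K1 y0 := hnot y0 hy0x
  obtain ⟨p2, hp2⟩ : P2.Nonempty := by
    rw [← Finset.card_pos, c2]
    norm_num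
  obtain ⟨p4, hp4⟩ : P4.Nonempty := by
    rw [← Finset.card_pos, c4]
    norm_num
  have hp2x : p2 ≠ x := fun h => hxP2 (h ▸ hp2)
  have hp2y : p2 ≠ y0 := fun h => hy0P2 (h ▸ hp2)
  have hp4x : p4 ≠ x := fun h => hxP4 (h ▸ hp4)
  obtain ⟨a, b, c, d, hO, ha, hb, hc', hd⟩ := prof (orb K1 y0) (inv_orb K1 y0) hy0not
  have ha1 : a = 1 := by
    rcases ha with ⟨_, h⟩ | ⟨h, _⟩
    · exact h
    · exact absurd (self_mem_orb K1 y0) h
  subst ha1
  have hdv := hdvd y0
  rw [hO] at hdv
  obtain ⟨q, hq⟩ := hdv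
  rcases hb with ⟨hb1, rfl⟩ | ⟨hb1, rfl⟩ <;> rcases hc' with ⟨hc1, rfl⟩ | ⟨hc1, rfl⟩ <;>
    rcases hd with ⟨hd1, rfl⟩ | ⟨hd1, rfl⟩
  · omega
  · omega
  · omega
  · -- an orbit of three points
    right
    have hO3 : (orb K1 y0).card = 3 := by omega
    have hp4O : p4 ∉ orb K1 y0 := fun h => Finset.disjoint_left.mp hc1 hp4 h
    have hOO : Disjoint (orb K1 p4) (orb K1 y0) := orb_disjoint hp4O
    obtain ⟨a', b', c'', d', hO4, ha', hb', hc'', hd'⟩ :=
      prof (orb K1 p4) (inv_orb K1 p4) (hnot p4 hp4x)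
    have ha0 : a' = 0 := by
      rcases ha' with ⟨h, _⟩ | ⟨_, h⟩
      · exact absurd (self_mem_orb K1 y0) (Finset.disjoint_left.mp hOO h)
      · exact h
    have hb0 : b' = 0 := by
      rcases hb' with ⟨h, _⟩ | ⟨_, h⟩
      · exact absurd (hb1 hp2) (Finset.disjoint_left.mp hOO (h hp2))
      · exact h
    have hc4' : c'' = 4 := by
      rcases hc'' with ⟨_, h⟩ | ⟨h, _⟩
      · exact h
      · exact absurd (self_mem_orb K1 p4) (Finset.disjoint_left.mp h hp4)
    subst ha0 hb0 hc4'
    have h20 : (orb K1 p4).card = 20 := by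
      rcases hd' with ⟨_, rfl⟩ | ⟨_, rfl⟩
      · omega
      · exfalso
        exact no4 hK hx hc (orb K1 p4) (inv_orb K1 p4) (hnot p4 hp4x) (by omega)
    refine ⟨insert x (orb K1 y0), ?_, Finset.mem_insert_self _ _,
      inv_insert hx (inv_orb K1 y0), ?_⟩
    · rw [Finset.card_insert_of_notMem hy0not, hO3]
    · intro z
      constructor
      · intro hz
        rcases Finset.mem_insert.mp hz with hz | hz
        · rw [hz, orb_of_fix hx, Finset.card_singleton]
          norm_num
        · rw [orb_eq_of_mem hz, hO3]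
      · intro hz
        by_contra hzn
        rw [Finset.mem_insert] at hzn
        push Not at hzn
        have hcompl : orb K1 p4 = (insert x (orb K1 y0))ᶜ := by
          apply Finset.eq_of_subset_of_card_le
          · intro w hw
            rw [Finset.mem_compl, Finset.mem_insert]
            push Not
            exact ⟨fun h => hnot p4 hp4x (h ▸ hw), Finset.disjoint_left.mp hOO hw⟩
          · rw [Finset.card_compl, card_golayPt, Finset.card_insert_of_notMem hy0not, hO3, h20]
        have hzin : z ∈ orb K1 p4 := by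
          rw [hcompl, Finset.mem_compl, Finset.mem_insert]
          push Not
          exact hzn
        rw [orb_eq_of_mem hzin, h20] at hz
        omega
  · omega
  · -- an orbit of five points
    exfalso
    have hO5 : (orb K1 y0).card = 5 := by omega
    have h1 := card_dvd_fixer_mul K1 (orb K1 y0) (inv_orb K1 y0)
    have hfix : ∀ k ∈ fixer K1 (orb K1 y0), ∀ z ∈ insert x (orb K1 y0), k z = z := by
      intro k hk z hz
      rcases Finset.mem_insert.mp hz with hz | hz
      · rw [hz]; exact hx k (fixer_le _ _ hk)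
      · exact hk.2 z hz
    have hc6 : (insert x (orb K1 y0)).card = 6 := by
      rw [Finset.card_insert_of_notMem hy0not, hO5]
    have h2' := fix_dvd5 ((fixer_le K1 _).trans hK) _ hfix (by rw [hc6]; norm_num)
    have h3 := fix6_not_six_dvd ((fixer_le K1 _).trans hK) _ hfix hc6
    rw [hc, hO5, (by decide : Nat.factorial 5 = 120)] at h1
    obtain ⟨q', hq'⟩ := h1
    have h4' := Nat.le_of_dvd (by norm_num) h2'
    have hpos : 0 < Nat.card (fixer K1 (orb K1 y0)) := Nat.card_pos
    have h48 : Nat.card (fixer K1 (orb K1 y0)) = 48 := by omega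
    rw [h48] at h3
    exact h3 (by decide)
  · omega
  · -- a second fixed point
    have hO1 : (orb K1 y0).card = 1 := by omega
    have hfy0 := fix_of_orb_card_one hO1
    have hy0O2 : y0 ∉ orb K1 p2 := notMem_orb_of_fixed hfy0 (Ne.symm hp2y)
    obtain ⟨a', b', c'', d', hO2, ha', hb', hc'', hd'⟩ :=
      prof (orb K1 p2) (inv_orb K1 p2) (hnot p2 hp2x)
    have ha0 : a' = 0 := by
      rcases ha' with ⟨h, _⟩ | ⟨_, h⟩
      · exact absurd h hy0O2
      · exact h
    have hb2 : b' = 2 := by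
      rcases hb' with ⟨_, h⟩ | ⟨h, _⟩
      · exact h
      · exact absurd (self_mem_orb K1 p2) (Finset.disjoint_left.mp h hp2)
    subst ha0 hb2
    have hdv2 := hdvd p2
    rw [hO2] at hdv2
    obtain ⟨q2, hq2⟩ := hdv2
    have hxn : x ∉ insert y0 (orb K1 p2) := by
      rw [Finset.mem_insert]
      push Not
      exact ⟨hy0x.symm, hnot p2 hp2x⟩
    rcases hc'' with ⟨hc2, rfl⟩ | ⟨hc2, rfl⟩ <;> rcases hd' with ⟨hd2, rfl⟩ | ⟨hd2, rfl⟩
    · omega
    · left
      exact ⟨y0, orb K1 p2, hy0x, hfy0, by omega, hnot p2 hp2x, hy0O2, inv_orb K1 p2,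
        fun h hh => orb_eq_of_mem hh⟩
    · exfalso
      have hO18 : (orb K1 p2).card = 18 := by omega
      refine no4 hK hx hc (insert x (insert y0 (orb K1 p2)))ᶜ
        (inv_compl (inv_insert hx (inv_insert hfy0 (inv_orb K1 p2)))) (by simp) ?_
      rw [Finset.card_compl, card_golayPt, Finset.card_insert_of_notMem hxn,
        Finset.card_insert_of_notMem hy0O2, hO18]
    · exfalso
      have hO2' : (orb K1 p2).card = 2 := by omega
      have h1 := card_dvd_fixer_mul K1 (orb K1 p2) (inv_orb K1 p2)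
      have h2' := fix_dvd4 ((fixer_le K1 _).trans hK) (insert x (insert y0 (orb K1 p2))) (by
        intro k hk z hz
        rcases Finset.mem_insert.mp hz with hz | hz
        · rw [hz]; exact hx k (fixer_le _ _ hk)
        · rcases Finset.mem_insert.mp hz with hz | hz
          · rw [hz]; exact hfy0 k (fixer_le _ _ hk)
          · exact hk.2 z hz) (by
        rw [Finset.card_insert_of_notMem hxn, Finset.card_insert_of_notMem hy0O2, hO2'])
      rw [hc, hO2', (by decide : Nat.factorial 2 = 2)] at h1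
      obtain ⟨q', hq'⟩ := h1
      have h4' := Nat.le_of_dvd (by norm_num) h2'
      have hpos : 0 < Nat.card (fixer K1 (orb K1 p2)) := Nat.card_pos
      omega

end K1

section main

variable {K : Subgroup (Equiv.Perm GolayPt)}

theorem no_caseA (hK : K ≤ M24) (hst : ∀ x, Nat.card (stb K x) = 5760)
    (htr : ∀ x, (orb K x).card = 24) {x y0 : GolayPt} {H : Finset GolayPt} (hy0x : y0 ≠ x)
    (hfy0 : ∀ k ∈ stb K x, k y0 = y0) (hH6 : H.card = 6) (hxH : x ∉ H) (hy0H : y0 ∉ H)
    (hHinv : Inv (stb K x) H) (hHorb : ∀ h ∈ H, orb (stb K x) h = H) : False := by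
  have hK1 : stb K x ≤ M24 := (stb_le K x).trans hK
  have hx := stb_fix K x
  have hS8 : (insert x (insert y0 H)).card = 8 := by
    rw [Finset.card_insert_of_notMem, Finset.card_insert_of_notMem hy0H, hH6]
    rw [Finset.mem_insert]
    push Not
    exact ⟨hy0x.symm, hxH⟩
  have hNle : fixer (stb K x) H ≤ stb K x := fixer_le _ _
  have hNfix : ∀ k ∈ fixer (stb K x) H, ∀ z ∈ insert x (insert y0 H), k z = z := by
    intro k hk z hz
    rcases Finset.mem_insert.mp hz with hz | hz
    · rw [hz]; exact hx k (hNle hk)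
    · rcases Finset.mem_insert.mp hz with hz | hz
      · rw [hz]; exact hfy0 k (hNle hk)
      · exact hk.2 z hz
  have h1 := card_dvd_fixer_mul (stb K x) H hHinv
  rw [hst x, hH6, (by decide : Nat.factorial 6 = 720)] at h1
  have h8 : 8 ∣ Nat.card (fixer (stb K x) H) := by
    obtain ⟨q, hq⟩ := h1
    omega
  have hN1 : Nat.card (fixer (stb K x) H) ≠ 1 := by
    intro h
    rw [h] at h8
    revert h8
    decide
  obtain ⟨h, hh⟩ : H.Nonempty := by
    rw [← Finset.card_pos, hH6]
    norm_num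
  obtain ⟨k, hk, hkx⟩ := mem_orb.mp (mem_orb_of_card (htr x) h)
  have hfh' : ∀ j ∈ stb K h, j (k y0) = k y0 := by
    intro j hj
    obtain ⟨hjK, hjh⟩ := mem_stb.mp hj
    have hmem : k⁻¹ * j * k ∈ stb K x := by
      refine mem_stb.mpr ⟨K.mul_mem (K.mul_mem (K.inv_mem hk) hjK) hk, ?_⟩
      show k⁻¹ (j (k x)) = x
      rw [Equiv.Perm.inv_eq_iff_eq, hkx]
      exact hjh
    have h3 : k⁻¹ (j (k y0)) = y0 := hfy0 _ hmem
    rw [Equiv.Perm.inv_eq_iff_eq] at h3
    exact h3
  have hh'ne : k y0 ≠ h := fun e => hy0x (k.injective (e.trans hkx.symm))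
  have hNh : fixer (stb K x) H ≤ stb K h :=
    fun j hj => mem_stb.mpr ⟨stb_le K x (hNle hj), hj.2 h hh⟩
  have hh'S : k y0 ∈ insert x (insert y0 H) := by
    by_contra hn
    have := fix_eq9 (hNle.trans hK1) (insert (k y0) (insert x (insert y0 H))) (by
      intro j hj z hz
      rcases Finset.mem_insert.mp hz with hz | hz
      · rw [hz]; exact hfh' j (hNh hj)
      · exact hNfix j hj z hz) (by rw [Finset.card_insert_of_notMem hn, hS8])
    exact hN1 this
  have hnofix : ¬ ∀ j ∈ stb K x, j h = h := by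
    intro hf
    have := hHorb h hh
    rw [orb_of_fix hf] at this
    rw [← this, Finset.card_singleton] at hH6
    omega
  have heq_of_le : ∀ a b : GolayPt, stb K a ≤ stb K b → stb K a = stb K b := fun a b hle =>
    Subgroup.eq_of_le_of_card_ge hle (by rw [hst a, hst b])
  rcases Finset.mem_insert.mp hh'S with e | e
  · have hle : stb K h ≤ stb K x :=
      fun j hj => mem_stb.mpr ⟨stb_le K h hj, by rw [← e]; exact hfh' j hj⟩
    have e1 := heq_of_le _ _ hle
    exact hnofix (fun j hj => stb_fix K h j (by rw [e1]; exact hj))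
  · rcases Finset.mem_insert.mp e with e | e
    · have hle1 : stb K h ≤ stb K y0 :=
        fun j hj => mem_stb.mpr ⟨stb_le K h hj, by rw [← e]; exact hfh' j hj⟩
      have hle2 : stb K x ≤ stb K y0 := fun j hj => mem_stb.mpr ⟨stb_le K x hj, hfy0 j hj⟩
      have e1 := heq_of_le _ _ hle1
      have e2 := heq_of_le _ _ hle2
      exact hnofix (fun j hj => stb_fix K h j (by rw [e1, ← e2]; exact hj))
    · have hc2 : Nat.card (stb (stb K x) h) = 960 := by
        have := card_stb (stb K x) h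
        rw [hst x, hHorb h hh, hH6] at this
        omega
      have hK2le : stb (stb K x) h ≤ stb K x := stb_le _ h
      have hK2h : stb (stb K x) h ≤ stb K h :=
        fun j hj => mem_stb.mpr ⟨stb_le K x (hK2le hj), stb_fix _ h j hj⟩
      have hpairinv : Inv (stb (stb K x) h) {h, k y0} :=
        inv_insert (stb_fix _ h) (inv_singleton (fun j hj => hfh' j (hK2h hj)))
      have hRinv : Inv (stb (stb K x) h) (H \ {h, k y0}) :=
        inv_sdiff (inv_mono hK2le hHinv) hpairinv
      have hR4 : (H \ {h, k y0}).card = 4 := by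
        rw [Finset.card_sdiff_of_subset (by
          intro z hz
          simp only [Finset.mem_insert, Finset.mem_singleton] at hz
          rcases hz with hz | hz
          · rw [hz]; exact hh
          · rw [hz]; exact e), hH6, Finset.card_pair hh'ne.symm]
      have h2 := card_dvd_fixer_mul (stb (stb K x) h) (H \ {h, k y0}) hRinv
      have h3 := (fix_dvd8 (((fixer_le _ _).trans hK2le).trans hK1) (insert x (insert y0 H)) (by
        intro j hj z hz
        have hj2 : j ∈ stb (stb K x) h := fixer_le _ _ hj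
        rcases Finset.mem_insert.mp hz with hz | hz
        · rw [hz]; exact hx j (hK2le hj2)
        · rcases Finset.mem_insert.mp hz with hz | hz
          · rw [hz]; exact hfy0 j (hK2le hj2)
          · by_cases hz1 : z = h
            · rw [hz1]; exact stb_fix _ h j hj2
            · by_cases hz2 : z = k y0
              · rw [hz2]; exact hfh' j (hK2h hj2)
              · have hzR : z ∈ H \ {h, k y0} := by
                  rw [Finset.mem_sdiff, Finset.mem_insert, Finset.mem_singleton]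
                  exact ⟨hz, fun hm => hm.elim hz1 hz2⟩
                exact hj.2 z hzR) hS8).1
      rw [hc2, hR4, (by decide : Nat.factorial 4 = 24)] at h2
      obtain ⟨q, hq⟩ := h2
      have h4 := Nat.le_of_dvd (by norm_num) h3
      have hpos : 0 < Nat.card (fixer (stb (stb K x) h) (H \ {h, k y0})) := Nat.card_pos
      omega

theorem bad138240 : ∀ m : ℕ, 1 ≤ m → m ≤ 10 → ¬ 138240 ∣ bnd m := by decide

theorem numG : ∀ d : ℕ, d ≤ 11 → d ∣ 11520 → d % 5 = 1 → d = 1 ∨ d = 6 := by decide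

theorem trans138240 (hK : K ≤ M24) (hcard : Nat.card K = 138240) :
    ∀ x, (orb K x).card = 24 := by
  have : Fact (Nat.Prime 5) := ⟨by norm_num⟩
  obtain ⟨g5, hg5K, hg5⟩ := exists_order K 5 (by rw [hcard]; decide)
  intro x
  have hdvd := orb_card_dvd K x
  rw [hcard] at hdvd
  rcases orb_small K x with h | h | h | h | ⟨Y, hY, h1, h10, -⟩
  · rw [h] at hdvd
    exact absurd hdvd (by decide)
  · exfalso
    have hcnt : ((orb K x).filter (fun y => g5 y = y)).card = 2 := by
      have e1 := mod_fix hg5 (orb K x) (inv_orb K x g5 hg5K)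
      have e2 : ((orb K x).filter (fun y => g5 y = y)).card ≤ (fixedPts g5).card :=
        Finset.card_le_card (fun y hy => mem_fixedPts.mpr (Finset.mem_filter.mp hy).2)
      rw [card_fixedPts_5 (hK hg5K) hg5] at e2
      rw [h] at e1
      omega
    obtain ⟨y, y', hyy', hF⟩ := Finset.card_eq_two.mp hcnt
    have hy : y ∈ (orb K x).filter (fun y => g5 y = y) := by rw [hF]; simp
    have hy' : y' ∈ (orb K x).filter (fun y => g5 y = y) := by rw [hF]; simp
    rw [Finset.mem_filter] at hy hy'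
    have hfixY : ∀ z ∈ orb K x, g5 z = z → z = y ∨ z = y' := by
      intro z hz hgz
      have : z ∈ (orb K x).filter (fun y => g5 y = y) := Finset.mem_filter.mpr ⟨hz, hgz⟩
      rw [hF] at this
      simpa using this
    have hKy := card_stb K y
    rw [hcard, orb_eq_of_mem hy.1, h] at hKy
    have hKyc : Nat.card (stb K y) = 11520 := by omega
    have hKyM : stb K y ≤ M24 := (stb_le K y).trans hK
    have hg5Ky : g5 ∈ stb K y := mem_stb.mpr ⟨hg5K, hy.2⟩
    have hYinv : Inv (stb K y) ((orb K x).erase y) :=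
      inv_erase (stb_fix K y) (inv_mono (stb_le K y) (inv_orb K x))
    have hy'mem : y' ∈ (orb K x).erase y := Finset.mem_erase.mpr ⟨hyy'.symm, hy'.1⟩
    have hsub : orb (stb K y) y' ⊆ (orb K x).erase y := orb_subset hYinv hy'mem
    have hle : (orb (stb K y) y').card ≤ 11 := by
      have := Finset.card_le_card hsub
      rwa [Finset.card_erase_of_mem hy.1, h] at this
    have hm : (orb (stb K y) y').card % 5 = 1 :=
      orb_card_mod_one hg5Ky hg5 hy'.2 (fun z hz hgz => by
        have hz' := Finset.mem_erase.mp (hsub hz)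
        rcases hfixY z hz'.2 hgz with e | e
        · exact absurd e hz'.1
        · exact e)
    have hd : (orb (stb K y) y').card ∣ 11520 := hKyc ▸ orb_card_dvd (stb K y) y'
    rcases numG _ hle hd hm with e1 | e6
    · have := fix_dvd2 hKyM {y, y'} (by
        intro k hk z hz
        simp only [Finset.mem_insert, Finset.mem_singleton] at hz
        rcases hz with hz | hz
        · rw [hz]; exact stb_fix K y k hk
        · rw [hz]; exact fix_of_orb_card_one e1 k hk) (by rw [Finset.card_pair hyy'])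
      rw [hKyc] at this
      exact absurd this (by decide)
    · have hRinv : Inv (stb K y) ((orb K x).erase y \ orb (stb K y) y') :=
        inv_sdiff hYinv (inv_orb _ y')
      have hR5 : ((orb K x).erase y \ orb (stb K y) y').card = 5 := by
        rw [Finset.card_sdiff_of_subset hsub, Finset.card_erase_of_mem hy.1, h, e6]
      have := inv_bnd hKyM _ hRinv (by rw [hR5]; norm_num) (by rw [hR5]; norm_num)
      rw [hR5, hKyc] at this
      exact absurd this (by decide)
  · rw [h] at hdvd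
    exact absurd hdvd (by decide)
  · exact h
  · exfalso
    have hb := inv_bnd hK Y hY h1 h10
    rw [hcard] at hb
    exact bad138240 _ h1 h10 hb

/-- A subgroup of order `138240` of `M24` preserves a sextet. -/
theorem idx1771 (hK : K ≤ M24) (hcard : Nat.card K = 138240) :
    ∃ S ∈ sextets, ∀ k ∈ K, ∀ t ∈ S, t.image (fun z => k z) ∈ S := by
  have : Fact (Nat.Prime 5) := ⟨by norm_num⟩
  have htr := trans138240 hK hcard
  have hst : ∀ x, Nat.card (stb K x) = 5760 := by
    intro x
    have := card_stb K x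
    rw [hcard, htr x] at this
    omega
  have hM : ∀ x, stb K x ≤ M24 := fun x => (stb_le K x).trans hK
  have hB : ∀ x, ∃ T4 : Finset GolayPt, T4.card = 4 ∧ x ∈ T4 ∧ Inv (stb K x) T4 ∧
      ∀ z, z ∈ T4 ↔ (orb (stb K x) z).card ≤ 3 := by
    intro x
    rcases struct5760 (hM x) (stb_fix K x) (hst x) with
      ⟨y0, H, hy0x, hfy0, hH6, hxH, hy0H, hHinv, hHorb⟩ | h
    · exact (no_caseA hK hst htr hy0x hfy0 hH6 hxH hy0H hHinv hHorb).elim
    · exact h
  choose T hT4 hxT hTinv hTchar using hB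
  have hequiv : ∀ k ∈ K, ∀ x z, k z ∈ T (k x) ↔ z ∈ T x := by
    intro k hk x z
    rw [hTchar, hTchar]
    have := orb_conj_card K hk x z
    rw [← stb_def, ← stb_def] at this
    rw [this]
  have hNfix : ∀ x, ∀ k ∈ fixer (stb K x) ((T x).erase x), ∀ z ∈ T x, k z = z := by
    intro x k hk z hz
    by_cases hzx : z = x
    · rw [hzx]; exact stb_fix K x k (fixer_le _ _ hk)
    · exact hk.2 z (Finset.mem_erase.mpr ⟨hzx, hz⟩)
  have hNcard : ∀ x, Nat.card (fixer (stb K x) ((T x).erase x)) = 960 := by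
    intro x
    have hinv : Inv (stb K x) ((T x).erase x) := inv_erase (stb_fix K x) (hTinv x)
    have h1 := card_dvd_fixer_mul (stb K x) _ hinv
    have h2 := fix_dvd4 ((fixer_le _ _).trans (hM x)) (T x) (hNfix x) (by rw [hT4 x])
    rw [hst x, Finset.card_erase_of_mem (hxT x), hT4 x,
      (by decide : Nat.factorial (4 - 1) = 6)] at h1
    obtain ⟨q, hq⟩ := h1
    have h4 := Nat.le_of_dvd (by norm_num) h2
    have hpos : 0 < Nat.card (fixer (stb K x) ((T x).erase x)) := Nat.card_pos
    omega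
  have hblock : ∀ x y, y ∈ T x → T y = T x := by
    intro x y hy
    obtain ⟨g5, hg5N, hg5⟩ := exists_order (fixer (stb K x) ((T x).erase x)) 5
      (by rw [hNcard x]; decide)
    have hg5K1 : g5 ∈ stb K x := fixer_le _ _ hg5N
    have hg5M : g5 ∈ M24 := hM x hg5K1
    have hfixT : ∀ z ∈ T x, g5 z = z := hNfix x g5 hg5N
    have hfixsub : ∀ z, g5 z = z → z ∈ T x :=
      fixed_subset g5 (T x) hfixT (by rw [card_fixedPts_5 hg5M hg5, hT4 x])
    have hg5y : g5 ∈ stb K y := mem_stb.mpr ⟨stb_le K x hg5K1, hfixT y hy⟩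
    have h1 := mod_fix hg5 (T y) (hTinv y g5 hg5y)
    have h2 : ((T y).filter (fun z => g5 z = z)).card ≤ (T y).card := Finset.card_filter_le _ _
    rw [hT4 y] at h1 h2
    have h3 : ((T y).filter (fun z => g5 z = z)).card = 4 := by omega
    have h4 : (T y).filter (fun z => g5 z = z) = T y :=
      Finset.eq_of_subset_of_card_le (Finset.filter_subset _ _) (by rw [h3, hT4 y])
    apply Finset.eq_of_subset_of_card_le
    · intro z hz
      rw [← h4] at hz
      exact hfixsub z (Finset.mem_filter.mp hz).2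
    · rw [hT4 x, hT4 y]
  have hoct : ∀ x y, y ∉ T x → T x ∪ T y ∈ octads := by
    intro x y hy
    have hdisj : Disjoint (T x) (T y) := by
      rw [Finset.disjoint_left]
      intro z hzx hzy
      have e1 := hblock x z hzx
      have e2 := hblock y z hzy
      exact hy (by rw [← e1, e2]; exact hxT y)
    have hNM : fixer (stb K x) ((T x).erase x) ≤ M24 := (fixer_le _ _).trans (hM x)
    have hNinv : Inv (fixer (stb K x) ((T x).erase x)) (T x)ᶜ :=
      inv_compl (fun k hk z hz => by rw [hNfix x k hk z hz]; exact hz)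
    have h1 := card_stb (fixer (stb K x) ((T x).erase x)) y
    rw [hNcard x] at h1
    have h2 : (orb (fixer (stb K x) ((T x).erase x)) y).card ≤ 20 := by
      have := Finset.card_le_card (orb_subset hNinv (Finset.mem_compl.mpr hy))
      rwa [Finset.card_compl, card_golayPt, hT4 x] at this
    have hG5fix : ∀ k ∈ stb (fixer (stb K x) ((T x).erase x)) y, ∀ z ∈ insert y (T x),
        k z = z := by
      intro k hk z hz
      rcases Finset.mem_insert.mp hz with hz | hz
      · rw [hz]; exact stb_fix _ y k hk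
      · exact hNfix x k (stb_le _ y hk) z hz
    have h3 := fix_dvd5 ((stb_le _ y).trans hNM) (insert y (T x)) hG5fix
      (by rw [Finset.card_insert_of_notMem hy, hT4 x])
    have hG5c : Nat.card (stb (fixer (stb K x) ((T x).erase x)) y) = 48 := by
      have h4 := Nat.le_of_dvd (by norm_num) h3
      by_contra hne
      have h6 : Nat.card (stb (fixer (stb K x) ((T x).erase x)) y) ≤ 47 := by omega
      have h7 := Nat.mul_le_mul h6 h2
      omega
    have hG5y : stb (fixer (stb K x) ((T x).erase x)) y ≤ stb K y := fun k hk =>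
      mem_stb.mpr ⟨stb_le K x (fixer_le _ _ (stb_le _ y hk)), stb_fix _ y k hk⟩
    have hDinv : Inv (stb (fixer (stb K x) ((T x).erase x)) y) ((T y).erase y) :=
      inv_erase (stb_fix _ y) (inv_mono hG5y (hTinv y))
    have h8 := card_dvd_fixer_mul _ _ hDinv
    rw [hG5c, Finset.card_erase_of_mem (hxT y), hT4 y,
      (by decide : Nat.factorial (4 - 1) = 6)] at h8
    have hF8 : 8 ∣ Nat.card (fixer (stb (fixer (stb K x) ((T x).erase x)) y)
        ((T y).erase y)) := by
      obtain ⟨q, hq⟩ := h8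
      omega
    have hU8 : (T x ∪ T y).card = 8 := by
      rw [Finset.card_union_of_disjoint hdisj, hT4 x, hT4 y]
    have hfd := fix_dvd8 (((fixer_le _ _).trans (stb_le _ y)).trans hNM) (T x ∪ T y) (by
      intro k hk z hz
      have hk2 := fixer_le _ _ hk
      rcases Finset.mem_union.mp hz with hz | hz
      · exact hNfix x k (stb_le _ y hk2) z hz
      · by_cases hzy : z = y
        · rw [hzy]; exact stb_fix _ y k hk2
        · exact hk.2 z (Finset.mem_erase.mpr ⟨hzy, hz⟩)) hU8
    by_contra hno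
    have := hfd.2 hno
    rw [this] at hF8
    revert hF8
    decide
  refine ⟨Finset.univ.image T, ⟨?_, ?_, ?_⟩, ?_⟩
  · have h1 := Finset.card_eq_sum_card_image T Finset.univ
    have h2 : ∀ t ∈ Finset.univ.image T, (Finset.univ.filter (fun a => T a = t)).card = 4 := by
      intro t ht
      obtain ⟨x, -, rfl⟩ := Finset.mem_image.mp ht
      have : Finset.univ.filter (fun a => T a = T x) = T x := by
        ext a
        rw [Finset.mem_filter]
        constructor
        · rintro ⟨-, h⟩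
          rw [← h]
          exact hxT a
        · intro h
          exact ⟨Finset.mem_univ _, hblock x a h⟩
      rw [this, hT4 x]
    rw [Finset.sum_const_nat h2, Finset.card_univ, card_golayPt] at h1
    omega
  · intro t ht
    obtain ⟨x, -, rfl⟩ := Finset.mem_image.mp ht
    exact hT4 x
  · intro t ht u hu htu
    obtain ⟨x, -, rfl⟩ := Finset.mem_image.mp ht
    obtain ⟨y, -, rfl⟩ := Finset.mem_image.mp hu
    exact hoct x y (fun hy => htu (hblock x y hy).symm)
  · intro k hk t ht
    obtain ⟨x, -, rfl⟩ := Finset.mem_image.mp ht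
    have : (T x).image (fun z => k z) = T (k x) := by
      apply Finset.eq_of_subset_of_card_le
      · intro z hz
        obtain ⟨w, hw, rfl⟩ := Finset.mem_image.mp hz
        exact (hequiv k hk x w).mpr hw
      · rw [Finset.card_image_of_injective _ k.injective, hT4, hT4]
    rw [this]
    exact Finset.mem_image_of_mem T (Finset.mem_univ _)

end main

end Cfsg.Agent.Lib.Helper8.Idx1771
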