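import Cfsg.Agent.Lib.Helper8.M24Sub2

/-!
A subgroup of order `40320` of `M24` fixing a point `x` preserves a pair of points other than
`x` or an octad through `x`.
-/

set_option autoImplicit false

namespace Cfsg.Agent.Lib.Helper8.Sub40320

open Cfsg Cfsg.Agent.Lib.Helper35.M24Fix Cfsg.Agent.Lib.Helper35.PermAut
  Cfsg.Agent.Lib.Helper35.M24Aut Cfsg.Agent.Lib.Helper8.M24Sub Cfsg.Agent.Lib.Helper8.M24Sub2
open scoped Pointwise

variable {K : Subgroup (Equiv.Perm GolayPt)} {x : GolayPt}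

/-- An element inducing a transposition on an invariant set of eight points. -/
theorem transp_fix (hK : K ≤ M24) (hx : ∀ k ∈ K, k x = x) (hcard : Nat.card K = 40320)
    (Y : Finset GolayPt) (hY : ∀ k ∈ K, ∀ y ∈ Y, k y ∈ Y) (h8 : Y.card = 8) (hxY : x ∉ Y)
    {y1 y2 : GolayPt} (h1 : y1 ∈ Y) (h2 : y2 ∈ Y) (h12 : y1 ≠ y2) :
    ∃ k ∈ K, fixedPts k ∈ octads ∧ y1 ∉ fixedPts k ∧
      ∀ y ∈ Y, y ≠ y1 → y ≠ y2 → y ∈ fixedPts k := by
  have hfaith : ∀ k ∈ K, (∀ y ∈ Y, k y = y) → k = 1 := by
    intro k hk hky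
    apply eq_one_of_fix_set (hK hk) (insert x Y)
    · intro z hz
      rcases Finset.mem_insert.mp hz with rfl | hz
      · exact hx k hk
      · exact hky z hz
    · rw [Finset.card_insert_of_notMem hxY, h8]
  have hc : Nat.card K = Y.card.factorial := by
    rw [hcard, h8]; decide
  obtain ⟨k, hk, hkσ⟩ := exists_induced K Y hY hfaith hc (Equiv.swap ⟨y1, h1⟩ ⟨y2, h2⟩)
  have hk1 : k y1 = y2 := by
    have := hkσ ⟨y1, h1⟩
    rw [Equiv.swap_apply_left] at this
    exact this
  have hk2 : k y2 = y1 := by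
    have := hkσ ⟨y2, h2⟩
    rw [Equiv.swap_apply_right] at this
    exact this
  have hk3 : ∀ y ∈ Y, y ≠ y1 → y ≠ y2 → k y = y := by
    intro y hy hy1 hy2
    have := hkσ ⟨y, hy⟩
    rw [Equiv.swap_apply_of_ne_of_ne (fun h => hy1 (congrArg Subtype.val h))
      (fun h => hy2 (congrArg Subtype.val h))] at this
    exact this
  have hsq : k * k = 1 := by
    apply hfaith _ (K.mul_mem hk hk)
    intro y hy
    show k (k y) = y
    by_cases hy1 : y = y1
    · rw [hy1, hk1, hk2]
    · by_cases hy2 : y = y2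
      · rw [hy2, hk2, hk1]
      · rw [hk3 y hy hy1 hy2, hk3 y hy hy1 hy2]
  have hne : k ≠ 1 := by
    intro h
    rw [h] at hk1
    exact h12 hk1
  have ho := orderOf_two_of_sq hsq hne
  refine ⟨k, hk, (inv_fix_octad (hK hk) ho (hx k hk)).1, ?_, ?_⟩
  · rw [mem_fixedPts, hk1]
    exact fun h => h12 h.symm
  · intro y hy hy1 hy2
    exact mem_fixedPts.mpr (hk3 y hy hy1 hy2)

/-- No invariant set of eight points. -/
theorem no_inv8 (hK : K ≤ M24) (hx : ∀ k ∈ K, k x = x) (hcard : Nat.card K = 40320)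
    (Y : Finset GolayPt) (hY : ∀ k ∈ K, ∀ y ∈ Y, k y ∈ Y) (h8 : Y.card = 8) (hxY : x ∉ Y) :
    False := by
  obtain ⟨y1, y2, y3, h1, h2, h3, h12, h13, h23⟩ := Finset.two_lt_card_iff.mp (by omega : 2 < Y.card)
  obtain ⟨ka, hka, hoa, hma, hfa⟩ := transp_fix hK hx hcard Y hY h8 hxY h2 h1 (Ne.symm h12)
  obtain ⟨kb, hkb, hob, hmb, hfb⟩ := transp_fix hK hx hcard Y hY h8 hxY h3 h1 (Ne.symm h13)
  have hsub : ((Y.erase y1).erase y2).erase y3 ⊆ fixedPts ka ∩ fixedPts kb := by
    intro y hy
    rw [Finset.mem_erase, Finset.mem_erase, Finset.mem_erase] at hy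
    obtain ⟨hy3, hy2, hy1, hyY⟩ := hy
    exact Finset.mem_inter.mpr ⟨hfa y hyY hy2 hy1, hfb y hyY hy3 hy1⟩
  have hc : (((Y.erase y1).erase y2).erase y3).card = 5 := by
    rw [Finset.card_erase_of_mem, Finset.card_erase_of_mem, Finset.card_erase_of_mem h1, h8]
    · exact Finset.mem_erase.mpr ⟨Ne.symm h12, h2⟩
    · exact Finset.mem_erase.mpr ⟨Ne.symm h23, Finset.mem_erase.mpr ⟨Ne.symm h13, h3⟩⟩
  have heq : fixedPts ka = fixedPts kb :=
    Cfsg.Agent.Lib.Helper7.M24Octad.octad_unique hoa hob (by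
      rw [← hc]; exact Finset.card_le_card hsub)
  apply hmb
  rw [← heq]
  exact hfa y3 h3 (Ne.symm h23) (Ne.symm h13)

/-- The complement of an invariant set of sixteen points is an octad. -/
theorem octad_of_inv16 (hK : K ≤ M24) (hx : ∀ k ∈ K, k x = x) (hcard : Nat.card K = 40320)
    (Y : Finset GolayPt) (hY : ∀ k ∈ K, ∀ y ∈ Y, k y ∈ Y) (h16 : Y.card = 16) (hxY : x ∉ Y) :
    Yᶜ ∈ octads := by
  by_contra hno
  have hT : ∀ k ∈ K, ∀ y ∈ Yᶜ.erase x, k y ∈ Yᶜ.erase x := by
    intro k hk y hy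
    rw [Finset.mem_erase] at hy ⊢
    exact ⟨fun h => hy.1 (k.injective (h.trans (hx k hk).symm)), compl_inv K Y hY k hk y hy.2⟩
  have hfaith : ∀ k ∈ K, (∀ y ∈ Yᶜ.erase x, k y = y) → k = 1 := by
    intro k hk hky
    by_contra h1
    apply hno
    apply octad_of_fix_set (hK hk) h1 Yᶜ
    · intro z hz
      by_cases hzx : z = x
      · rw [hzx]; exact hx k hk
      · exact hky z (Finset.mem_erase.mpr ⟨hzx, hz⟩)
    · rw [Finset.card_compl, card_golayPt, h16]
  have h := card_dvd_factorial K (Yᶜ.erase x) hT hfaith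
  have hc : (Yᶜ.erase x).card = 7 := by
    rw [Finset.card_erase_of_mem (Finset.mem_compl.mpr hxY), Finset.card_compl, card_golayPt, h16]
  rw [hc, hcard] at h
  revert h
  decide

/-- No invariant set of fifteen points when a second point is fixed. -/
theorem no_inv15 (hK : K ≤ M24) (hx : ∀ k ∈ K, k x = x) (hcard : Nat.card K = 40320)
    {v : GolayPt} (hv : ∀ k ∈ K, k v = v) (hxv : x ≠ v)
    (Y : Finset GolayPt) (hY : ∀ k ∈ K, ∀ y ∈ Y, k y ∈ Y) (h15 : Y.card = 15) (hxY : x ∉ Y)
    (hvY : v ∉ Y) : False := by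
  have hZinv : ∀ k ∈ K, ∀ y ∈ insert x (insert v Y), k y ∈ insert x (insert v Y) := by
    intro k hk y hy
    rw [Finset.mem_insert, Finset.mem_insert] at hy ⊢
    rcases hy with rfl | rfl | hy
    · left; exact hx k hk
    · right; left; exact hv k hk
    · right; right; exact hY k hk y hy
  have hZc : (insert x (insert v Y)).card = 17 := by
    rw [Finset.card_insert_of_notMem, Finset.card_insert_of_notMem hvY, h15]
    rw [Finset.mem_insert]
    push Not
    exact ⟨hxv, hxY⟩
  have hfaith : ∀ k ∈ K, (∀ y ∈ (insert x (insert v Y))ᶜ, k y = y) → k = 1 := by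
    intro k hk hky
    apply eq_one_of_fix_set (hK hk) (insert x (insert v (insert x (insert v Y))ᶜ))
    · intro z hz
      rw [Finset.mem_insert, Finset.mem_insert] at hz
      rcases hz with rfl | rfl | hz
      · exact hx k hk
      · exact hv k hk
      · exact hky z hz
    · rw [Finset.card_insert_of_notMem, Finset.card_insert_of_notMem, Finset.card_compl,
        card_golayPt, hZc]
      · simp
      · simp [hxv]
  have h := card_dvd_factorial K _ (compl_inv K _ hZinv) hfaith
  rw [Finset.card_compl, card_golayPt, hZc, hcard] at h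
  revert h
  decide

theorem num2 : ∀ d : ℕ, d ≤ 23 → d ∣ 40320 → d % 7 = 2 → d % 5 ≤ 3 → d = 2 ∨ d = 16 := by
  decide

theorem num1 : ∀ d : ℕ, d ≤ 23 → d ∣ 40320 → d % 7 = 1 → d = 1 ∨ d = 8 ∨ d = 15 := by
  decide

/-- A subgroup of order `40320` of `M24` fixing `x` preserves a pair of points or an octad
through `x`. -/
theorem classify (hK : K ≤ M24) (hx : ∀ k ∈ K, k x = x) (hcard : Nat.card K = 40320) :
    (∃ s : Finset GolayPt, s.card = 2 ∧ x ∉ s ∧ ∀ k ∈ K, ∀ y ∈ s, k y ∈ s) ∨
    (∃ o ∈ octads, x ∈ o ∧ ∀ k ∈ K, ∀ y ∈ o, k y ∈ o) := by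
  have : Fact (Nat.Prime 7) := ⟨by norm_num⟩
  have : Fact (Nat.Prime 5) := ⟨by norm_num⟩
  obtain ⟨g7, hg7K, hg7⟩ := exists_order K 7 (by rw [hcard]; decide)
  obtain ⟨g5, hg5K, hg5⟩ := exists_order K 5 (by rw [hcard]; decide)
  have hf7 := card_fixedPts_7 (hK hg7K) hg7
  have hf5 := card_fixedPts_5 (hK hg5K) hg5
  have hx7 : x ∈ fixedPts g7 := mem_fixedPts.mpr (hx g7 hg7K)
  have hx5 : x ∈ fixedPts g5 := mem_fixedPts.mpr (hx g5 hg5K)
  have he : ((fixedPts g7).erase x).card = 2 := by rw [Finset.card_erase_of_mem hx7, hf7]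
  obtain ⟨u, v, huv, he2⟩ := Finset.card_eq_two.mp he
  have hu7 : u ∈ (fixedPts g7).erase x := by rw [he2]; simp
  have hv7 : v ∈ (fixedPts g7).erase x := by rw [he2]; simp
  have hux : u ≠ x := (Finset.mem_erase.mp hu7).1
  have hvx : v ≠ x := (Finset.mem_erase.mp hv7).1
  have hgu : g7 u = u := mem_fixedPts.mp (Finset.mem_erase.mp hu7).2
  have hgv : g7 v = v := mem_fixedPts.mp (Finset.mem_erase.mp hv7).2
  have hfix7 : ∀ y, y ≠ x → g7 y = y → y = u ∨ y = v := by
    intro y hyx hy
    have : y ∈ (fixedPts g7).erase x := Finset.mem_erase.mpr ⟨hyx, mem_fixedPts.mpr hy⟩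
    rw [he2] at this
    simpa using this
  have hxorb : ∀ w, w ≠ x → x ∉ orb K w := fun w hw => notMem_orb_of_fixed hx (Ne.symm hw)
  have hle23 : ∀ w, w ≠ x → (orb K w).card ≤ 23 := by
    intro w hw
    have h1 : orb K w ⊆ Finset.univ.erase x := fun y hy =>
      Finset.mem_erase.mpr ⟨fun h => hxorb w hw (h ▸ hy), Finset.mem_univ _⟩
    have h2 := Finset.card_le_card h1
    rw [Finset.card_erase_of_mem (Finset.mem_univ _), Finset.card_univ, card_golayPt] at h2
    exact h2
  have hdvd : ∀ w, (orb K w).card ∣ 40320 := fun w => hcard ▸ orb_card_dvd K w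
  -- orbits of `v` when `v` is not in the orbit of a point `u'`
  have hmod1 : ∀ a b, a ≠ x → g7 a = a → (∀ y, y ≠ x → g7 y = y → y = a ∨ y = b) →
      b ∉ orb K a → (orb K a).card % 7 = 1 := by
    intro a b hax hga hfix hb
    have := orb_card_mod_one hg7K hg7 hga (fun y hy hgy => by
      rcases hfix y (fun h => hxorb a hax (h ▸ hy)) hgy with h | h
      · exact h
      · exact absurd (h ▸ hy) hb)
    exact this
  by_cases hvu : v ∈ orb K u
  · -- the orbit of `u` has two fixed points of `g7`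
    have hm7 : (orb K u).card % 7 = 2 := by
      have h1 := inv_card_modEq hg7K hg7 (orb K u) (orb_inv K u)
      have h2 : (orb K u).filter (fun y => g7 y = y) = {u, v} := by
        ext y
        rw [Finset.mem_filter, Finset.mem_insert, Finset.mem_singleton]
        constructor
        · rintro ⟨hy, hgy⟩
          exact hfix7 y (fun h => hxorb u hux (h ▸ hy)) hgy
        · rintro (rfl | rfl)
          · exact ⟨self_mem_orb K _, hgu⟩
          · exact ⟨hvu, hgv⟩
      rw [h2, Finset.card_pair huv] at h1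
      exact h1
    have hm5 : (orb K u).card % 5 ≤ 3 := by
      have h1 := inv_card_modEq hg5K hg5 (orb K u) (orb_inv K u)
      have h2 : (orb K u).filter (fun y => g5 y = y) ⊆ (fixedPts g5).erase x := by
        intro y hy
        rw [Finset.mem_filter] at hy
        exact Finset.mem_erase.mpr ⟨fun h => hxorb u hux (h ▸ hy.1), mem_fixedPts.mpr hy.2⟩
      have h3 := Finset.card_le_card h2
      rw [Finset.card_erase_of_mem hx5, hf5] at h3
      have h4 : (orb K u).card % 5 = ((orb K u).filter (fun y => g5 y = y)).card % 5 := h1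
      omega
    rcases num2 _ (hle23 u hux) (hdvd u) hm7 hm5 with h | h
    · left
      exact ⟨orb K u, h, hxorb u hux, orb_inv K u⟩
    · right
      refine ⟨(orb K u)ᶜ, octad_of_inv16 hK hx hcard _ (orb_inv K u) h (hxorb u hux),
        Finset.mem_compl.mpr (hxorb u hux), compl_inv K _ (orb_inv K u)⟩
  · exfalso
    have hm7 : (orb K u).card % 7 = 1 := hmod1 u v hux hgu hfix7 hvu
    have huv' : u ∉ orb K v := fun h => hvu (orb_symm h)
    have hm7v : (orb K v).card % 7 = 1 :=
      hmod1 v u hvx hgv (fun y hyx hy => (hfix7 y hyx hy).symm) huv'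
    rcases num1 _ (hle23 u hux) (hdvd u) hm7 with h | h | h
    · -- `K` fixes `u`
      have hu := fix_of_orb_card_one h
      rcases num1 _ (hle23 v hvx) (hdvd v) hm7v with h' | h' | h'
      · have hv := fix_of_orb_card_one h'
        have := card_dvd_of_fix3 hK (Ne.symm hux) (Ne.symm hvx) huv hx hu hv
        rw [hcard] at this
        revert this
        decide
      · exact no_inv8 hK hx hcard _ (orb_inv K v) h' (hxorb v hvx)
      · exact no_inv15 hK hx hcard hu (Ne.symm hux) _ (orb_inv K v) h' (hxorb v hvx) huv'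
    · exact no_inv8 hK hx hcard _ (orb_inv K u) h (hxorb u hux)
    · -- the orbit of `v` has at most eight points
      have hdisj := orb_disjoint hvu
      have h1 : orb K v ⊆ (insert x (orb K u))ᶜ := by
        intro y hy
        rw [Finset.mem_compl, Finset.mem_insert]
        push Not
        exact ⟨fun hh => hxorb v hvx (hh ▸ hy), Finset.disjoint_left.mp hdisj hy⟩
      have h2 := Finset.card_le_card h1
      rw [Finset.card_compl, card_golayPt, Finset.card_insert_of_notMem (hxorb u hux), h] at h2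
      have h3 := orb_card_pos K v
      have h4 : (orb K v).card = 1 ∨ (orb K v).card = 8 := by omega
      rcases h4 with h' | h'
      · have hv := fix_of_orb_card_one h'
        exact no_inv15 hK hx hcard hv (Ne.symm hvx) _ (orb_inv K u) h (hxorb u hux) hvu
      · exact no_inv8 hK hx hcard _ (orb_inv K v) h' (hxorb v hvx)

end Cfsg.Agent.Lib.Helper8.Sub40320
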