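import Cfsg.Agent.Lib.Helper8.OrbTools
import Cfsg.Agent.Lib.Helper8.Sub40320

/-!
`M24` has no subgroup of order `967680`.
-/

set_option autoImplicit false

namespace Cfsg.Agent.Lib.Helper8.Idx253

open Cfsg Cfsg.Agent.Lib.Helper35.M24Fix Cfsg.Agent.Lib.Helper35.PermAut
  Cfsg.Agent.Lib.Helper35.M24Aut Cfsg.Agent.Lib.Helper8.M24Sub Cfsg.Agent.Lib.Helper8.M24Sub2
  Cfsg.Agent.Lib.Helper8.M24Sub3 Cfsg.Agent.Lib.Helper8.OrbTools Cfsg.Agent.Lib.Helper8.Sub40320
open scoped Pointwise

section elements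

variable {g : Equiv.Perm GolayPt}

/-- An element of order five preserving a set of eight points fixes exactly three of them. -/
theorem cnt5 (hg : g ∈ M24) (h5 : orderOf g = 5) (Y : Finset GolayPt) (hY : ∀ y ∈ Y, g y ∈ Y)
    (h8 : Y.card = 8) : (Y.filter (fun y => g y = y)).card = 3 := by
  have : Fact (Nat.Prime 5) := ⟨by norm_num⟩
  have h1 := mod_fix h5 Y hY
  have h2 : (Y.filter (fun y => g y = y)).card ≤ (fixedPts g).card :=
    Finset.card_le_card (fun y hy => mem_fixedPts.mpr (Finset.mem_filter.mp hy).2)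
  rw [card_fixedPts_5 hg h5] at h2
  rw [h8] at h1
  omega

theorem cnt5_out (hg : g ∈ M24) (h5 : orderOf g = 5) (Y : Finset GolayPt)
    (hY : ∀ y ∈ Y, g y ∈ Y) (h8 : Y.card = 8) : (fixedPts g \ Y).card = 1 := by
  have h1 := cnt5 hg h5 Y hY h8
  have h2 := Finset.card_sdiff_add_card_inter (fixedPts g) Y
  have h3 : fixedPts g ∩ Y = Y.filter (fun y => g y = y) := by
    ext y
    rw [Finset.mem_inter, Finset.mem_filter, mem_fixedPts]
    tauto
  rw [h3, h1, card_fixedPts_5 hg h5] at h2
  omega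

/-- An element of order seven preserving a set of eight points through a fixed point `x` has
no other fixed point in the set. -/
theorem no7fix (hg : g ∈ M24) (h7 : orderOf g = 7) {x : GolayPt} (hx : g x = x)
    (Y : Finset GolayPt) (hY : ∀ y ∈ Y, g y ∈ Y) (h8 : Y.card = 8) (hxY : x ∈ Y) :
    ∀ y ∈ Y, g y = y → y = x := by
  have : Fact (Nat.Prime 7) := ⟨by norm_num⟩
  have hY' : ∀ y ∈ Y.erase x, g y ∈ Y.erase x := by
    intro y hy
    rw [Finset.mem_erase] at hy ⊢
    exact ⟨fun h => hy.1 (g.injective (h.trans hx.symm)), hY y hy.2⟩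
  have h1 := mod_fix h7 (Y.erase x) hY'
  rw [Finset.card_erase_of_mem hxY, h8] at h1
  have h2 : ((Y.erase x).filter (fun y => g y = y)).card ≤ ((fixedPts g).erase x).card :=
    Finset.card_le_card (fun y hy => by
      rw [Finset.mem_filter] at hy
      exact Finset.mem_erase.mpr ⟨(Finset.mem_erase.mp hy.1).1, mem_fixedPts.mpr hy.2⟩)
  rw [Finset.card_erase_of_mem (mem_fixedPts.mpr hx), card_fixedPts_7 hg h7] at h2
  have h3 : ((Y.erase x).filter (fun y => g y = y)).card = 0 := by omega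
  intro y hy hgy
  by_contra hne
  have : y ∈ (Y.erase x).filter (fun y => g y = y) :=
    Finset.mem_filter.mpr ⟨Finset.mem_erase.mpr ⟨hne, hy⟩, hgy⟩
  rw [Finset.card_eq_zero.mp h3] at this
  exact absurd this (Finset.notMem_empty y)

end elements

/-- A subgroup of order `20160` fixing three points is transitive on the other points. -/
theorem three_pt {K3 : Subgroup (Equiv.Perm GolayPt)} (hK : K3 ≤ M24) {x v w : GolayPt}
    (hxv : x ≠ v) (hxw : x ≠ w) (hvw : v ≠ w) (hx : ∀ k ∈ K3, k x = x)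
    (hv : ∀ k ∈ K3, k v = v) (hw : ∀ k ∈ K3, k w = w) (hc : Nat.card K3 = 20160)
    (z : GolayPt) (hzx : z ≠ x) (hzv : z ≠ v) (hzw : z ≠ w) : (orb K3 z).card = 21 := by
  have : Fact (Nat.Prime 5) := ⟨by norm_num⟩
  have : Fact (Nat.Prime 7) := ⟨by norm_num⟩
  obtain ⟨g7, hg7K, hg7⟩ := exists_order K3 7 (by rw [hc]; decide)
  obtain ⟨g5, hg5K, hg5⟩ := exists_order K3 5 (by rw [hc]; decide)
  have hS3 : ({x, v, w} : Finset GolayPt).card = 3 := by
    rw [Finset.card_insert_of_notMem, Finset.card_pair hvw]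
    simp [hxv, hxw]
  have hSfix : ∀ k ∈ K3, ∀ y ∈ ({x, v, w} : Finset GolayPt), k y = y := by
    intro k hk y hy
    simp only [Finset.mem_insert, Finset.mem_singleton] at hy
    rcases hy with hy | hy | hy
    · rw [hy]; exact hx k hk
    · rw [hy]; exact hv k hk
    · rw [hy]; exact hw k hk
  have h7fix : ∀ y, g7 y = y → y ∈ ({x, v, w} : Finset GolayPt) :=
    fixed_subset g7 {x, v, w} (hSfix g7 hg7K) (by rw [card_fixedPts_7 (hK hg7K) hg7, hS3])
  obtain ⟨z0, hzS, hg5z⟩ := fixed_exists g5 {x, v, w}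
    (by rw [card_fixedPts_5 (hK hg5K) hg5, hS3]; norm_num)
  have h5fix : ∀ y, g5 y = y → y ∈ insert z0 ({x, v, w} : Finset GolayPt) :=
    fixed_subset g5 (insert z0 {x, v, w}) (by
      intro y hy
      rcases Finset.mem_insert.mp hy with hy | hy
      · rw [hy]; exact hg5z
      · exact hSfix g5 hg5K y hy)
      (by rw [card_fixedPts_5 (hK hg5K) hg5, Finset.card_insert_of_notMem hzS, hS3])
  have hSorb : ∀ y ∈ ({x, v, w} : Finset GolayPt), y ∉ orb K3 z0 := by
    intro y hy
    exact notMem_orb_of_fixed (fun k hk => hSfix k hk y hy) (fun h => hzS (h ▸ hy))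
  have hm5 := orb_card_mod_one hg5K hg5 hg5z (fun y hy hgy => by
    rcases Finset.mem_insert.mp (h5fix y hgy) with h | h
    · exact h
    · exact absurd hy (hSorb y h))
  have hm7 := orb_card_mod_zero hg7K hg7 (x := z0) (fun y hy hgy => hSorb y (h7fix y hgy) hy)
  have hsub : orb K3 z0 ⊆ ({x, v, w} : Finset GolayPt)ᶜ := fun y hy =>
    Finset.mem_compl.mpr (fun h => hSorb y h hy)
  have hle := Finset.card_le_card hsub
  rw [Finset.card_compl, card_golayPt, hS3] at hle
  have hpos := orb_card_pos K3 z0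
  have h21 : (orb K3 z0).card = 21 := by omega
  have horb : orb K3 z0 = ({x, v, w} : Finset GolayPt)ᶜ :=
    Finset.eq_of_subset_of_card_le hsub (by rw [Finset.card_compl, card_golayPt, hS3, h21])
  have hz : z ∈ orb K3 z0 := by
    rw [horb, Finset.mem_compl]
    simp [hzx, hzv, hzw]
  rw [orb_eq_of_mem hz, h21]

section main

variable {K : Subgroup (Equiv.Perm GolayPt)}

theorem pair_case (hK : K ≤ M24) (hst : ∀ x, Nat.card (stb K x) = 40320) (x : GolayPt)
    (s : Finset GolayPt) (hs : s.card = 2) (hxs : x ∉ s) (hinv : Inv (stb K x) s) : False := by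
  obtain ⟨v, w, hvw, rfl⟩ := Finset.card_eq_two.mp hs
  have hxv : x ≠ v := fun h => hxs (by rw [h]; simp)
  have hxw : x ≠ w := fun h => hxs (by rw [h]; simp)
  have hK1 : stb K x ≤ M24 := (stb_le K x).trans hK
  have hK3le : stb (stb K x) v ≤ stb K x := stb_le _ v
  have hK3 : stb (stb K x) v ≤ M24 := hK3le.trans hK1
  have h3x : ∀ k ∈ stb (stb K x) v, k x = x := fun k hk => stb_fix K x k (hK3le hk)
  have h3v := stb_fix (stb K x) v
  have h3w : ∀ k ∈ stb (stb K x) v, k w = w := by
    intro k hk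
    have h1 := hinv k (hK3le hk) w (by simp)
    simp only [Finset.mem_insert, Finset.mem_singleton] at h1
    rcases h1 with h1 | h1
    · exact absurd (k.injective ((h3v k hk).trans h1.symm)) hvw
    · exact h1
  have hc3 : Nat.card (stb (stb K x) v) = 20160 := by
    have h1 := card_stb (stb K x) v
    rw [hst x] at h1
    have h2 : (orb (stb K x) v).card ≤ 2 := by
      have := Finset.card_le_card (orb_subset hinv (by simp : v ∈ ({v, w} : Finset GolayPt)))
      rwa [Finset.card_pair hvw] at this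
    have h3 := card_dvd_of_fix3 hK3 hxv hxw hvw h3x h3v h3w
    have h4 := orb_card_pos (stb K x) v
    have h5 : (orb (stb K x) v).card = 1 ∨ (orb (stb K x) v).card = 2 := by omega
    rcases h5 with h5 | h5
    · rw [h5] at h1
      have h6 : Nat.card (stb (stb K x) v) = 40320 := by omega
      rw [h6] at h3
      exact absurd h3 (by decide)
    · rw [h5] at h1
      omega
  have : Fact (Nat.Prime 5) := ⟨by norm_num⟩
  obtain ⟨g5, hg5K, hg5⟩ := exists_order (stb (stb K x) v) 5 (by rw [hc3]; decide)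
  have hS3 : ({x, v, w} : Finset GolayPt).card = 3 := by
    rw [Finset.card_insert_of_notMem hxs, Finset.card_pair hvw]
  obtain ⟨z, hzS, hg5z⟩ := fixed_exists g5 {x, v, w}
    (by rw [card_fixedPts_5 (hK3 hg5K) hg5, hS3]; norm_num)
  have hzx : z ≠ x := fun h => hzS (by rw [h]; simp)
  have hzv : z ≠ v := fun h => hzS (by rw [h]; simp)
  have hzw : z ≠ w := fun h => hzS (by rw [h]; simp)
  have h21 := three_pt hK3 hxv hxw hvw h3x h3v h3w hc3 z hzx hzv hzw
  have hbig : ∀ d, (∀ k ∈ stb (stb K x) v, k d = d) → 21 ≤ (orb (stb K z) d).card := by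
    intro d hd
    have hle : stb (stb K x) v ≤ stb K d :=
      fun k hk => mem_stb.mpr ⟨stb_le K x (hK3le hk), hd k hk⟩
    have h1 := Finset.card_le_card (orb_mono hle z)
    rw [h21] at h1
    have h2 := card_stb (stb K d) z
    rw [hst d] at h2
    have h3 := card_stb (stb K z) d
    rw [hst z, stb_comm K z d] at h3
    have hpos : 0 < Nat.card (stb (stb K d) z) := Nat.card_pos
    have : (orb (stb K z) d).card = (orb (stb K d) z).card :=
      Nat.eq_of_mul_eq_mul_left hpos (h3.symm.trans h2)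
    omega
  rcases classify ((stb_le K z).trans hK) (stb_fix K z) (hst z) with
    ⟨D, hD2, hzD, hDinv⟩ | ⟨o, ho, hzo, hoinv⟩
  · have hnotD : ∀ d, (∀ k ∈ stb (stb K x) v, k d = d) → d ∉ D := by
      intro d hd hdD
      have h1 := Finset.card_le_card (orb_subset hDinv hdD)
      have h2 := hbig d hd
      omega
    have hxD := hnotD x h3x
    have hvD := hnotD v h3v
    have hwD := hnotD w h3w
    obtain ⟨p, hp⟩ : D.Nonempty := by
      rw [← Finset.card_pos, hD2]
      norm_num
    have hc4 : Nat.card (stb (stb (stb K x) v) z) = 960 := by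
      have := card_stb (stb (stb K x) v) z
      rw [hc3, h21] at this
      omega
    have hK4le : stb (stb (stb K x) v) z ≤ stb K z := fun k hk =>
      mem_stb.mpr ⟨stb_le K x (hK3le (stb_le _ z hk)), stb_fix _ z k hk⟩
    have hDinv4 : Inv (stb (stb (stb K x) v) z) D := inv_mono hK4le hDinv
    have h5 := card_stb (stb (stb (stb K x) v) z) p
    rw [hc4] at h5
    have h6 : (orb (stb (stb (stb K x) v) z) p).card ≤ 2 := by
      have := Finset.card_le_card (orb_subset hDinv4 hp)
      rwa [hD2] at this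
    have hxp : x ≠ p := fun h => hxD (h ▸ hp)
    have hvp : v ≠ p := fun h => hvD (h ▸ hp)
    have hwp : w ≠ p := fun h => hwD (h ▸ hp)
    have hzp : z ≠ p := fun h => hzD (h ▸ hp)
    have hle5 : stb (stb (stb (stb K x) v) z) p ≤ stb (stb K x) v :=
      (stb_le _ p).trans (stb_le _ z)
    have h7 := card_dvd_of_fix5 (K := stb (stb (stb (stb K x) v) z) p) (hle5.trans hK3)
      (x := x) (u := v) (v := w) (w := z) (z := p)
      (by simp [hxv, hxw, hzx.symm, hxp, hvw, hzv.symm, hvp, hzw.symm, hwp, hzp])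
      (fun k hk => h3x k (hle5 hk)) (fun k hk => h3v k (hle5 hk)) (fun k hk => h3w k (hle5 hk))
      (fun k hk => stb_fix _ z k (stb_le _ p hk)) (stb_fix _ p)
    have h8 := Nat.le_of_dvd (by norm_num) h7
    have h9 := Nat.mul_le_mul h8 h6
    omega
  · have h8 : o.card = 8 := ho.2
    have hb := hbig x h3x
    by_cases hxo : x ∈ o
    · have := Finset.card_le_card (orb_subset hoinv hxo)
      omega
    · have := Finset.card_le_card (orb_subset (inv_compl hoinv) (Finset.mem_compl.mpr hxo))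
      rw [Finset.card_compl, card_golayPt, h8] at this
      omega

theorem numF : ∀ d : ℕ, d ≤ 16 → d ∣ 40320 → (d % 7 = 1 ∨ d % 7 = 2) → d % 5 ≤ 1 →
    d = 1 ∨ d = 15 ∨ d = 16 := by decide

/-- A subgroup of order `40320` fixing `x` and preserving an octad through `x` has, for each
point off the octad, an element of order seven fixing it. -/
theorem oct_trans {K1 : Subgroup (Equiv.Perm GolayPt)} (hK : K1 ≤ M24) {x : GolayPt}
    (hx : ∀ k ∈ K1, k x = x) (hc : Nat.card K1 = 40320) (o : Finset GolayPt) (ho : o ∈ octads)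
    (hxo : x ∈ o) (hinv : Inv K1 o) : ∀ y, y ∉ o → ∃ g ∈ K1, orderOf g = 7 ∧ g y = y := by
  have : Fact (Nat.Prime 7) := ⟨by norm_num⟩
  have : Fact (Nat.Prime 5) := ⟨by norm_num⟩
  have h8 : o.card = 8 := ho.2
  obtain ⟨g7, hg7K, hg7⟩ := exists_order K1 7 (by rw [hc]; decide)
  obtain ⟨g5, hg5K, hg5⟩ := exists_order K1 5 (by rw [hc]; decide)
  obtain ⟨v, w, hxv, hxw, hvw, hgv, hgw, hfix⟩ := fix7 (hK hg7K) hg7 (hx g7 hg7K)
  have hno := no7fix (hK hg7K) hg7 (hx g7 hg7K) o (hinv g7 hg7K) h8 hxo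
  have hvo : v ∉ o := fun h => hxv (hno v h hgv).symm
  have hwo : w ∉ o := fun h => hxw (hno w h hgw).symm
  have hsub : orb K1 v ⊆ oᶜ := orb_subset (inv_compl hinv) (Finset.mem_compl.mpr hvo)
  have hle : (orb K1 v).card ≤ 16 := by
    have := Finset.card_le_card hsub
    rwa [Finset.card_compl, card_golayPt, h8] at this
  have hdvd : (orb K1 v).card ∣ 40320 := hc ▸ orb_card_dvd K1 v
  obtain ⟨r, hr1, hr2, hm7⟩ := mod_fix_between hg7 (orb K1 v) (inv_orb K1 v g7 hg7K) {v, w} {v}
    (by
      intro y hy hgy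
      rcases hfix y hgy with h | h | h
      · exfalso
        rw [h] at hy
        exact (Finset.mem_compl.mp (hsub hy)) hxo
      · rw [h]; simp
      · rw [h]; simp)
    (by
      intro y hy
      rw [Finset.mem_singleton] at hy
      rw [hy]
      exact ⟨self_mem_orb K1 v, hgv⟩)
  rw [Finset.card_singleton] at hr1
  rw [Finset.card_pair hvw] at hr2
  obtain ⟨r5, hr5, hm5⟩ := mod_fix_le hg5 (orb K1 v) (inv_orb K1 v g5 hg5K) (fixedPts g5 \ o)
    (by
      intro y hy hgy
      exact Finset.mem_sdiff.mpr ⟨mem_fixedPts.mpr hgy, Finset.mem_compl.mp (hsub hy)⟩)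
  rw [cnt5_out (hK hg5K) hg5 o (hinv g5 hg5K) h8] at hr5
  have hcases : (orb K1 v).card = 1 ∨ (orb K1 v).card = 15 ∨ (orb K1 v).card = 16 :=
    numF _ hle hdvd (by omega) (by omega)
  rcases hcases with h | h | h
  · exfalso
    have hfv := fix_of_orb_card_one h
    exact no_inv15 hK hx hc hfv hxv (oᶜ.erase v) (inv_erase hfv (inv_compl hinv))
      (by rw [Finset.card_erase_of_mem (Finset.mem_compl.mpr hvo), Finset.card_compl,
        card_golayPt, h8])
      (by simp [hxo]) (Finset.notMem_erase v _)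
  · exfalso
    have hR : (oᶜ \ orb K1 v).card = 1 := by
      rw [Finset.card_sdiff_of_subset hsub, Finset.card_compl, card_golayPt, h8, h]
    obtain ⟨v', hv'⟩ := Finset.card_eq_one.mp hR
    have hRinv : Inv K1 (oᶜ \ orb K1 v) := inv_sdiff (inv_compl hinv) (inv_orb K1 v)
    have hfv' : ∀ k ∈ K1, k v' = v' := by
      intro k hk
      have := hRinv k hk v' (by rw [hv']; exact Finset.mem_singleton_self v')
      rw [hv'] at this
      exact Finset.mem_singleton.mp this
    have hv'mem : v' ∈ oᶜ \ orb K1 v := by rw [hv']; exact Finset.mem_singleton_self v'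
    rw [Finset.mem_sdiff, Finset.mem_compl] at hv'mem
    exact no_inv15 hK hx hc hfv' (fun e => hv'mem.1 (e ▸ hxo)) (orb K1 v) (inv_orb K1 v) h
      (fun hxin => Finset.mem_compl.mp (hsub hxin) hxo) hv'mem.2
  · intro y hy
    have horb : orb K1 v = oᶜ :=
      Finset.eq_of_subset_of_card_le hsub (by rw [Finset.card_compl, card_golayPt, h8, h])
    have hyv : y ∈ orb K1 v := by
      rw [horb]
      exact Finset.mem_compl.mpr hy
    obtain ⟨k, hk, hkv⟩ := mem_orb.mp hyv
    refine ⟨k * g7 * k⁻¹, K1.mul_mem (K1.mul_mem hk hg7K) (K1.inv_mem hk), ?_, ?_⟩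
    · rw [← hg7]
      exact orderOf_injective (MulAut.conj k).toMonoidHom (MulAut.conj k).injective g7
    · rw [← hkv]
      exact conj_fix k g7 v hgv

theorem octad_case (hK : K ≤ M24) (hst : ∀ x, Nat.card (stb K x) = 40320)
    (o : GolayPt → Finset GolayPt) (ho : ∀ x, o x ∈ octads) (hxo : ∀ x, x ∈ o x)
    (hinv : ∀ x, Inv (stb K x) (o x)) : False := by
  have : Fact (Nat.Prime 7) := ⟨by norm_num⟩
  have : Fact (Nat.Prime 5) := ⟨by norm_num⟩
  have hM : ∀ x, stb K x ≤ M24 := fun x => (stb_le K x).trans hK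
  have hdisj : ∀ x y, y ∉ o x → Disjoint (o x) (o y) := by
    intro x y hy
    obtain ⟨g, hgK, hg7, hgy⟩ :=
      oct_trans (hM x) (stb_fix K x) (hst x) (o x) (ho x) (hxo x) (hinv x) y hy
    have hgx : g x = x := stb_fix K x g hgK
    have hgKy : g ∈ stb K y := mem_stb.mpr ⟨stb_le K x hgK, hgy⟩
    have hgM : g ∈ M24 := hM x hgK
    have hnox := no7fix hgM hg7 hgx (o x) (hinv x g hgK) (ho x).2 (hxo x)
    have hnoy := no7fix hgM hg7 hgy (o y) (hinv y g hgKy) (ho y).2 (hxo y)
    have hxy : x ≠ y := fun h => hy (h ▸ hxo x)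
    have hx' : x ∉ o y := fun h => hxy (hnoy x h hgx)
    have hI : ∀ z ∈ o x ∩ o y, g z ∈ o x ∩ o y := by
      intro z hz
      rw [Finset.mem_inter] at hz ⊢
      exact ⟨hinv x g hgK z hz.1, hinv y g hgKy z hz.2⟩
    have h1 := mod_fix hg7 (o x ∩ o y) hI
    have h2 : (o x ∩ o y).filter (fun z => g z = z) = ∅ := by
      apply Finset.filter_eq_empty_iff.mpr
      intro z hz hgz
      rw [Finset.mem_inter] at hz
      have e := hnox z hz.1 hgz
      rw [e] at hz
      exact hx' hz.2
    rw [h2, Finset.card_empty] at h1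
    have h3 : (o x ∩ o y).card ≤ 7 := by
      have hsub : o x ∩ o y ⊆ (o x).erase x := fun z hz => by
        rw [Finset.mem_inter] at hz
        exact Finset.mem_erase.mpr ⟨fun h => hx' (h ▸ hz.2), hz.1⟩
      have := Finset.card_le_card hsub
      rwa [Finset.card_erase_of_mem (hxo x), (ho x).2] at this
    have h4 : (o x ∩ o y).card = 0 ∨ (o x ∩ o y).card = 7 := by omega
    rcases h4 with h4 | h4
    · rw [Finset.disjoint_iff_inter_eq_empty]
      exact Finset.card_eq_zero.mp h4
    · exfalso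
      have := Cfsg.Agent.Lib.Helper7.M24Octad.octad_unique (ho x) (ho y) (by omega)
      exact hy (this ▸ hxo y)
  obtain ⟨g5, hg5K, hg5⟩ := exists_order (stb K none) 5 (by rw [hst]; decide)
  have hg5M := hM none hg5K
  have hout := cnt5_out hg5M hg5 (o none) (hinv none g5 hg5K) (ho none).2
  obtain ⟨f, hf⟩ := Finset.card_eq_one.mp hout
  have hfmem : f ∈ fixedPts g5 \ o none := by rw [hf]; exact Finset.mem_singleton_self f
  rw [Finset.mem_sdiff, mem_fixedPts] at hfmem
  have hg5Kf : g5 ∈ stb K f := mem_stb.mpr ⟨stb_le K none hg5K, hfmem.1⟩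
  have h3 := cnt5 hg5M hg5 (o f) (hinv f g5 hg5Kf) (ho f).2
  have hd := hdisj none f hfmem.2
  have hsub : (o f).filter (fun y => g5 y = y) ⊆ fixedPts g5 \ o none := by
    intro y hy
    rw [Finset.mem_filter] at hy
    exact Finset.mem_sdiff.mpr
      ⟨mem_fixedPts.mpr hy.2, fun h => Finset.disjoint_left.mp hd h hy.1⟩
  have := Finset.card_le_card hsub
  rw [h3, hout] at this
  omega

theorem bad967680 : ∀ m : ℕ, 1 ≤ m → m ≤ 10 → ¬ 967680 ∣ bnd m := by decide

/-- `M24` has no subgroup of order `967680`. -/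
theorem idx253 (hK : K ≤ M24) (hcard : Nat.card K = 967680) : False := by
  have : Fact (Nat.Prime 7) := ⟨by norm_num⟩
  obtain ⟨g7, hg7K, hg7⟩ := exists_order K 7 (by rw [hcard]; decide)
  have htr : ∀ x, (orb K x).card = 24 := by
    intro x
    have hdvd := orb_card_dvd K x
    rw [hcard] at hdvd
    rcases orb_small K x with h | h | h | h | ⟨Y, hY, h1, h10, -⟩
    · rw [h] at hdvd
      exact absurd hdvd (by decide)
    · exfalso
      obtain ⟨r, hr, hm⟩ := mod_fix_le hg7 (orb K x) (inv_orb K x g7 hg7K) (fixedPts g7)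
        (fun y _ hy => mem_fixedPts.mpr hy)
      rw [card_fixedPts_7 (hK hg7K) hg7] at hr
      omega
    · rw [h] at hdvd
      exact absurd hdvd (by decide)
    · exact h
    · exfalso
      have hb := inv_bnd hK Y hY h1 h10
      rw [hcard] at hb
      exact bad967680 _ h1 h10 hb
  have hst : ∀ x, Nat.card (stb K x) = 40320 := by
    intro x
    have := card_stb K x
    rw [hcard, htr x] at this
    omega
  have hcl : ∀ x, ∃ o ∈ octads, x ∈ o ∧ Inv (stb K x) o := by
    intro x
    rcases classify ((stb_le K x).trans hK) (stb_fix K x) (hst x) with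
      ⟨s, hs2, hxs, hsinv⟩ | h
    · exact (pair_case hK hst x s hs2 hxs hsinv).elim
    · exact h
  choose o ho hxo hinv using hcl
  exact octad_case hK hst o ho hxo hinv

end main

end Cfsg.Agent.Lib.Helper8.Idx253
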