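import Cfsg.Agent.Lib.Helper8.OrbTools

/-!
A subgroup of order `322560` of `M24` preserves an octad.
-/

set_option autoImplicit false

namespace Cfsg.Agent.Lib.Helper8.Idx759

open Cfsg Cfsg.Agent.Lib.Helper35.M24Fix Cfsg.Agent.Lib.Helper35.PermAut
  Cfsg.Agent.Lib.Helper35.M24Aut Cfsg.Agent.Lib.Helper8.M24Sub Cfsg.Agent.Lib.Helper8.M24Sub2
  Cfsg.Agent.Lib.Helper8.M24Sub3 Cfsg.Agent.Lib.Helper8.OrbTools
open scoped Pointwise

theorem num7 (f i : ℕ) (hf : f ≤ 16) (hi : 13440 = f * i)
    (h : 5040 ∣ 2 * i ∨ ∃ j m : ℕ, (j = i ∨ 2 * j = i) ∧ 2 * (j * m) = 5040 ∧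
      5040 ∣ 2 * m.factorial) : False := by
  rcases h with ⟨t, ht⟩ | ⟨j, m, hj, hjm, hm⟩
  · have hit : i = 2520 * t := by omega
    have : 2520 ∣ 13440 := ⟨f * t, by rw [hi, hit]; ring⟩
    revert this
    decide
  · have hm7 : 7 ≤ m := by
      by_contra hlt
      push Not at hlt
      interval_cases m <;> revert hm <;> decide
    have h1 : j * 7 ≤ j * m := Nat.mul_le_mul_left j hm7
    have hi720 : i ≤ 720 := by omega
    have h2 : f * i ≤ 16 * 720 := Nat.mul_le_mul hf hi720
    omega

theorem num8 (i : ℕ) (hi : 13440 = i)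
    (h : 40320 ∣ 2 * i ∨ ∃ j m : ℕ, (j = i ∨ 2 * j = i) ∧ 2 * (j * m) = 40320 ∧
      40320 ∣ 2 * m.factorial) : False := by
  subst hi
  rcases h with h | ⟨j, m, hj, hjm, hm⟩
  · revert h
    decide
  · have hm8 : 8 ≤ m := by
      by_contra hlt
      push Not at hlt
      interval_cases m <;> revert hm <;> decide
    have h1 : j * 8 ≤ j * m := Nat.mul_le_mul_left j hm8
    omega

section K1

variable {K1 : Subgroup (Equiv.Perm GolayPt)} {u : GolayPt}

theorem no8 (hK : K1 ≤ M24) (hu : ∀ k ∈ K1, k u = u) (hc : Nat.card K1 = 13440)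
    (Y : Finset GolayPt) (hY : Inv K1 Y) (huY : u ∉ Y) (h8 : Y.card = 8) : False := by
  obtain ⟨i, hi, hd⟩ := img_dichotomy K1 Y hY (by omega)
  have hf : Nat.card (fixer K1 Y) = 1 := fix_eq9 ((fixer_le K1 Y).trans hK) (insert u Y) (by
    intro k hk z hz
    rcases Finset.mem_insert.mp hz with hz | hz
    · rw [hz]; exact hu k (fixer_le K1 Y hk)
    · exact hk.2 z hz) (by rw [Finset.card_insert_of_notMem huY, h8])
  rw [hc, hf, one_mul] at hi
  rw [h8, (by decide : Nat.factorial 8 = 40320)] at hd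
  exact num8 i hi hd

theorem no7 (hK : K1 ≤ M24) (hu : ∀ k ∈ K1, k u = u) (hc : Nat.card K1 = 13440)
    (Y : Finset GolayPt) (hY : Inv K1 Y) (huY : u ∉ Y) (h7 : Y.card = 7) : False := by
  obtain ⟨i, hi, hd⟩ := img_dichotomy K1 Y hY (by omega)
  have hf : Nat.card (fixer K1 Y) ∣ 16 := (fix_dvd8 ((fixer_le K1 Y).trans hK) (insert u Y) (by
    intro k hk z hz
    rcases Finset.mem_insert.mp hz with hz | hz
    · rw [hz]; exact hu k (fixer_le K1 Y hk)
    · exact hk.2 z hz) (by rw [Finset.card_insert_of_notMem huY, h7])).1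
  rw [hc] at hi
  rw [h7, (by decide : Nat.factorial 7 = 5040)] at hd
  exact num7 _ i (Nat.le_of_dvd (by norm_num) hf) hi hd

theorem numD : ∀ d : ℕ, d ≤ 23 → d ∣ 13440 → d % 7 = 2 → d = 2 ∨ d = 16 := by decide

theorem numE : ∀ d : ℕ, d ≤ 23 → d ∣ 13440 → d % 7 = 1 → d = 1 ∨ d = 8 ∨ d = 15 := by decide

/-- A subgroup of order `13440` of `M24` fixing a point does not exist. -/
theorem no_13440 (hK : K1 ≤ M24) (hu : ∀ k ∈ K1, k u = u) (hc : Nat.card K1 = 13440) :
    False := by
  have : Fact (Nat.Prime 7) := ⟨by norm_num⟩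
  obtain ⟨g, hgK, hg7⟩ := exists_order K1 7 (by rw [hc]; decide)
  obtain ⟨v, w, huv, huw, hvw, hgv, hgw, hfix⟩ := fix7 (hK hgK) hg7 (hu g hgK)
  have hnot : ∀ z, z ≠ u → u ∉ orb K1 z := fun z hz => notMem_orb_of_fixed hu (Ne.symm hz)
  have hdvd : ∀ z, (orb K1 z).card ∣ 13440 := fun z => hc ▸ orb_card_dvd K1 z
  have hle23 : ∀ z, z ≠ u → (orb K1 z).card ≤ 23 := by
    intro z hz
    have h1 : orb K1 z ⊆ Finset.univ.erase u := fun y hy =>
      Finset.mem_erase.mpr ⟨fun h => hnot z hz (h ▸ hy), Finset.mem_univ _⟩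
    have h2 := Finset.card_le_card h1
    rw [Finset.card_erase_of_mem (Finset.mem_univ _), Finset.card_univ, card_golayPt] at h2
    exact h2
  have hsz : ∀ z, z ≠ u → (orb K1 z).card ≠ 8 ∧ (orb K1 z).card ≠ 15 ∧
      (orb K1 z).card ≠ 16 := by
    intro z hz
    refine ⟨fun h => no8 hK hu hc _ (inv_orb K1 z) (hnot z hz) h, fun h => ?_, fun h => ?_⟩
    · exact no8 hK hu hc (insert u (orb K1 z))ᶜ (inv_compl (inv_insert hu (inv_orb K1 z)))
        (by simp) (by
          rw [Finset.card_compl, card_golayPt, Finset.card_insert_of_notMem (hnot z hz), h])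
    · exact no7 hK hu hc (insert u (orb K1 z))ᶜ (inv_compl (inv_insert hu (inv_orb K1 z)))
        (by simp) (by
          rw [Finset.card_compl, card_golayPt, Finset.card_insert_of_notMem (hnot z hz), h])
  by_cases hw : w ∈ orb K1 v
  · have hm : (orb K1 v).card % 7 = 2 := by
      have := mod_fix_eq hg7 (orb K1 v) (inv_orb K1 v g hgK) {v, w} (by
        intro y
        simp only [Finset.mem_insert, Finset.mem_singleton]
        constructor
        · rintro (hy | hy)
          · rw [hy]; exact ⟨self_mem_orb K1 v, hgv⟩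
          · rw [hy]; exact ⟨hw, hgw⟩
        · rintro ⟨hy, hgy⟩
          rcases hfix y hgy with h | h | h
          · exact absurd (h ▸ hy) (hnot v (Ne.symm huv))
          · exact Or.inl h
          · exact Or.inr h)
      rw [Finset.card_pair hvw] at this
      exact this
    rcases numD _ (hle23 v (Ne.symm huv)) (hdvd v) hm with h | h
    · have hKv := card_stb K1 v
      rw [hc, h] at hKv
      have hKvc : Nat.card (stb K1 v) = 6720 := by omega
      have horb : orb K1 v = {v, w} := by
        symm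
        apply Finset.eq_of_subset_of_card_le
        · intro y hy
          simp only [Finset.mem_insert, Finset.mem_singleton] at hy
          rcases hy with hy | hy
          · rw [hy]; exact self_mem_orb K1 v
          · rw [hy]; exact hw
        · rw [h, Finset.card_pair hvw]
      have hfw : ∀ k ∈ stb K1 v, k w = w := by
        intro k hk
        have h1 : k w ∈ orb K1 v := inv_orb K1 v k (stb_le K1 v hk) w hw
        rw [horb] at h1
        simp only [Finset.mem_insert, Finset.mem_singleton] at h1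
        rcases h1 with h1 | h1
        · exact absurd (k.injective ((stb_fix K1 v k hk).trans h1.symm)) hvw
        · exact h1
      exact chain3 (K3 := stb K1 v) ((stb_le K1 v).trans hK) huv huw hvw
        (fun k hk => hu k (stb_le K1 v hk)) (stb_fix K1 v) hfw (by rw [hKvc]; decide)
        (by rw [hKvc]; decide)
    · exact (hsz v (Ne.symm huv)).2.2 h
  · have hm : (orb K1 v).card % 7 = 1 := orb_card_mod_one hgK hg7 hgv (fun y hy hgy => by
      rcases hfix y hgy with h | h | h
      · exact absurd (h ▸ hy) (hnot v (Ne.symm huv))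
      · exact h
      · exact absurd (h ▸ hy) hw)
    have hv' : v ∉ orb K1 w := fun h => hw (orb_symm h)
    have hm' : (orb K1 w).card % 7 = 1 := orb_card_mod_one hgK hg7 hgw (fun y hy hgy => by
      rcases hfix y hgy with h | h | h
      · exact absurd (h ▸ hy) (hnot w (Ne.symm huw))
      · exact absurd (h ▸ hy) hv'
      · exact h)
    have h1 : (orb K1 v).card = 1 := by
      rcases numE _ (hle23 v (Ne.symm huv)) (hdvd v) hm with h | h | h
      · exact h
      · exact absurd h (hsz v (Ne.symm huv)).1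
      · exact absurd h (hsz v (Ne.symm huv)).2.1
    have h2 : (orb K1 w).card = 1 := by
      rcases numE _ (hle23 w (Ne.symm huw)) (hdvd w) hm' with h | h | h
      · exact h
      · exact absurd h (hsz w (Ne.symm huw)).1
      · exact absurd h (hsz w (Ne.symm huw)).2.1
    have := card_dvd_of_fix3 hK huv huw hvw hu (fix_of_orb_card_one h1) (fix_of_orb_card_one h2)
    rw [hc] at this
    revert this
    decide

end K1

theorem bad322560 : ∀ m : ℕ, 1 ≤ m → m ≤ 10 → 322560 ∣ bnd m → m = 8 := by decide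

/-- A subgroup of order `322560` of `M24` preserves an octad. -/
theorem idx759 {K : Subgroup (Equiv.Perm GolayPt)} (hK : K ≤ M24) (hcard : Nat.card K = 322560) :
    ∃ o ∈ octads, ∀ k ∈ K, ∀ y ∈ o, k y ∈ o := by
  have : Fact (Nat.Prime 7) := ⟨by norm_num⟩
  obtain ⟨g7, hg7K, hg7⟩ := exists_order K 7 (by rw [hcard]; decide)
  by_cases htr : ∀ x, (orb K x).card = 24
  · exfalso
    have hKu := card_stb K (none : GolayPt)
    rw [hcard, htr none] at hKu
    exact no_13440 ((stb_le K none).trans hK) (stb_fix K none) (by omega)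
  · push Not at htr
    obtain ⟨x, hx⟩ := htr
    have hdvd := orb_card_dvd K x
    rw [hcard] at hdvd
    rcases orb_small K x with h | h | h | h | ⟨Y, hY, h1, h10, -⟩
    · rw [h] at hdvd
      exact absurd hdvd (by decide)
    · obtain ⟨r, hr, hm⟩ := mod_fix_le hg7 (orb K x) (inv_orb K x g7 hg7K) (fixedPts g7)
        (fun y _ hy => mem_fixedPts.mpr hy)
      rw [card_fixedPts_7 (hK hg7K) hg7] at hr
      omega
    · rw [h] at hdvd
      exact absurd hdvd (by decide)
    · exact absurd h hx
    · have hb := inv_bnd hK Y hY h1 h10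
      rw [hcard] at hb
      have h8 : Y.card = 8 := bad322560 _ h1 h10 hb
      by_cases ho : Y ∈ octads
      · exact ⟨Y, ho, hY⟩
      · exfalso
        have h2 := card_dvd_fixer_mul K Y hY
        have h3 := (fix_dvd8 ((fixer_le K Y).trans hK) Y (fun k hk => hk.2) h8).2 ho
        rw [h3, h8, hcard] at h2
        revert h2
        decide

end Cfsg.Agent.Lib.Helper8.Idx759
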