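import Mathlib
import Cfsg.Prelude.Def_KGroupFacts
import Cfsg.Prelude.Def_CaseTheorems
import Cfsg.Agent.Lib.Helper66.Hopf2

set_option autoImplicit false

/-!
# Quasisimple central extensions by a four-group of a group with multiplier `3 × 4 × 4` (helper8)

In the Hopf model `E = F/[F,R]` of a group `G` whose multiplier `T` is `Z₃ × Z₄ × Z₄`, every
quasisimple `L` with `L/Z(L) ≃ G` and `Z(L)` elementary abelian of order four is the image of
the commutator subgroup of `E` with kernel the set of squares of `T`.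
-/

namespace Cfsg.Agent.Lib.Helper8.L34Cover

open Cfsg.Agent.Lib.Helper66

universe u v w

/-- The abstract multiplier `Z₃ × Z₄ × Z₄`. -/
abbrev A48 := Multiplicative (ZMod 3 × ZMod 4 × ZMod 4)

/-- Coset representatives modulo doubles, additively. -/
def repAdd : Fin 4 → ZMod 3 × ZMod 4 × ZMod 4 :=
  ![(0, 0, 0), (0, 1, 0), (0, 0, 1), (0, 1, 1)]

theorem exists_repAdd : ∀ a : ZMod 3 × ZMod 4 × ZMod 4,
    ∃ i : Fin 4, ∃ b : ZMod 3 × ZMod 4 × ZMod 4, a = repAdd i + (b + b) := by
  decide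

/-- Coset representatives modulo squares. -/
def rep (i : Fin 4) : A48 := Multiplicative.ofAdd (repAdd i)

theorem rep_zero : rep 0 = 1 := rfl

theorem exists_rep (a : A48) : ∃ i : Fin 4, ∃ b : A48, a = rep i * (b * b) := by
  obtain ⟨i, b, hb⟩ := exists_repAdd (Multiplicative.toAdd a)
  exact ⟨i, Multiplicative.ofAdd b, by
    apply Multiplicative.toAdd.injective
    rw [hb]; rfl⟩

/-- The key description of a quasisimple four-group cover. -/
theorem key {α : Type u} {G : Type v} [Group G] (π : FreeGroup α →* G)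
    (hπ : Function.Surjective π) (eT : A48 ≃* Hopf.T π)
    {L : Type w} [Group L] (hL : Cfsg.IsQuasisimple L)
    (hc : Nat.card (Subgroup.center L) = 4) (he : ∀ x ∈ Subgroup.center L, x * x = 1)
    (e : L ⧸ Subgroup.center L ≃* G) :
    ∃ f : _root_.commutator (Hopf.E π) →* L, Function.Surjective f ∧
      ∀ x, x ∈ f.ker ↔
        ∃ b : A48, (x : Hopf.E π) = ((eT b : Hopf.T π) : Hopf.E π) * ((eT b : Hopf.T π) : Hopf.E π) := by
  obtain ⟨hperf, -⟩ := hL
  set ξ : L →* G := e.toMonoidHom.comp (QuotientGroup.mk' (Subgroup.center L)) with hξdef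
  have hξs : Function.Surjective ξ := e.surjective.comp (QuotientGroup.mk'_surjective _)
  have hξk : ξ.ker = Subgroup.center L := by
    ext x
    rw [MonoidHom.mem_ker, hξdef, MonoidHom.comp_apply]
    change e (QuotientGroup.mk x) = 1 ↔ _
    rw [EmbeddingLike.map_eq_one_iff, QuotientGroup.eq_one_iff]
  obtain ⟨θ, hθ⟩ := Hopf.exists_lift π ξ hξs hξk.le
  have hmapT : (Hopf.T π).map θ = Subgroup.center L := by
    rw [Hopf2.map_T_eq π hπ ξ hξk.le θ hθ, hperf.commutator_eq_top, top_inf_eq, hξk]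
  have hsup : θ.range ⊔ ξ.ker = ⊤ := by
    rw [eq_top_iff]
    intro x _
    obtain ⟨y, hy⟩ := Hopf.πE_surjective π hπ (ξ x)
    have hk : (θ y)⁻¹ * x ∈ ξ.ker := by
      rw [MonoidHom.mem_ker, map_mul, map_inv, ← MonoidHom.comp_apply, hθ, hy, inv_mul_cancel]
    have : x = θ y * ((θ y)⁻¹ * x) := by group
    rw [this]
    exact Subgroup.mul_mem _ (Subgroup.mem_sup_left ⟨y, rfl⟩) (Subgroup.mem_sup_right hk)
  have hcomm : _root_.commutator L = (_root_.commutator (Hopf.E π)).map θ := by
    rw [commutator_def, ← hsup, Hopf.commutator_sup_central _ _ hξk.le, commutator_def,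
      Subgroup.map_commutator, ← MonoidHom.range_eq_map]
  rw [hperf.commutator_eq_top] at hcomm
  -- the map on the multiplier
  set φ : A48 → L := fun a => θ ((eT a : Hopf.T π) : Hopf.E π) with hφdef
  have hφmem : ∀ a, φ a ∈ Subgroup.center L := fun a => by
    rw [← hmapT]; exact ⟨_, (eT a).2, rfl⟩
  have hφmul : ∀ a b, φ (a * b) = φ a * φ b := fun a b => by
    simp only [hφdef, map_mul, Subgroup.coe_mul]
  have hφone : φ 1 = 1 := by simp only [hφdef, map_one, Subgroup.coe_one]
  have hφsq : ∀ b, φ (b * b) = 1 := fun b => by rw [hφmul]; exact he _ (hφmem b)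
  have hφsurj : ∀ z ∈ Subgroup.center L, ∃ a, φ a = z := fun z hz => by
    rw [← hmapT] at hz
    obtain ⟨t, ht, rfl⟩ := hz
    refine ⟨eT.symm ⟨t, ht⟩, ?_⟩
    simp only [hφdef, MulEquiv.apply_symm_apply]
  have hφrep : ∀ a i b, a = rep i * (b * b) → φ a = φ (rep i) := fun a i b h => by
    rw [h, hφmul, hφsq, mul_one]
  set c : Fin 4 → Subgroup.center L := fun i => ⟨φ (rep i), hφmem _⟩ with hcdef
  have hcs : Function.Surjective c := by
    rintro ⟨z, hz⟩
    obtain ⟨a, rfl⟩ := hφsurj z hz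
    obtain ⟨i, b, hb⟩ := exists_rep a
    exact ⟨i, Subtype.ext (hφrep a i b hb).symm⟩
  have hcb : Function.Bijective c := by
    rw [Nat.bijective_iff_surjective_and_card]
    exact ⟨hcs, by rw [hc]; simp⟩
  refine ⟨θ.comp (_root_.commutator (Hopf.E π)).subtype, ?_, ?_⟩
  · intro l
    have hl : l ∈ (_root_.commutator (Hopf.E π)).map θ := by rw [← hcomm]; trivial
    obtain ⟨y, hy, rfl⟩ := hl
    exact ⟨⟨y, hy⟩, rfl⟩
  · intro x
    rw [MonoidHom.mem_ker, MonoidHom.comp_apply, Subgroup.coe_subtype]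
    constructor
    · intro hx
      have hxT : (x : Hopf.E π) ∈ Hopf.T π := by
        refine Subgroup.mem_inf.mpr ⟨?_, x.2⟩
        rw [Hopf.mem_Z, ← hθ, MonoidHom.comp_apply, hx, map_one]
      obtain ⟨i, b, hb⟩ := exists_rep (eT.symm ⟨x, hxT⟩)
      have h1 : φ (eT.symm ⟨x, hxT⟩) = 1 := by
        simp only [hφdef, MulEquiv.apply_symm_apply]; exact hx
      have h2 : c i = c 0 := by
        apply Subtype.ext
        change φ (rep i) = φ (rep 0)
        rw [← hφrep _ i b hb, h1, rep_zero, hφone]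
      have hi : i = 0 := hcb.1 h2
      subst hi
      rw [rep_zero, one_mul] at hb
      refine ⟨b, ?_⟩
      have h3 : eT (b * b) = ⟨x, hxT⟩ := by rw [← hb, MulEquiv.apply_symm_apply]
      have h4 := congrArg (Subtype.val) h3
      rw [map_mul, Subgroup.coe_mul] at h4
      exact h4.symm
    · rintro ⟨b, hb⟩
      rw [hb, map_mul]
      exact he _ (hφmem b)

end Cfsg.Agent.Lib.Helper8.L34Cover
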