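import Cfsg.Agent.Lib.Helper41.OFStmt
import Cfsg.Agent.Lib.Helper44.ODet
import Cfsg.Agent.Lib.Helper44.NegPairs
import Cfsg.Agent.Lib.Helper44.FinSq
import Cfsg.Agent.Lib.Helper8.OFSQOM

/-!
# S5977 piece OMFIX: spinor norm correction inside the centralizer of `J`.
-/

set_option autoImplicit false

namespace Cfsg.Agent.Lib.Helper8.OFOMFIX

open Matrix QuadraticMap
open Cfsg.Agent.Lib.Helper41 Cfsg.Agent.Lib.Helper44
open Cfsg.Agent.Lib.Helper44.QSpace Cfsg.Agent.Lib.Helper44.OGroup

universe u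

variable {F : Type u} [Field F]

theorem S0_mulVec (d : ℕ) (w : Fin d ⊕ Fin d → F) :
    OFStmt.S0 d F *ᵥ w = fun c => w c.swap := by
  funext c
  unfold OFStmt.S0
  rw [Matrix.fromBlocks_mulVec]
  rcases c with i | i <;> simp

theorem dot_S0 (d : ℕ) (u w : Fin d ⊕ Fin d → F) :
    u ⬝ᵥ (OFStmt.S0 d F *ᵥ w)
      = ∑ i : Fin d, (u (Sum.inl i) * w (Sum.inr i) + u (Sum.inr i) * w (Sum.inl i)) := by
  rw [S0_mulVec]
  simp [dotProduct, Fintype.sum_sum_type, Finset.sum_add_distrib]

/-- The polar form of `quadFormPlus` has Gram matrix `S0`. -/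
theorem polar_eq (d : ℕ) (u w : Fin d ⊕ Fin d → F) :
    polar (NegPairs.plusQ d F) u w = u ⬝ᵥ (OFStmt.S0 d F *ᵥ w) := by
  rw [dot_S0]
  show Cfsg.quadFormPlus d F (u + w) - Cfsg.quadFormPlus d F u - Cfsg.quadFormPlus d F w = _
  unfold Cfsg.quadFormPlus
  rw [← Finset.sum_sub_distrib, ← Finset.sum_sub_distrib]
  apply Finset.sum_congr rfl
  intro i _
  simp only [Pi.add_apply]
  ring

theorem adj_of (d : ℕ) (J : Matrix (Fin d ⊕ Fin d) (Fin d ⊕ Fin d) F)
    (hJS : OFStmt.S0 d F * J = Jᵀ * OFStmt.S0 d F) (a b : Fin d ⊕ Fin d → F) :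
    polar (NegPairs.plusQ d F) (J *ᵥ a) b = polar (NegPairs.plusQ d F) a (J *ᵥ b) := by
  rw [polar_eq, polar_eq, Matrix.mulVec_mulVec, hJS, ← Matrix.mulVec_mulVec,
    ← Matrix.vecMul_transpose, ← Matrix.dotProduct_mulVec]

theorem main : OFStmt.OmFix.{u} := by
  intro F _ _ h2 d hd l hl J hJJ hJS v hv hvJ g₀ hg₀ hdet
  classical
  have hS := NegPairs.sep_plusQ (F := F) d
  have hCD : Omega2.CDP (NegPairs.plusQ d F) := Omega2.cdp_of_two_ne_zero h2 hS
  have hfin := OFSQOM.finrank_ge (F := F) d (by omega)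
  let g' : ↥(Cfsg.isometryGroup F ⇑(NegPairs.plusQ d F)) := ⟨g₀, hg₀⟩
  obtain ⟨vs, hvs, hgv⟩ := OMat2.exists_prod_of_cdp hCD g'
  have hdet' := ODet.det_of_prod (NegPairs.plusQ d F) g' vs hvs hgv
  have heven : Even vs.length := by
    by_contra hodd
    rw [Nat.not_even_iff_odd] at hodd
    rw [hodd.neg_one_pow] at hdet'
    have h1 := congrArg Units.val hdet'
    rw [Matrix.GeneralLinearGroup.val_det_apply] at h1
    have h3 : (g₀ : Matrix (Fin d ⊕ Fin d) (Fin d ⊕ Fin d) F).det = ((-1 : Fˣ) : F) := h1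
    rw [hdet] at h3
    have h4 : (1 : F) = -1 := by simpa using h3
    apply h2
    linear_combination h4
  by_cases hsq : IsSquare (vs.map (fun v => NegPairs.plusQ d F v)).prod
  · refine ⟨1, Subgroup.one_mem _, by simp, ?_⟩
    rw [mul_one]
    have hmem : g' ∈ Cfsg.Omega F ⇑(NegPairs.plusQ d F) := by
      rw [OMat.mem_omega_iff, hgv, Spinor.mem_commutator_iff h2 hS hfin vs hvs]
      exact ⟨heven, hsq⟩
    exact ⟨g', hmem, rfl⟩
  · have hadj := adj_of d J hJS
    have hJJv : ∀ a : Fin d ⊕ Fin d → F, J *ᵥ (J *ᵥ a) = l • a := by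
      intro a
      rw [Matrix.mulVec_mulVec, hJJ, Matrix.smul_mulVec, Matrix.one_mulVec]
    have hQ2 : ∀ a : Fin d ⊕ Fin d → F,
        polar (NegPairs.plusQ d F) a a = 2 * NegPairs.plusQ d F a := by
      intro a
      rw [QuadraticMap.polar_self]
      simp
    have hQv : NegPairs.plusQ d F v ≠ 0 := by
      intro h
      apply hv
      rw [← polar_eq, hQ2, h, mul_zero]
    have hQw : NegPairs.plusQ d F (J *ᵥ v) = l * NegPairs.plusQ d F v := by
      have h1 : 2 * NegPairs.plusQ d F (J *ᵥ v) = 2 * (l * NegPairs.plusQ d F v) := by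
        rw [← hQ2, hadj, hJJv, QuadraticMap.polar_smul_right, hQ2]
        simp only [smul_eq_mul]
        ring
      exact mul_left_cancel₀ h2 h1
    have hl0 : l ≠ 0 := fun h => hl (h ▸ IsSquare.zero)
    have hQw0 : NegPairs.plusQ d F (J *ᵥ v) ≠ 0 := by rw [hQw]; exact mul_ne_zero hl0 hQv
    have hvw : polar (NegPairs.plusQ d F) v (J *ᵥ v) = 0 := by rw [polar_eq]; exact hvJ
    have hwv : polar (NegPairs.plusQ d F) (J *ᵥ v) v = 0 := by rw [polar_comm]; exact hvw
    let n' : ↥(O (NegPairs.plusQ d F)) :=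
      refl (NegPairs.plusQ d F) v * refl (NegPairs.plusQ d F) (J *ᵥ v)
    let n : ↥(Cfsg.isometryGroup F ⇑(NegPairs.plusQ d F)) :=
      (OMat.isoEquiv (NegPairs.plusQ d F)).symm n'
    have hnx : ∀ x : Fin d ⊕ Fin d → F, ((n : GL (Fin d ⊕ Fin d) F) : Matrix _ _ F) *ᵥ x
        = x - ((NegPairs.plusQ d F v)⁻¹ * polar (NegPairs.plusQ d F) x v) • v
          - ((l * NegPairs.plusQ d F v)⁻¹ * polar (NegPairs.plusQ d F) x (J *ᵥ v)) • (J *ᵥ v) := by
      intro x
      rw [OMat.isoEquiv_symm_mulVec]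
      show reflE (NegPairs.plusQ d F) v (reflE (NegPairs.plusQ d F) (J *ᵥ v) x) = _
      rw [reflE_apply, reflE_apply, QuadraticMap.polar_sub_left, QuadraticMap.polar_smul_left,
        hQw, hwv]
      simp only [smul_eq_mul, mul_zero, sub_zero]
      abel
    refine ⟨n.1, n.2, ?_, ?_⟩
    · apply OMat.matrix_ext_mulVec
      intro x
      rw [← Matrix.mulVec_mulVec, ← Matrix.mulVec_mulVec, hnx, hnx]
      rw [Matrix.mulVec_sub, Matrix.mulVec_sub, Matrix.mulVec_smul, Matrix.mulVec_smul, hJJv]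
      have e1 : polar (NegPairs.plusQ d F) (J *ᵥ x) v
          = polar (NegPairs.plusQ d F) x (J *ᵥ v) := hadj x v
      have e2 : polar (NegPairs.plusQ d F) (J *ᵥ x) (J *ᵥ v)
          = l * polar (NegPairs.plusQ d F) x v := by
        rw [hadj, hJJv, QuadraticMap.polar_smul_right, smul_eq_mul]
      rw [e1, e2, smul_smul]
      have e3 : (l * NegPairs.plusQ d F v)⁻¹ * (l * polar (NegPairs.plusQ d F) x v)
          = (NegPairs.plusQ d F v)⁻¹ * polar (NegPairs.plusQ d F) x v := by
        field_simp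
      have e4 : (l * NegPairs.plusQ d F v)⁻¹ * polar (NegPairs.plusQ d F) x (J *ᵥ v) * l
          = (NegPairs.plusQ d F v)⁻¹ * polar (NegPairs.plusQ d F) x (J *ᵥ v) := by
        field_simp
      rw [e3, e4]
      abel
    · have hmem : g' * n ∈ Cfsg.Omega F ⇑(NegPairs.plusQ d F) := by
        rw [OMat.mem_omega_iff, map_mul, hgv, MulEquiv.apply_symm_apply]
        have hprod : (vs.map (refl (NegPairs.plusQ d F))).prod * n'
            = ((vs ++ [v, J *ᵥ v]).map (refl (NegPairs.plusQ d F))).prod := by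
          rw [List.map_append, List.prod_append]
          simp [n']
        have hall : ∀ u ∈ vs ++ [v, J *ᵥ v], NegPairs.plusQ d F u ≠ 0 := by
          intro u hu
          rcases List.mem_append.mp hu with h | h
          · exact hvs u h
          · simp only [List.mem_cons, List.not_mem_nil, or_false] at h
            rcases h with rfl | rfl
            · exact hQv
            · exact hQw0
        rw [hprod, Spinor.mem_commutator_iff h2 hS hfin (vs ++ [v, J *ᵥ v]) hall]
        refine ⟨?_, ?_⟩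
        · rw [List.length_append]
          exact heven.add ⟨1, rfl⟩
        · rw [List.map_append, List.prod_append]
          simp only [List.map_cons, List.map_nil, List.prod_cons, List.prod_nil, mul_one]
          apply FinSq.isSquare_mul_of_not_of_not hsq
          rw [hQw]
          rintro ⟨r, hr⟩
          apply hl
          refine ⟨r / NegPairs.plusQ d F v, ?_⟩
          field_simp
          linear_combination hr
      exact ⟨g' * n, hmem, rfl⟩

end Cfsg.Agent.Lib.Helper8.OFOMFIX
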