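import Cfsg.Agent.Lib.Helper8.OrdRElt
import Cfsg.Agent.Lib.Helper45.OMiStmt

/-!
# S5991 / DERELTM: elements of order `r` of `Omega^-_(2d)(q)` with fixed space of dimension
`(2d) % c` (wrapper of `Helper8.OrdRElt.exists_elt_minus`).
-/

set_option autoImplicit false

namespace Cfsg.Agent.Lib.Helper8.OMiDERELTM

open Cfsg.Agent.Lib.Helper37.HypStmt (cc)
open Cfsg.Agent.Lib.Helper45.OMiStmt

universe u

theorem main : DerEltM.{u} := by
  intro F _ _ p _ _ hodd d hd a b hab r _ hr2 hrp hcle hcond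
  obtain ⟨k, rfl⟩ : ∃ k, d = k + 1 := ⟨d - 1, by omega⟩
  have hcond' : 0 < (2 * (k + 1)) % cc (orderOf ((Fintype.card F : ℕ) : ZMod r)) ∨
      ¬ (Odd (orderOf ((Fintype.card F : ℕ) : ZMod r)) ∨
          Even (2 * (k + 1) / orderOf ((Fintype.card F : ℕ) : ZMod r))) := by
    rcases hcond with h | ⟨h1, h2⟩
    · exact Or.inl h
    · right
      rintro (h3 | h3)
      · exact (Nat.not_odd_iff_even.mpr h1) h3
      · exact (Nat.not_even_iff_odd.mpr h2) h3
  obtain ⟨g, hΩ, hord, hfix⟩ := Cfsg.Agent.Lib.Helper8.OrdRElt.exists_elt_minus p hodd k a b hab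
    r hr2 hrp hcle hcond'
  exact ⟨g, hΩ, hord, hfix⟩

end Cfsg.Agent.Lib.Helper8.OMiDERELTM
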