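import Cfsg.Agent.Lib.Helper59.HypDERELT
import Cfsg.Agent.Lib.Helper44.OTyp3
import Cfsg.Agent.Lib.Helper45.OMiStmt

/-!
# S5991 / NOFREEM: an isometry of odd prime order `r ≠ p` of the minus form without fixed
vectors exists only if `i` is even and `2 d / i` is odd (count of singular vectors).
-/

set_option autoImplicit false

namespace Cfsg.Agent.Lib.Helper8.OMiNOFREEM

open Polynomial Matrix
open Cfsg.Agent.Lib.Helper37.HypStmt (cc)
open Cfsg.Agent.Lib.Helper45.OMiStmt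
open Cfsg.Agent.Lib.Helper59.HypDERELT (order_facts)

universe u

theorem main : NoFreeM.{u} := by
  classical
  intro F _ _ p _ _ hodd d hd a b hab r _ hr2 hrp x hx hxr hfix
  have hr : r.Prime := Fact.out
  obtain ⟨k, rfl⟩ : ∃ k, d = k + 1 := ⟨d - 1, by omega⟩
  obtain ⟨hipos, hidvd⟩ := order_facts F p r hr hrp
  obtain ⟨i, hi⟩ : ∃ i, i = orderOf ((Fintype.card F : ℕ) : ZMod r) := ⟨_, rfl⟩
  rw [← hi] at hipos hidvd ⊢
  obtain ⟨t, ht'⟩ := hidvd
  have ht : t * i = r - 1 := by rw [ht', mul_comm]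
  have h2 : (2 : F) ≠ 0 := Cfsg.Agent.Lib.Helper44.FinSq.two_ne_zero_of_odd_card hodd
  have hS : Cfsg.Agent.Lib.Helper44.QSpace.Sep (Cfsg.Agent.Lib.Helper44.NegPairs.minusQ k F a b) :=
    Cfsg.Agent.Lib.Helper44.NegPairs.sep_minusQ h2 k a b hab
  have hcard : Fintype.card ((Fin k ⊕ Fin k) ⊕ Fin 2) = 2 * (k + 1) := by
    simp
    omega
  obtain ⟨s, hs⟩ : ∃ s : Matrix ((Fin k ⊕ Fin k) ⊕ Fin 2) ((Fin k ⊕ Fin k) ⊕ Fin 2) F,
      s = (x : Matrix (M (k + 1)) (M (k + 1)) F) := ⟨_, rfl⟩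
  have hsr : s ^ r = 1 := by
    rw [hs, ← Units.val_pow_eq_pow_val, hxr]
    rfl
  have hsQ : ∀ u, Cfsg.Agent.Lib.Helper44.NegPairs.minusQ k F a b (s *ᵥ u) =
      Cfsg.Agent.Lib.Helper44.NegPairs.minusQ k F a b u := by
    intro u
    rw [hs]
    exact hx u u
  have hsL : ¬ (X - C (1 : F)) ∣ s.charpoly := by
    intro hdvd
    rw [Polynomial.dvd_iff_isRoot, Polynomial.IsRoot, Matrix.eval_charpoly] at hdvd
    obtain ⟨v, hv0, hv⟩ := Matrix.exists_mulVec_eq_zero_iff.mpr hdvd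
    rw [sub_mulVec, map_one, one_mulVec, sub_eq_zero] at hv
    have hmem : v ∈ FxM (x : Matrix (M (k + 1)) (M (k + 1)) F) := by
      rw [mem_FxM, ← hs]
      exact hv.symm
    rw [hfix, Submodule.mem_bot] at hmem
    exact hv0 hmem
  have hobs := (Cfsg.Agent.Lib.Helper44.OTyp3.obs_matrix (p := p)
    (Cfsg.Agent.Lib.Helper44.NegPairs.minusQ k F a b) hS hcard r i t hr hr2 hrp hi ht s hsr
    hsQ hsL).1
  have hmin := Cfsg.Agent.Lib.Helper44.OTyp3.sing_minus (F := F) k a b hab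
  have hq : 2 ≤ Fintype.card F := Fintype.one_lt_card
  have hne := Cfsg.Agent.Lib.Helper44.OTyp1.NP_ne_NM (Fintype.card F) k hq
  have hnot : ¬ (Odd i ∨ Even (2 * (k + 1) / i)) := by
    intro hA
    apply hne
    rw [← hobs hA, hmin]
  constructor
  · exact Nat.not_odd_iff_even.mp (fun h => hnot (Or.inl h))
  · exact Nat.not_even_iff_odd.mp (fun h => hnot (Or.inr h))

end Cfsg.Agent.Lib.Helper8.OMiNOFREEM
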