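import Cfsg.Agent.Lib.Helper59.HypDERELT
import Cfsg.Agent.Lib.Helper44.OTyp3
import Cfsg.Agent.Lib.Helper94.OPStmt

/-!
# S5989 / DERELTP: elements of order `r` of `Omega^+_(2d)(q)` with fixed space of dimension
`(2d) % c`.  Port of `Helper59.HypDERELT.main` to the plus form; in the case `c ∣ 2d` the
block space is isometric to the plus space by the count of singular vectors.
-/

set_option autoImplicit false

namespace Cfsg.Agent.Lib.Helper8.OPDERELTP

open Polynomial UniqueFactorizationMonoid Matrix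
open Cfsg.Agent.Lib.Helper40.RecipPoly Cfsg.Agent.Lib.Helper44.OCls2 Cfsg.Agent.Lib.Helper44.OCls3
  Cfsg.Agent.Lib.Helper44.OCls4
open Cfsg.Agent.Lib.Helper37.HypStmt (cc)
open Cfsg.Agent.Lib.Helper94.OPStmt
open Cfsg.Agent.Lib.Helper59.HypDERELT (order_facts exists_block real_pow)

universe u

theorem finrank_FxP {F : Type u} [Field F] {d : ℕ} (x : Matrix (P d) (P d) F) (r : ℕ)
    (hr0 : (r : F) ≠ 0) (hx : x ^ r = 1) :
    Module.finrank F ↥(FxP x) = x.charpoly.rootMultiplicity 1 := by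
  have hss : Module.End.IsSemisimple (Matrix.toLin' x) :=
    Cfsg.Agent.Lib.Helper40.SSConj.isSemisimple_toLin' x r hr0 hx
  have h1 : FxP x = Module.End.eigenspace (Matrix.toLin' x) 1 := by
    rw [Module.End.eigenspace_def, one_smul]
    rfl
  rw [h1, ← hss.isFinitelySemisimple.maxGenEigenspace_eq_eigenspace 1,
    LinearMap.finrank_maxGenEigenspace_eq, Matrix.charpoly_toLin']

theorem main : DerEltP.{u} := by
  classical
  intro F _ _ p _ _ hodd d hd r _ hr2 hrp hcle hcond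
  have hr : r.Prime := Fact.out
  have hrodd : Odd r := hr.odd_of_ne_two hr2
  obtain ⟨c', hreal, hdeg, hnd⟩ := exists_block F p r hr hr2 hrp
  obtain ⟨hipos, hidvd⟩ := order_facts F p r hr hrp
  obtain ⟨i, hi⟩ : ∃ i, i = orderOf ((Fintype.card F : ℕ) : ZMod r) := ⟨_, rfl⟩
  rw [← hi] at hdeg hcle hcond hipos hidvd ⊢
  obtain ⟨t, ht'⟩ := hidvd
  have ht : t * i = r - 1 := by rw [ht', mul_comm]
  obtain ⟨c0, hc0⟩ : ∃ c0, c0 = cc i := ⟨_, rfl⟩
  rw [← hc0] at hdeg hcle hcond ⊢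
  have hc0even : Even c0 := by
    rw [hc0]
    unfold cc
    split_ifs with h
    · exact h
    · exact even_two_mul _
  have hc0pos : 0 < c0 := by
    rw [hc0]
    unfold cc
    split_ifs with h
    · exact hipos
    · omega
  obtain ⟨b, hb⟩ : ∃ b, b = (2 * d) / c0 := ⟨_, rfl⟩
  obtain ⟨ι, _, _, s, N, hsc, hsr, hsN, hNdet⟩ := real_pow hreal b
  have hcard : Fintype.card ι = b * c0 := by
    have h1 := Matrix.charpoly_natDegree_eq_dim s
    rw [hsc, natDegree_pow, hdeg] at h1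
    exact h1.symm
  have hbc : b * c0 + (2 * d) % c0 = 2 * d := by
    rw [hb]
    exact Nat.div_add_mod' _ _
  have hbceven : Even (b * c0) := hc0even.mul_left b
  have hcardP : ∀ d' : ℕ, Fintype.card (P d') = 2 * d' := by
    intro d'
    simp [P]
    omega
  have h2 : (2 : F) ≠ 0 := Cfsg.Agent.Lib.Helper44.FinSq.two_ne_zero_of_odd_card hodd
  have hSQ : ∀ d' : ℕ,
      Cfsg.Agent.Lib.Helper44.QSpace.Sep (Cfsg.Agent.Lib.Helper44.NegPairs.plusQ d' F) :=
    fun d' => Cfsg.Agent.Lib.Helper44.NegPairs.sep_plusQ d'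
  have hSN : Cfsg.Agent.Lib.Helper44.QSpace.Sep (Cfsg.Agent.Lib.Helper44.OExt.qN N) :=
    Cfsg.Agent.Lib.Helper44.OExt.sep_qN hNdet
  have hLp : Prime (X - C (1 : F)) := (irreducible_X_sub_C 1).prime
  have hsL : ¬ (X - C (1 : F)) ∣ s.charpoly := by
    rw [hsc]
    intro h
    exact hnd (hLp.dvd_of_dvd_pow h)
  have hj : ∃ j : (ι → F) →ₗ[F] (P d → F), ∀ v,
      Cfsg.Agent.Lib.Helper44.NegPairs.plusQ d F (j v) =
        Cfsg.Agent.Lib.Helper44.OExt.qN N v := by
    rcases Nat.eq_zero_or_pos ((2 * d) % c0) with hk0 | hkpos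
    · have hcond' : Odd i ∨ Even (2 * d / i) := by
        rcases hcond with h | h
        · omega
        · exact h
      obtain ⟨k, hk⟩ : ∃ k, d = k + 1 := ⟨d - 1, by omega⟩
      rw [hk] at hcond' hbc hk0 ⊢
      have hcard' : Fintype.card ι = 2 * (k + 1) := by
        rw [hcard]
        omega
      have hobs := (Cfsg.Agent.Lib.Helper44.OTyp3.obs_matrix (p := p)
        (Cfsg.Agent.Lib.Helper44.OExt.qN N) hSN hcard' r i t hr hr2 hrp hi ht s hsr
        (fun u => Cfsg.Agent.Lib.Helper44.OExt.qN_isom hsN u) hsL).1 hcond'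
      have hpl := Cfsg.Agent.Lib.Helper44.OTyp3.sing_plus (F := F) k
      have hq0 : 0 < Fintype.card F := Fintype.card_pos
      have hc : Nat.card {v : ι → F // Cfsg.Agent.Lib.Helper44.OExt.qN N v = 0} =
          Nat.card {v : Fin (k + 1) ⊕ Fin (k + 1) → F //
            Cfsg.Agent.Lib.Helper44.NegPairs.plusQ (k + 1) F v = 0} := by
        apply Nat.eq_of_mul_eq_mul_right hq0
        rw [hobs, hpl]
      exact Cfsg.Agent.Lib.Helper44.OTyp1.exists_iso (Cfsg.Agent.Lib.Helper44.OExt.qN N)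
        (Cfsg.Agent.Lib.Helper44.NegPairs.plusQ (k + 1) F) hSN (hSQ (k + 1))
        (by rw [Module.finrank_fintype_fun_eq_card, hcard'])
        (by rw [Module.finrank_fintype_fun_eq_card, hcardP]) hc
    · obtain ⟨k, hk⟩ := hbceven
      exact Cfsg.Agent.Lib.Helper44.OEmb.exists_embedding (F := F) k (ι → F)
        (Cfsg.Agent.Lib.Helper44.OExt.qN N) (P d → F)
        (Cfsg.Agent.Lib.Helper44.NegPairs.plusQ d F)
        (by rw [Module.finrank_fintype_fun_eq_card, hcard]; omega)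
        (by rw [Module.finrank_fintype_fun_eq_card, Module.finrank_fintype_fun_eq_card, hcard,
              hcardP]; omega) hSN (hSQ d)
  obtain ⟨j, hj⟩ := hj
  obtain ⟨g, hgiso, hgcp, hgr⟩ := Cfsg.Agent.Lib.Helper44.OExt.exists_ext
    (Cfsg.Agent.Lib.Helper44.NegPairs.plusQ d F) N s hNdet hsN r hr.pos hsr j hj
    (by rw [hcard, hcardP]; omega)
  have hr0 : (r : F) ≠ 0 := by
    rw [Ne, CharP.cast_eq_zero_iff F p]
    intro h
    exact hrp ((Nat.prime_dvd_prime_iff_eq (Fact.out : p.Prime) hr).mp h).symm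
  have hgrM : (g : Matrix (P d) (P d) F) ^ r = 1 := by
    rw [← Units.val_pow_eq_pow_val, hgr]
    rfl
  have hfix : Module.finrank F ↥(FxP (g : Matrix (P d) (P d) F)) = (2 * d) % c0 := by
    rw [finrank_FxP _ r hr0 hgrM, hgcp, hsc, hcard, hcardP]
    have hc'0 : c' ≠ 0 := by
      intro h
      exact hnd (h ▸ dvd_zero _)
    have hne : (X - C (1 : F)) ^ (2 * d - b * c0) * c' ^ b ≠ 0 :=
      mul_ne_zero (pow_ne_zero _ (X_sub_C_ne_zero 1)) (pow_ne_zero _ hc'0)
    rw [rootMultiplicity_mul hne, rootMultiplicity_X_sub_C_pow]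
    have h3 : rootMultiplicity 1 (c' ^ b) = 0 := by
      apply rootMultiplicity_eq_zero
      intro hroot
      have h4 : (X - C (1 : F)) ∣ c' ^ b := dvd_iff_isRoot.mpr hroot
      exact hnd (hLp.dvd_of_dvd_pow h4)
    rw [h3]
    omega
  have hg1 : g ≠ 1 := by
    intro h
    rw [h] at hfix
    have h3 : FxP ((1 : Matrix.GeneralLinearGroup (P d) F) : Matrix (P d) (P d) F) = ⊤ := by
      rw [eq_top_iff]
      intro v _
      rw [mem_FxP]
      simp
    rw [h3, finrank_top, Module.finrank_fintype_fun_eq_card, hcardP] at hfix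
    have := Nat.mod_lt (2 * d) hc0pos
    omega
  refine ⟨g, ?_, orderOf_eq_prime hgr hg1, hfix⟩
  obtain ⟨a, ha⟩ := hrodd
  obtain ⟨g', hg'⟩ : ∃ g' : ↥(Cfsg.isometryGroup F ⇑(Cfsg.Agent.Lib.Helper44.NegPairs.plusQ d F)),
      g' = ⟨g, hgiso⟩ := ⟨_, rfl⟩
  have hg'r : g' ^ r = 1 := by
    apply Subtype.ext
    rw [Subgroup.coe_pow, hg']
    exact hgr
  have hsq : g' = g' ^ (a + 1) * g' ^ (a + 1) := by
    rw [← pow_add]
    have h3 : a + 1 + (a + 1) = r + 1 := by omega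
    rw [h3, pow_succ, hg'r, one_mul]
  have hmem : g' ∈ Cfsg.Omega F ⇑(Cfsg.Agent.Lib.Helper44.NegPairs.plusQ d F) := by
    rw [hsq]
    exact Cfsg.Agent.Lib.Helper14.OrthIndex.sq_mem_omega h2
      (Cfsg.Agent.Lib.Helper44.NegPairs.plusQ d F) (hSQ d) (by rw [hcardP]; omega) _
  exact Subgroup.mem_map.mpr ⟨g', hmem, by rw [hg']; rfl⟩

end Cfsg.Agent.Lib.Helper8.OPDERELTP
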