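import Mathlib
import Cfsg.Agent.Lib.Helper46.PsuStmt
import Cfsg.Agent.Lib.Helper46.PsuROOTS

set_option autoImplicit false

/-!
# Piece CC of S5172: the centre of `UJ` consists of corner matrices
-/

namespace Cfsg.Agent.Lib.Helper8.PsuCC

open Matrix Cfsg.Agent.Lib.Helper43.SUBase Cfsg.Agent.H84.PslDefs
  Cfsg.Agent.Lib.Helper46.PsuDefs Cfsg.Agent.Lib.Helper46.PsuStmt

universe u

variable {K : Type u} [Field K] {n : ℕ}

theorem single_mul_entry (a b : Fin n) (c : K) (Z : Matrix (Fin n) (Fin n) K) (k l : Fin n) :
    (Matrix.single a b c * Z) k l = if k = a then c * Z b l else 0 := by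
  by_cases h : k = a
  · subst h; rw [if_pos rfl, Matrix.single_mul_apply_same]
  · rw [if_neg h, Matrix.single_mul_apply_of_ne (c := c) a b k l h Z]

theorem mul_single_entry (a b : Fin n) (c : K) (Z : Matrix (Fin n) (Fin n) K) (k l : Fin n) :
    (Z * Matrix.single a b c) k l = if l = b then Z k a * c else 0 := by
  by_cases h : l = b
  · subst h; rw [if_pos rfl, Matrix.mul_single_apply_same]
  · rw [if_neg h, Matrix.mul_single_apply_of_ne (c := c) a b k l h Z]

theorem main : CenterCorner.{u} := by
  intro n K _ _ q D hn z hz hcomm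
  obtain ⟨hzG, hzU, hzd⟩ := (mem_UJ D n z).1 hz
  have hC : ∀ M : Matrix (Fin n) (Fin n) K,
      (∃ g ∈ UJ D n, (g : Matrix (Fin n) (Fin n) K) = M) →
      (M - 1) * (z : Matrix (Fin n) (Fin n) K) = (z : Matrix (Fin n) (Fin n) K) * (M - 1) := by
    rintro M ⟨g, hg, rfl⟩
    have h := congrArg (fun x : SpecialLinearGroup (Fin n) K => (x : Matrix (Fin n) (Fin n) K))
      (hcomm g hg)
    simp only [Matrix.SpecialLinearGroup.coe_mul] at h
    rw [Matrix.sub_mul, Matrix.mul_sub, Matrix.one_mul, Matrix.mul_one, h]
  obtain ⟨c0, hc0, hc0s⟩ := D.exists_skew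
  have hrv : ∀ i : Fin n, (Fin.rev i).val = n - 1 - i.val := fun i => by
    rw [Fin.val_rev]; omega
  -- long roots
  have hL : ∀ k : Fin n, k < Fin.rev k → ∀ x y : Fin n,
      (if x = k then c0 * z (Fin.rev k) y else 0) =
        (if y = Fin.rev k then z x k * c0 else 0) := by
    intro k hk x y
    have h := hC _ (Cfsg.Agent.Lib.Helper46.PsuROOTS.long_exists D k c0 hk hc0s)
    have h2 := congrFun (congrFun h x) y
    rw [longM, add_sub_cancel_left, single_mul_entry, mul_single_entry] at h2
    exact h2
  have F1 : ∀ r l : Fin n, n - 1 - r.val < r.val → l ≠ r → z r l = 0 := by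
    intro r l hr hl
    have hk : Fin.rev r < Fin.rev (Fin.rev r) := by
      rw [Fin.rev_rev, Fin.lt_def, hrv]; exact hr
    have h := hL (Fin.rev r) hk (Fin.rev r) l
    rw [Fin.rev_rev, if_pos rfl, if_neg hl] at h
    exact (mul_eq_zero.1 h).resolve_left hc0
  have F2 : ∀ k i : Fin n, k.val < n - 1 - k.val → i ≠ k → z i k = 0 := by
    intro k i hk hi
    have hk' : k < Fin.rev k := by rw [Fin.lt_def, hrv]; exact hk
    have h := hL k hk' i (Fin.rev k)
    rw [if_neg hi, if_pos rfl] at h
    exact (mul_eq_zero.1 h.symm).resolve_right hc0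
  -- short roots in the top half
  have hS : ∀ i' j' : Fin n, i'.val < j'.val → j'.val < n - 1 - j'.val →
      ∀ (a : K) (x y : Fin n),
      (if x = i' then a * z j' y else 0) -
          (if x = Fin.rev j' then D.φ a * z (Fin.rev i') y else 0) =
        (if y = j' then z x i' * a else 0) -
          (if y = Fin.rev i' then z x (Fin.rev j') * D.φ a else 0) := by
    intro i' j' h1 h2 a x y
    have hij : i' < j' := h1
    have hj : j' < Fin.rev i' := by rw [Fin.lt_def, hrv]; omega
    have hjj : j' ≠ Fin.rev j' := by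
      intro h
      have := congrArg Fin.val h
      rw [hrv] at this
      omega
    have h := hC _ (Cfsg.Agent.Lib.Helper46.PsuROOTS.short_exists D i' j' a hij hj hjj)
    have h3 := congrFun (congrFun h x) y
    have e : shortM D n i' j' a - 1 =
        Matrix.single i' j' a - Matrix.single (Fin.rev j') (Fin.rev i') (D.φ a) := by
      rw [shortM]; abel
    rw [e, Matrix.sub_mul, Matrix.mul_sub, Matrix.sub_apply, Matrix.sub_apply, single_mul_entry,
      single_mul_entry, mul_single_entry, mul_single_entry] at h3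
    exact h3
  have F3 : ∀ i' j' l : Fin n, i'.val < j'.val → j'.val < n - 1 - j'.val → l ≠ j' →
      l.val ≠ n - 1 - i'.val → z j' l = 0 := by
    intro i' j' l h1 h2 hl1 hl2
    have h := hS i' j' h1 h2 1 i' l
    have e1 : i' ≠ Fin.rev j' := by
      intro h
      have := congrArg Fin.val h
      rw [hrv] at this
      omega
    have e2 : l ≠ Fin.rev i' := by
      intro h
      have := congrArg Fin.val h
      rw [hrv] at this
      omega
    simp only [e1, hl1, e2, if_true, if_false] at h
    linear_combination h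
  have F4 : ∀ i' j' k : Fin n, i'.val < j'.val → j'.val < n - 1 - j'.val → k ≠ i' →
      k ≠ Fin.rev j' → z k (Fin.rev j') = 0 := by
    intro i' j' k h1 h2 hk1 hk2
    have h := hS i' j' h1 h2 1 k (Fin.rev i')
    have e1 : Fin.rev i' ≠ j' := by
      intro h
      have := congrArg Fin.val h
      rw [hrv] at this
      omega
    simp only [hk1, hk2, e1, if_true, if_false, map_one] at h
    linear_combination h
  have F34 : ∀ i' j' : Fin n, i'.val < j'.val → j'.val < n - 1 - j'.val → ∀ a : K,
      a * z j' (Fin.rev i') = -(z i' (Fin.rev j') * D.φ a) := by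
    intro i' j' h1 h2 a
    have h := hS i' j' h1 h2 a i' (Fin.rev i')
    have e1 : i' ≠ Fin.rev j' := by
      intro h
      have := congrArg Fin.val h
      rw [hrv] at this
      omega
    have e2 : Fin.rev i' ≠ j' := by
      intro h
      have := congrArg Fin.val h
      rw [hrv] at this
      omega
    simp only [e1, e2, if_true, if_false] at h
    linear_combination h
  -- root elements through the middle index
  obtain ⟨b0, hb0⟩ := D.tr (-1) (by rw [map_neg, map_one])
  have hb0' : b0 + D.φ b0 + 1 * D.φ 1 = 0 := by rw [hb0, map_one, mul_one]; ring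
  have hM : ∀ i' μ : Fin n, i'.val < μ.val → μ.val = n - 1 - μ.val → ∀ (x y : Fin n),
      (if x = i' then (1 : K) * z μ y else 0) -
          (if x = μ then D.φ 1 * z (Fin.rev i') y else 0) +
          (if x = i' then b0 * z (Fin.rev i') y else 0) =
        (if y = μ then z x i' * 1 else 0) -
          (if y = Fin.rev i' then z x μ * D.φ 1 else 0) +
          (if y = Fin.rev i' then z x i' * b0 else 0) := by
    intro i' μ h1 h2 x y
    have hij : i' < μ := h1
    have hjj : μ = Fin.rev μ := Fin.ext (by rw [hrv]; exact h2)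
    have h := hC _ (Cfsg.Agent.Lib.Helper46.PsuROOTS.mid_exists D i' μ 1 b0 hij hjj hb0')
    have h3 := congrFun (congrFun h x) y
    have e : midM D n i' μ 1 b0 - 1 =
        Matrix.single i' μ 1 - Matrix.single μ (Fin.rev i') (D.φ 1) +
          Matrix.single i' (Fin.rev i') b0 := by
      rw [midM]; abel
    rw [e, Matrix.add_mul, Matrix.sub_mul, Matrix.mul_add, Matrix.mul_sub, Matrix.add_apply,
      Matrix.add_apply, Matrix.sub_apply, Matrix.sub_apply, single_mul_entry,
      single_mul_entry, single_mul_entry, mul_single_entry, mul_single_entry,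
      mul_single_entry] at h3
    exact h3
  have F5 : ∀ i' μ k : Fin n, i'.val < μ.val → μ.val = n - 1 - μ.val → k ≠ i' → k ≠ μ →
      z k μ = 0 := by
    intro i' μ k h1 h2 hk1 hk2
    have h := hM i' μ h1 h2 k (Fin.rev i')
    have e1 : Fin.rev i' ≠ μ := by
      intro h
      have := congrArg Fin.val h
      rw [hrv] at this
      omega
    have e2 : z k i' = 0 := F2 i' k (by omega) hk1
    simp only [hk1, hk2, e1, if_true, if_false, map_one, e2] at h
    linear_combination h
  have F6 : ∀ i' μ l : Fin n, i'.val < μ.val → μ.val = n - 1 - μ.val → l ≠ μ →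
      l.val ≠ n - 1 - i'.val → z μ l = 0 := by
    intro i' μ l h1 h2 hl1 hl2
    have h := hM i' μ h1 h2 i' l
    have e1 : i' ≠ μ := by
      intro h
      have := congrArg Fin.val h
      omega
    have e2 : l ≠ Fin.rev i' := by
      intro h
      have := congrArg Fin.val h
      rw [hrv] at this
      omega
    have e3 : z (Fin.rev i') l = 0 := F1 (Fin.rev i') l (by rw [hrv]; omega) e2
    simp only [e1, hl1, e2, if_true, if_false, e3] at h
    linear_combination h
  -- the two special entries
  have hsp : z (⟨1, by omega⟩ : Fin n) (Fin.rev ⟨0, by omega⟩) = 0 ∧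
      z (⟨0, by omega⟩ : Fin n) (Fin.rev ⟨1, by omega⟩) = 0 := by
    have h := F34 (⟨0, by omega⟩ : Fin n) ⟨1, by omega⟩ (by simp) (by simp; omega)
    have h1 := h 1
    rw [one_mul, map_one, mul_one] at h1
    obtain ⟨x, hx⟩ := D.ne
    have h2 := h x
    have h3 : (x - D.φ x) * z (⟨1, by omega⟩ : Fin n) (Fin.rev ⟨0, by omega⟩) = 0 := by
      linear_combination h2 - D.φ x * h1
    have h4 : z (⟨1, by omega⟩ : Fin n) (Fin.rev ⟨0, by omega⟩) = 0 :=
      (mul_eq_zero.1 h3).resolve_left (sub_ne_zero.2 (Ne.symm hx))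
    refine ⟨h4, ?_⟩
    rw [h4] at h1
    linear_combination h1
  -- assembly
  intro i j hij hcorner
  rcases lt_trichotomy i j with h | h | h
  · have hv : i.val < j.val := h
    by_cases hj : j.val < n - 1 - j.val
    · exact F2 j i hj hij
    by_cases hi : n - 1 - i.val < i.val
    · exact F1 i j hi (Ne.symm hij)
    by_cases hjm : j.val = n - 1 - j.val
    · by_cases hi0 : i.val = 0
      · exact F5 ⟨1, by omega⟩ j i (by simp; omega) hjm
          (by intro h; have := congrArg Fin.val h; simp at this; omega) hij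
      · exact F5 ⟨0, by omega⟩ j i (by simp; omega) hjm
          (by intro h; have := congrArg Fin.val h; simp at this; omega) hij
    by_cases him : i.val = n - 1 - i.val
    · by_cases hj0 : j.val = n - 1
      · exact F6 ⟨1, by omega⟩ i j (by simp; omega) him (Ne.symm hij) (by simp; omega)
      · exact F6 ⟨0, by omega⟩ i j (by simp; omega) him (Ne.symm hij) (by simp; omega)
    by_cases hi2 : 2 ≤ i.val
    · by_cases hj0 : j.val = n - 1
      · exact F3 ⟨1, by omega⟩ i j (by simp; omega) (by omega) (Ne.symm hij) (by simp; omega)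
      · exact F3 ⟨0, by omega⟩ i j (by simp; omega) (by omega) (Ne.symm hij) (by simp; omega)
    by_cases hi1 : i.val = 1
    · by_cases hj0 : j.val = n - 1
      · have e1 : i = ⟨1, by omega⟩ := Fin.ext hi1
        have e2 : j = Fin.rev ⟨0, by omega⟩ := Fin.ext (by rw [hrv]; simp; omega)
        rw [e1, e2]
        exact hsp.1
      · exact F3 ⟨0, by omega⟩ i j (by simp; omega) (by omega) (Ne.symm hij) (by simp; omega)
    have hi0 : i.val = 0 := by omega
    have hjn : j.val + 1 ≠ n := fun h => hcorner ⟨hi0, h⟩
    by_cases hj2 : j.val = n - 2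
    · have e1 : i = ⟨0, by omega⟩ := Fin.ext hi0
      have e2 : j = Fin.rev ⟨1, by omega⟩ := Fin.ext (by rw [hrv]; simp; omega)
      rw [e1, e2]
      exact hsp.2
    · have h4 := F4 ⟨1, by omega⟩ (Fin.rev j) i (by rw [hrv]; simp; omega)
        (by rw [hrv]; omega)
        (by intro h; have := congrArg Fin.val h; simp at this; omega)
        (by rw [Fin.rev_rev]; exact hij)
      rw [Fin.rev_rev] at h4
      exact h4
  · exact absurd h hij
  · exact hzU i j h

end Cfsg.Agent.Lib.Helper8.PsuCC
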