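import Mathlib
import Cfsg.Agent.Lib.Helper46.PsuStmt
import Cfsg.Agent.Lib.Helper46.PsuROOTS
import Cfsg.Agent.Lib.Helper8.PsuCC

set_option autoImplicit false

/-!
# Piece NU of S5172: an element of `GJ` normalizing `UJ` is upper triangular
-/

namespace Cfsg.Agent.Lib.Helper8.PsuNU

open Matrix Cfsg.Agent.Lib.Helper43.SUBase Cfsg.Agent.H84.PslDefs
  Cfsg.Agent.Lib.Helper46.PsuDefs Cfsg.Agent.Lib.Helper46.PsuStmt
  Cfsg.Agent.Lib.Helper8.PsuCC

universe u

theorem main : NormU.{u} := by
  intro n K _ _ q D hn g hg hnorm
  have hrv : ∀ i : Fin n, (Fin.rev i).val = n - 1 - i.val := fun i => by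
    rw [Fin.val_rev]; omega
  obtain ⟨b0, hb0⟩ := D.tr (-1) (by rw [map_neg, map_one])
  have hb0' : b0 + D.φ b0 + 1 * D.φ 1 = 0 := by rw [hb0, map_one, mul_one]; ring
  obtain ⟨c0, hc0, hc0s⟩ := D.exists_skew
  have key : ∀ d : ℕ, ∀ i : Fin n, n - i.val = d → ∀ k : Fin n, k < i → g i k = 0 := by
    intro d
    induction d using Nat.strong_induction_on with
    | _ d ih =>
      intro i hi k hk
      have hkv : k.val < i.val := hk
      have IH : ∀ m : Fin n, i < m → ∀ j : Fin n, j < m → g m j = 0 := by
        intro m hm j hj
        have hmv : i.val < m.val := hm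
        exact ih (n - m.val) (by have := m.isLt; omega) m rfl j hj
      have hE : ∀ M : Matrix (Fin n) (Fin n) K,
          (∃ u ∈ UJ D n, (u : Matrix (Fin n) (Fin n) K) = M) →
          ∀ j : Fin n, j ≤ i → ((g : Matrix (Fin n) (Fin n) K) * (M - 1)) i j = 0 := by
        rintro M ⟨u, hu, rfl⟩ j hj
        have hw := hnorm u hu
        obtain ⟨_, hw1, hw2⟩ := (mem_UJ D n _).1 hw
        have hm : ((g * u * g⁻¹ : SpecialLinearGroup (Fin n) K) : Matrix (Fin n) (Fin n) K) *
            (g : Matrix (Fin n) (Fin n) K) =
            (g : Matrix (Fin n) (Fin n) K) * (u : Matrix (Fin n) (Fin n) K) := by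
          rw [← Matrix.SpecialLinearGroup.coe_mul, ← Matrix.SpecialLinearGroup.coe_mul,
            inv_mul_cancel_right]
        have hsum : (((g * u * g⁻¹ : SpecialLinearGroup (Fin n) K) :
            Matrix (Fin n) (Fin n) K) * (g : Matrix (Fin n) (Fin n) K)) i j = g i j := by
          rw [Matrix.mul_apply, Finset.sum_eq_single i]
          · rw [hw2, one_mul]
          · intro m _ hmi
            rcases lt_or_gt_of_ne hmi with h | h
            · rw [hw1 i m h, zero_mul]
            · rw [IH m h j (lt_of_le_of_lt hj h), mul_zero]
          · intro h; exact absurd (Finset.mem_univ i) h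
        rw [Matrix.mul_sub, Matrix.mul_one, Matrix.sub_apply, ← hm, hsum, sub_self]
      rcases lt_trichotomy k.val (n - 1 - k.val) with h1 | h1 | h1
      · have hk' : k < Fin.rev k := by rw [Fin.lt_def, hrv]; exact h1
        by_cases h2 : n - 1 - k.val ≤ i.val
        · have h := hE _ (Cfsg.Agent.Lib.Helper46.PsuROOTS.long_exists D k c0 hk' hc0s)
            (Fin.rev k) (by rw [Fin.le_def, hrv]; exact h2)
          rw [longM, add_sub_cancel_left, mul_single_entry, if_pos rfl] at h
          exact (mul_eq_zero.1 h).resolve_right hc0
        · have hik : i < Fin.rev k := by rw [Fin.lt_def, hrv]; omega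
          have e1 : i ≠ Fin.rev k := ne_of_lt hik
          by_cases h3 : i.val = n - 1 - i.val
          · have hii : i = Fin.rev i := Fin.ext (by rw [hrv]; exact h3)
            have h := hE _ (Cfsg.Agent.Lib.Helper46.PsuROOTS.mid_exists D k i 1 b0 hk hii hb0')
              i le_rfl
            have e : midM D n k i 1 b0 - 1 =
                Matrix.single k i 1 - Matrix.single i (Fin.rev k) (D.φ 1) +
                  Matrix.single k (Fin.rev k) b0 := by
              rw [midM]; abel
            rw [e, Matrix.mul_add, Matrix.mul_sub, Matrix.add_apply, Matrix.sub_apply,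
              mul_single_entry, mul_single_entry, mul_single_entry] at h
            simp only [e1, if_true, if_false] at h
            linear_combination h
          · have hii : i ≠ Fin.rev i := by
              intro h
              have := congrArg Fin.val h
              rw [hrv] at this
              exact h3 this
            have h := hE _ (Cfsg.Agent.Lib.Helper46.PsuROOTS.short_exists D k i 1 hk hik hii)
              i le_rfl
            have e : shortM D n k i 1 - 1 =
                Matrix.single k i 1 - Matrix.single (Fin.rev i) (Fin.rev k) (D.φ 1) := by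
              rw [shortM]; abel
            rw [e, Matrix.mul_sub, Matrix.sub_apply, mul_single_entry, mul_single_entry] at h
            simp only [e1, if_true, if_false] at h
            linear_combination h
      · -- k is the middle index
        have hkk : k = Fin.rev k := Fin.ext (by rw [hrv]; exact h1)
        have hik : Fin.rev i < k := by rw [Fin.lt_def, hrv]; omega
        have e1 : k ≠ Fin.rev (Fin.rev i) := by rw [Fin.rev_rev]; exact ne_of_lt hk
        have e2 : i ≠ k := ne_of_gt hk
        have e : midM D n (Fin.rev i) k 1 b0 - 1 =
            Matrix.single (Fin.rev i) k 1 - Matrix.single k (Fin.rev (Fin.rev i)) (D.φ 1) +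
              Matrix.single (Fin.rev i) (Fin.rev (Fin.rev i)) b0 := by
          rw [midM]; abel
        have hmem := Cfsg.Agent.Lib.Helper46.PsuROOTS.mid_exists D (Fin.rev i) k 1 b0 hik hkk hb0'
        have hD := hE _ hmem k (le_of_lt hk)
        rw [e, Matrix.mul_add, Matrix.mul_sub, Matrix.add_apply, Matrix.sub_apply,
          mul_single_entry, mul_single_entry, mul_single_entry] at hD
        simp only [e1, if_true, if_false] at hD
        have hE' := hE _ hmem i le_rfl
        rw [e, Matrix.mul_add, Matrix.mul_sub, Matrix.add_apply, Matrix.sub_apply,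
          mul_single_entry, mul_single_entry, mul_single_entry] at hE'
        simp only [e2, Fin.rev_rev, if_true, if_false, map_one] at hE'
        linear_combination -hE' + b0 * hD
      · -- k in the bottom half
        have h01 : Fin.rev i < Fin.rev k := by rw [Fin.lt_def, hrv, hrv]; omega
        have h02 : Fin.rev k < Fin.rev (Fin.rev i) := by
          rw [Fin.rev_rev, Fin.lt_def, hrv]; omega
        have h03 : Fin.rev k ≠ Fin.rev (Fin.rev k) := by
          rw [Fin.rev_rev]
          intro h
          have := congrArg Fin.val h
          rw [hrv] at this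
          omega
        have h := hE _ (Cfsg.Agent.Lib.Helper46.PsuROOTS.short_exists D (Fin.rev i) (Fin.rev k) 1
          h01 h02 h03) i le_rfl
        have e : shortM D n (Fin.rev i) (Fin.rev k) 1 - 1 =
            Matrix.single (Fin.rev i) (Fin.rev k) 1 -
              Matrix.single (Fin.rev (Fin.rev k)) (Fin.rev (Fin.rev i)) (D.φ 1) := by
          rw [shortM]; abel
        have e1 : i ≠ Fin.rev k := by
          intro h
          have := congrArg Fin.val h
          rw [hrv] at this
          omega
        rw [e, Matrix.mul_sub, Matrix.sub_apply, mul_single_entry, mul_single_entry] at h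
        simp only [e1, Fin.rev_rev, if_true, if_false, map_one] at h
        linear_combination -h
  intro i j hji
  exact key _ i rfl j hji

end Cfsg.Agent.Lib.Helper8.PsuNU
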