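import Mathlib

/-!
A simplicity criterion: a faithful transitive group on 100 points whose point stabiliser is
simple with orbits of sizes 1, 22, 77 is simple.
-/

set_option autoImplicit false

namespace Cfsg.Agent.Lib.Helper8.Rank3Simple

open MulAction

/-- A normal subgroup of such a group is trivial, the whole group, or of order 100. -/
theorem normal_cases {H : Type*} [Group H] [Finite H] {Ω : Type*} [Finite Ω] [MulAction H Ω]
    [FaithfulSMul H Ω] [IsPretransitive H Ω] (ω : Ω) (hΩ : Nat.card Ω = 100)
    (hsimple : IsSimpleGroup (stabilizer H ω))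
    (horb : ∀ S : Set Ω, ω ∈ S → (∀ h ∈ stabilizer H ω, ∀ s ∈ S, h • s ∈ S) →
      S.ncard = 1 ∨ S.ncard = 23 ∨ S.ncard = 78 ∨ S.ncard = 100)
    (h23 : ¬ 23 ∣ Nat.card H) (h13 : ¬ 13 ∣ Nat.card H) (K : Subgroup H) (hK : K.Normal) :
    K = ⊥ ∨ K = ⊤ ∨ Nat.card K = 100 := by
  have hidx : (stabilizer H ω).index = 100 := by
    rw [index_stabilizer_of_transitive, hΩ]
  have hcardH : Nat.card (stabilizer H ω) * 100 = Nat.card H := by
    rw [← hidx]
    exact Subgroup.card_mul_index _
  have hSt1 : 1 < Nat.card (stabilizer H ω) :=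
    Finite.one_lt_card_iff_nontrivial.2 hsimple.toNontrivial
  have hinv : ∀ h ∈ stabilizer H ω, ∀ s ∈ orbit K ω, h • s ∈ orbit K ω := by
    rintro h hh _ ⟨k, rfl⟩
    refine ⟨⟨h * k * h⁻¹, hK.conj_mem k k.2 h⟩, ?_⟩
    show (h * (k : H) * h⁻¹) • ω = h • ((k : H) • ω)
    have hω : h⁻¹ • ω = ω := by
      rw [inv_smul_eq_iff]
      exact (mem_stabilizer_iff.1 hh).symm
    rw [mul_smul, mul_smul, hω]
  have hS := horb (orbit K ω) (mem_orbit_self ω) hinv
  have hos : Nat.card (stabilizer K ω) * (orbit K ω).ncard = Nat.card K := by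
    rw [← index_stabilizer]
    exact Subgroup.card_mul_index _
  have hdvd : Nat.card K ∣ Nat.card H := Subgroup.card_subgroup_dvd_card K
  have hnorm : (K.subgroupOf (stabilizer H ω)).Normal := hK.subgroupOf _
  rcases hsimple.eq_bot_or_eq_top_of_normal (K.subgroupOf (stabilizer H ω)) hnorm with
    hbot | htop
  · rw [Subgroup.subgroupOf_eq_bot, Subgroup.disjoint_def] at hbot
    have hstab : stabilizer K ω = ⊥ := by
      rw [Subgroup.eq_bot_iff_forall]
      intro k hk
      have hk' : (k : H) • ω = ω := mem_stabilizer_iff.1 hk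
      exact Subtype.ext (hbot k.2 (mem_stabilizer_iff.2 hk'))
    rw [hstab, Subgroup.card_bot, one_mul] at hos
    rw [hos] at hS
    rcases hS with h | h | h | h
    · exact Or.inl (Subgroup.eq_bot_of_card_eq K h)
    · rw [h] at hdvd
      exact absurd hdvd h23
    · rw [h] at hdvd
      exact absurd (Dvd.dvd.trans (by norm_num : 13 ∣ 78) hdvd) h13
    · exact Or.inr (Or.inr h)
  · rw [Subgroup.subgroupOf_eq_top] at htop
    have hstab : Nat.card (stabilizer K ω) = Nat.card (stabilizer H ω) :=
      Nat.card_congr ⟨fun k => ⟨k.1.1, k.2⟩, fun s => ⟨⟨s.1, htop s.2⟩, s.2⟩,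
        fun _ => rfl, fun _ => rfl⟩
    rw [hstab] at hos
    have hn : (orbit K ω).ncard ∣ 100 := by
      rw [← hos, ← hcardH] at hdvd
      exact Nat.dvd_of_mul_dvd_mul_left (by omega) hdvd
    rcases hS with h | h | h | h
    · exfalso
      rw [h, mul_one] at hos
      have hKS : stabilizer H ω = K := Subgroup.eq_of_le_of_card_ge htop (by rw [hos])
      have hN : (stabilizer H ω).Normal := by
        rw [hKS]
        exact hK
      have htriv : ∀ h ∈ stabilizer H ω, h = 1 := by
        intro h hh
        apply FaithfulSMul.eq_of_smul_eq_smul (α := Ω)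
        intro y
        obtain ⟨g, rfl⟩ := exists_smul_eq H ω y
        have h1 := hN.conj_mem h hh g⁻¹
        rw [inv_inv] at h1
        have h2 : (g⁻¹ * h * g) • ω = ω := mem_stabilizer_iff.1 h1
        rw [mul_smul, mul_smul, inv_smul_eq_iff] at h2
        rw [h2, one_smul]
      have hbot : stabilizer H ω = ⊥ := (Subgroup.eq_bot_iff_forall _).2 htriv
      rw [hbot, Subgroup.card_bot] at hSt1
      omega
    · rw [h] at hn
      omega
    · rw [h] at hn
      omega
    · rw [h] at hos
      exact Or.inr (Or.inl ((Subgroup.card_eq_iff_eq_top K).1 (by rw [← hos, hcardH])))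

/-- The simplicity criterion. -/
theorem simple_of_rank3 {H : Type*} [Group H] [Finite H] {Ω : Type*} [Finite Ω] [MulAction H Ω]
    [FaithfulSMul H Ω] [IsPretransitive H Ω] (ω : Ω) (hΩ : Nat.card Ω = 100)
    (hsimple : IsSimpleGroup (stabilizer H ω))
    (horb : ∀ S : Set Ω, ω ∈ S → (∀ h ∈ stabilizer H ω, ∀ s ∈ S, h • s ∈ S) →
      S.ncard = 1 ∨ S.ncard = 23 ∨ S.ncard = 78 ∨ S.ncard = 100)
    (h23 : ¬ 23 ∣ Nat.card H) (h13 : ¬ 13 ∣ Nat.card H) : IsSimpleGroup H := by
  have hidx : (stabilizer H ω).index = 100 := by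
    rw [index_stabilizer_of_transitive, hΩ]
  have hcardH : Nat.card (stabilizer H ω) * 100 = Nat.card H := by
    rw [← hidx]
    exact Subgroup.card_mul_index _
  have hSt1 : 1 < Nat.card (stabilizer H ω) :=
    Finite.one_lt_card_iff_nontrivial.2 hsimple.toNontrivial
  have hnt : Nontrivial H := Finite.one_lt_card_iff_nontrivial.1 (by omega)
  refine ⟨fun K hK => ?_⟩
  rcases normal_cases ω hΩ hsimple horb h23 h13 K hK with h | h | h
  · exact Or.inl h
  · exact Or.inr h
  · exfalso
    have : Fact (Nat.Prime 5) := ⟨by norm_num⟩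
    have := hK
    obtain ⟨P⟩ := (inferInstance : Nonempty (Sylow 5 K))
    have hmul := Subgroup.card_mul_index (P : Subgroup K)
    rw [h] at hmul
    obtain ⟨n, hn⟩ := IsPGroup.iff_card.1 P.isPGroup'
    have hnd := P.not_dvd_index
    rw [hn] at hmul
    have hn2 : n = 2 := by
      have hle : n ≤ 2 := by
        by_contra hgt
        have h3 : 5 ^ 3 ∣ 5 ^ n := pow_dvd_pow 5 (by omega)
        have h4 : 5 ^ 3 ∣ 100 := by
          rw [← hmul]
          exact Dvd.dvd.mul_right h3 _
        omega
      interval_cases n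
      · exfalso
        apply hnd
        rw [show (P : Subgroup K).index = 100 by omega]
        norm_num
      · exfalso
        apply hnd
        rw [show (P : Subgroup K).index = 20 by omega]
        norm_num
      · rfl
    rw [hn2] at hmul hn
    have hi4 : (P : Subgroup K).index = 4 := by omega
    have h1 := card_sylow_modEq_one 5 K
    have h2 := P.card_dvd_index
    rw [hi4] at h2
    have h3 : Nat.card (Sylow 5 K) = 1 := by
      have hle : Nat.card (Sylow 5 K) ≤ 4 := Nat.le_of_dvd (by norm_num) h2
      have hmod : Nat.card (Sylow 5 K) % 5 = 1 := h1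
      interval_cases hc : Nat.card (Sylow 5 K) <;> omega
    have : Subsingleton (Sylow 5 K) := (Nat.card_eq_one_iff_unique.1 h3).1
    have : (P : Subgroup K).Characteristic := Sylow.characteristic_of_subsingleton P
    have hQ : ((P : Subgroup K).map K.subtype).Normal :=
      ConjAct.normal_of_characteristic_of_normal
    have hQcard : Nat.card ((P : Subgroup K).map K.subtype) = 25 := by
      rw [Subgroup.card_map_of_injective K.subtype_injective, hn]
      norm_num
    rcases normal_cases ω hΩ hsimple horb h23 h13 _ hQ with h5 | h5 | h5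
    · rw [h5, Subgroup.card_bot] at hQcard
      omega
    · rw [h5, Subgroup.card_top] at hQcard
      omega
    · omega

end Cfsg.Agent.Lib.Helper8.Rank3Simple
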