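import Mathlib
import Cfsg.Agent.Lib.Helper54.S52Stmt

set_option autoImplicit false

/-!
helper8: piece CONJK of S1352: a `q`-element of `E` is conjugate into a subgroup `K` of index
prime to `q`; if `K` is abelian it then centralises every subgroup `R0 ≤ K` normal in `E`.
-/

namespace Cfsg.Agent.Lib.Helper8.S52CONJK

universe u

variable {G : Type u} [Group G]

/-- A `q`-element of a finite group `E` is conjugate into any subgroup of index prime to `q`. -/
theorem exists_conj_mem [Finite G] (K : Subgroup G) {q k : ℕ} (hq : q.Prime) (hK : ¬ q ∣ K.index)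
    (y : G) (hy : orderOf y = q ^ k) : ∃ g : G, g⁻¹ * y * g ∈ K := by
  haveI : Fact q.Prime := ⟨hq⟩
  have hP : IsPGroup q (Subgroup.zpowers y) := by
    apply IsPGroup.of_card (n := k)
    rw [Nat.card_zpowers, hy]
  have hcard : ¬ q ∣ Nat.card (G ⧸ K) := by
    rw [← Subgroup.index_eq_card]; exact hK
  obtain ⟨x, hx⟩ := hP.nonempty_fixed_point_of_prime_not_dvd_card (G ⧸ K) hcard
  obtain ⟨g, rfl⟩ := QuotientGroup.mk_surjective x
  refine ⟨g, ?_⟩
  have h1 := hx ⟨y, Subgroup.mem_zpowers y⟩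
  have h2 : (QuotientGroup.mk (y * g) : G ⧸ K) = QuotientGroup.mk g := h1
  rw [QuotientGroup.eq] at h2
  have h3 := K.inv_mem h2
  have h4 : ((y * g)⁻¹ * g)⁻¹ = g⁻¹ * y * g := by group
  rw [h4] at h3
  exact h3

theorem main : Cfsg.Agent.Lib.Helper54.S52Stmt.ConjK.{u} := by
  intro G _ _ E K R0 q k y hq hKE hKab hqK hRK hEN hyE hyo u hu
  -- work inside `E`
  have hidx : ¬ q ∣ (K.subgroupOf E).index := hqK
  have hyo' : orderOf (⟨y, hyE⟩ : E) = q ^ k := by
    rw [← hyo]; exact Subgroup.orderOf_mk y hyE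
  obtain ⟨⟨g, hgE⟩, hg⟩ := exists_conj_mem (K.subgroupOf E) hq hidx ⟨y, hyE⟩ hyo'
  have hw : g⁻¹ * y * g ∈ K := hg
  -- `g⁻¹ u g ∈ R0`
  have hu' : g⁻¹ * u * g ∈ R0 := by
    have := (Subgroup.mem_normalizer_iff.mp (hEN (E.inv_mem hgE)) u).mp hu
    simpa using this
  have hc := hKab _ hw _ (hRK hu')
  -- `(g⁻¹ y g)(g⁻¹ u g) = (g⁻¹ u g)(g⁻¹ y g)`
  have h1 : g⁻¹ * (y * u) * g = g⁻¹ * (u * y) * g := by
    have e1 : g⁻¹ * (y * u) * g = g⁻¹ * y * g * (g⁻¹ * u * g) := by group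
    have e2 : g⁻¹ * (u * y) * g = g⁻¹ * u * g * (g⁻¹ * y * g) := by group
    rw [e1, e2, hc]
  exact mul_left_cancel (mul_right_cancel h1)

end Cfsg.Agent.Lib.Helper8.S52CONJK
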