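import Mathlib
import Cfsg.Agent.Lib.Helper54.S52Stmt

set_option autoImplicit false

/-!
helper8: piece XCOP of S1352 (order of `C R0 ⟨y⟩`), with two reusable lemmas on joins of
subgroups one of which normalises the other.
-/

namespace Cfsg.Agent.Lib.Helper8.S52XCOP

universe u

variable {G : Type u} [Group G]

/-- Products `h * k` exhaust `H ⊔ K` when `K` normalises `H`. -/
theorem exists_mul_of_mem_sup {H K : Subgroup G} (hK : K ≤ Subgroup.normalizer (H : Set G))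
    {x : G} (hx : x ∈ H ⊔ K) : ∃ h ∈ H, ∃ k ∈ K, x = h * k := by
  have hcj : ∀ k ∈ K, ∀ h ∈ H, k * h * k⁻¹ ∈ H := fun k hk h hh =>
    (Subgroup.mem_normalizer_iff.mp (hK hk) h).mp hh
  let M : Subgroup G :=
    { carrier := {x | ∃ h ∈ H, ∃ k ∈ K, x = h * k}
      one_mem' := ⟨1, H.one_mem, 1, K.one_mem, by simp⟩
      mul_mem' := by
        rintro _ _ ⟨h1, hh1, k1, hk1, rfl⟩ ⟨h2, hh2, k2, hk2, rfl⟩
        refine ⟨h1 * (k1 * h2 * k1⁻¹), H.mul_mem hh1 (hcj k1 hk1 h2 hh2), k1 * k2,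
          K.mul_mem hk1 hk2, by group⟩
      inv_mem' := by
        rintro _ ⟨h, hh, k, hk, rfl⟩
        refine ⟨k⁻¹ * h⁻¹ * k⁻¹⁻¹, hcj k⁻¹ (K.inv_mem hk) _ (H.inv_mem hh), k⁻¹, K.inv_mem hk,
          by group⟩ }
  have h1 : H ≤ M := fun h hh => ⟨h, hh, 1, K.one_mem, by simp⟩
  have h2 : K ≤ M := fun k hk => ⟨1, H.one_mem, k, hk, by simp⟩
  exact (sup_le h1 h2) hx

/-- The order of `H ⊔ K` divides `|H| * |K|` when `K` normalises `H`. -/
theorem card_sup_dvd [Finite G] {H K : Subgroup G} (hK : K ≤ Subgroup.normalizer (H : Set G)) :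
    Nat.card ↥(H ⊔ K) ∣ Nat.card H * Nat.card K := by
  have hN : H ⊔ K ≤ Subgroup.normalizer (H : Set G) := sup_le Subgroup.le_normalizer hK
  haveI : (H.subgroupOf (H ⊔ K)).Normal := Subgroup.normal_subgroupOf_of_le_normalizer hN
  have h1 : Nat.card (H.subgroupOf (H ⊔ K)) = Nat.card H :=
    Nat.card_congr (Subgroup.subgroupOfEquivOfLe (le_sup_left : H ≤ H ⊔ K)).toEquiv
  have h2 := Subgroup.card_mul_index (H.subgroupOf (H ⊔ K))
  rw [h1] at h2
  rw [← h2]
  apply Nat.mul_dvd_mul_left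
  rw [Subgroup.index_eq_card]
  let f : K →* ↥(H ⊔ K) ⧸ H.subgroupOf (H ⊔ K) :=
    (QuotientGroup.mk' (H.subgroupOf (H ⊔ K))).comp (Subgroup.inclusion (le_sup_right : K ≤ H ⊔ K))
  apply Subgroup.card_dvd_of_surjective f
  intro q
  obtain ⟨⟨x, hx⟩, rfl⟩ := QuotientGroup.mk'_surjective _ q
  obtain ⟨h, hh, k, hk, rfl⟩ := exists_mul_of_mem_sup hK hx
  refine ⟨⟨k, hk⟩, ?_⟩
  change (QuotientGroup.mk (Subgroup.inclusion (le_sup_right : K ≤ H ⊔ K) ⟨k, hk⟩) :
    ↥(H ⊔ K) ⧸ H.subgroupOf (H ⊔ K)) = QuotientGroup.mk ⟨h * k, hx⟩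
  rw [QuotientGroup.eq, Subgroup.mem_subgroupOf]
  have : ((Subgroup.inclusion (le_sup_right : K ≤ H ⊔ K) ⟨k, hk⟩)⁻¹ * ⟨h * k, hx⟩ : ↥(H ⊔ K)).1
      = k⁻¹ * (h * k) := rfl
  rw [this]
  have h3 := (Subgroup.mem_normalizer_iff.mp (hK (K.inv_mem hk)) h).mp hh
  simpa [mul_assoc] using h3

/-- An element normalising two subgroups normalises their join. -/
theorem mem_normalizer_sup {A B : Subgroup G} {g : G}
    (hA : g ∈ Subgroup.normalizer (A : Set G)) (hB : g ∈ Subgroup.normalizer (B : Set G)) :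
    g ∈ Subgroup.normalizer ((A ⊔ B : Subgroup G) : Set G) := by
  have key : ∀ t : G, t ∈ Subgroup.normalizer (A : Set G) → t ∈ Subgroup.normalizer (B : Set G) →
      ∀ x ∈ A ⊔ B, t * x * t⁻¹ ∈ A ⊔ B := by
    intro t htA htB x hx
    have hle : A ⊔ B ≤ (A ⊔ B).comap (MulAut.conj t).toMonoidHom := by
      refine sup_le ?_ ?_
      · intro a ha
        exact Subgroup.mem_sup_left ((Subgroup.mem_normalizer_iff.mp htA a).mp ha)
      · intro b hb
        exact Subgroup.mem_sup_right ((Subgroup.mem_normalizer_iff.mp htB b).mp hb)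
    exact hle hx
  rw [Subgroup.mem_normalizer_iff]
  intro x
  constructor
  · exact key g hA hB x
  · intro hx
    have := key g⁻¹ (Subgroup.inv_mem _ hA) (Subgroup.inv_mem _ hB) _ hx
    simpa [mul_assoc] using this

theorem main : Cfsg.Agent.Lib.Helper54.S52Stmt.XCop.{u} := by
  intro G _ _ C R0 y hcomm hyC hyR
  have hR : R0 ≤ Subgroup.normalizer (C : Set G) := by
    intro u hu
    rw [Subgroup.mem_normalizer_iff]
    intro c
    constructor
    · intro hc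
      have : u * c * u⁻¹ = c := by rw [← hcomm c hc u hu, mul_inv_cancel_right]
      rw [this]; exact hc
    · intro hc
      have h1 : u⁻¹ * (u * c * u⁻¹) * u = c := by group
      have h2 := hcomm _ hc u⁻¹ (R0.inv_mem hu)
      have : u * c * u⁻¹ = c := by
        have h3 : u⁻¹ * (u * c * u⁻¹) = c * u⁻¹ := by group
        rw [← h2] at h3
        exact mul_right_cancel h3
      rw [← this]; exact hc
  have h1 : Nat.card ↥(C ⊔ R0) ∣ Nat.card C * Nat.card R0 := card_sup_dvd hR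
  have hy : Subgroup.zpowers y ≤ Subgroup.normalizer ((C ⊔ R0 : Subgroup G) : Set G) := by
    rw [Subgroup.zpowers_le]
    exact mem_normalizer_sup hyC hyR
  have h2 : Nat.card ↥(C ⊔ R0 ⊔ Subgroup.zpowers y) ∣ Nat.card ↥(C ⊔ R0) * Nat.card (Subgroup.zpowers y) :=
    card_sup_dvd hy
  rw [Nat.card_zpowers] at h2
  exact h2.trans (Nat.mul_dvd_mul_right h1 _)

end Cfsg.Agent.Lib.Helper8.S52XCOP
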