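import Mathlib

set_option autoImplicit false

namespace Cfsg.Agent.Lib.Helper8.SelfDual24

open Finset

/-- A vector orthogonal to a self-orthogonal code of dimension 12 in length 24 lies in it. -/
theorem mem_of_orth (C : Submodule (ZMod 2) (Fin 24 → ZMod 2))
    (hdim : Module.finrank (ZMod 2) C = 12)
    (horth : ∀ v ∈ C, ∀ w ∈ C, ∑ i, v i * w i = 0)
    (v : Fin 24 → ZMod 2) (hv : ∀ c ∈ C, ∑ i, c i * v i = 0) : v ∈ C := by
  let B : LinearMap.BilinForm (ZMod 2) (Fin 24 → ZMod 2) := Matrix.toBilin' 1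
  have hB : B.Nondegenerate := LinearMap.BilinForm.nondegenerate_toBilin'_of_det_ne_zero' _ (by simp)
  have hBapp : ∀ x y : Fin 24 → ZMod 2, B x y = ∑ i, x i * y i := by
    intro x y
    simp [B, Matrix.toBilin'_apply', dotProduct]
  have hle : C ≤ B.orthogonal C := by
    intro w hw
    rw [LinearMap.BilinForm.mem_orthogonal_iff]
    intro c hc
    show B c w = 0
    rw [hBapp]
    exact horth c hc w hw
  have hfin : Module.finrank (ZMod 2) (B.orthogonal C) = 12 := by
    rw [LinearMap.BilinForm.finrank_orthogonal hB, hdim]; simp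
  have heq : C = B.orthogonal C := Submodule.eq_of_le_of_finrank_eq hle (by rw [hdim, hfin])
  rw [heq, LinearMap.BilinForm.mem_orthogonal_iff]
  intro c hc
  show B c v = 0
  rw [hBapp]
  exact hv c hc

/-- Restriction of codewords to a set of coordinates. -/
def res (C : Submodule (ZMod 2) (Fin 24 → ZMod 2)) (S : Finset (Fin 24)) :
    C →ₗ[ZMod 2] (S → ZMod 2) where
  toFun c := fun s => c.1 s
  map_add' _ _ := rfl
  map_smul' _ _ := rfl

theorem res_range (C : Submodule (ZMod 2) (Fin 24 → ZMod 2))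
    (hdim : Module.finrank (ZMod 2) C = 12)
    (horth : ∀ v ∈ C, ∀ w ∈ C, ∑ i, v i * w i = 0)
    (hmin : ∀ w ∈ C, w ≠ 0 → 8 ≤ hammingNorm w)
    (S : Finset (Fin 24)) (hS : S.card ≤ 7) :
    LinearMap.range (res C S) = ⊤ := by
  classical
  by_contra hne
  obtain ⟨f, hf0, hf⟩ := Submodule.exists_le_ker_of_lt_top _ (lt_top_iff_ne_top.2 hne)
  let a : Fin 24 → ZMod 2 := fun i => if h : i ∈ S then f (Pi.single ⟨i, h⟩ 1) else 0
  have haS : ∀ s : S, a s.1 = f (Pi.single s 1) := by
    intro s
    simp only [a, dif_pos s.2]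
  have ha : a ∈ C := by
    apply mem_of_orth C hdim horth
    intro c hc
    have h1 : f (res C S ⟨c, hc⟩) = 0 := hf ⟨_, rfl⟩
    have h2 : res C S ⟨c, hc⟩ = ∑ s : S, (c s) • (Pi.single s 1 : S → ZMod 2) := by
      ext t
      simp [res, Finset.sum_apply, Pi.single_apply]
    rw [h2, map_sum] at h1
    simp only [map_smul, smul_eq_mul] at h1
    rw [← h1]
    have h3 : ∑ i, c i * a i = ∑ i ∈ S, c i * a i := by
      symm
      apply Finset.sum_subset (Finset.subset_univ S)
      intro i _ hi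
      simp [a, hi]
    rw [h3, ← Finset.sum_coe_sort S]
    apply Finset.sum_congr rfl
    intro s _
    rw [haS]
  have ha0 : a ≠ 0 := by
    intro h0
    apply hf0
    apply LinearMap.pi_ext
    intro s x
    have : (Pi.single s x : S → ZMod 2) = x • Pi.single s 1 := by
      ext t
      simp [Pi.single_apply]
    rw [this, map_smul, ← haS, h0]
    simp
  have hwt : hammingNorm a ≤ S.card := by
    unfold hammingNorm
    apply Finset.card_le_card
    intro i hi
    simp only [Finset.mem_filter, Finset.mem_univ, true_and] at hi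
    by_contra hiS
    exact hi (by simp [a, hiS])
  have := hmin a ha ha0
  omega

/-- The words of the code as a finset. -/
noncomputable def words (C : Submodule (ZMod 2) (Fin 24 → ZMod 2)) :
    Finset (Fin 24 → ZMod 2) :=
  haveI : DecidablePred (· ∈ C) := Classical.decPred _
  Finset.univ.filter (· ∈ C)

@[simp] theorem mem_words {C : Submodule (ZMod 2) (Fin 24 → ZMod 2)} {c : Fin 24 → ZMod 2} :
    c ∈ words C ↔ c ∈ C := by
  simp [words]

theorem card_vanish (C : Submodule (ZMod 2) (Fin 24 → ZMod 2))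
    (hdim : Module.finrank (ZMod 2) C = 12)
    (horth : ∀ v ∈ C, ∀ w ∈ C, ∑ i, v i * w i = 0)
    (hmin : ∀ w ∈ C, w ≠ 0 → 8 ≤ hammingNorm w)
    (S : Finset (Fin 24)) (hS : S.card ≤ 7) :
    ((words C).filter (fun c => ∀ i ∈ S, c i = 0)).card = 2 ^ (12 - S.card) := by
  classical
  have hr := res_range C hdim horth hmin S hS
  have hrk := LinearMap.finrank_range_add_finrank_ker (res C S)
  rw [hr, finrank_top, Module.finrank_fintype_fun_eq_card, Fintype.card_coe, hdim] at hrk
  have hk : Module.finrank (ZMod 2) (LinearMap.ker (res C S)) = 12 - S.card := by omega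
  have hcard : Fintype.card (LinearMap.ker (res C S)) = 2 ^ (12 - S.card) := by
    rw [Module.card_eq_pow_finrank (K := ZMod 2), ZMod.card, hk]
  rw [← hcard, ← Finset.card_univ]
  symm
  apply Finset.card_bij (fun k _ => k.1.1)
  · intro k _
    simp only [Finset.mem_filter, mem_words]
    refine ⟨k.1.2, ?_⟩
    intro i hi
    have := k.2
    rw [LinearMap.mem_ker] at this
    exact congrFun this ⟨i, hi⟩
  · intro k _ k' _ h
    exact Subtype.ext (Subtype.ext h)
  · intro c hc
    simp only [Finset.mem_filter, mem_words] at hc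
    refine ⟨⟨⟨c, hc.1⟩, ?_⟩, Finset.mem_univ _, rfl⟩
    rw [LinearMap.mem_ker]
    ext s
    exact hc.2 s.1 s.2

theorem moment (C : Submodule (ZMod 2) (Fin 24 → ZMod 2))
    (hdim : Module.finrank (ZMod 2) C = 12)
    (horth : ∀ v ∈ C, ∀ w ∈ C, ∑ i, v i * w i = 0)
    (hmin : ∀ w ∈ C, w ≠ 0 → 8 ≤ hammingNorm w)
    (ν : ℕ) (hν : ν ≤ 7) :
    ∑ c ∈ words C, (24 - hammingNorm c).choose ν = (24).choose ν * 2 ^ (12 - ν) := by
  classical
  let r : (Fin 24 → ZMod 2) → Finset (Fin 24) → Prop := fun c S => ∀ i ∈ S, c i = 0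
  have key := sum_card_bipartiteAbove_eq_sum_card_bipartiteBelow
    (s := words C) (t := powersetCard ν univ) r
  have hL : ∀ c ∈ words C, #((powersetCard ν univ).bipartiteAbove r c)
      = (24 - hammingNorm c).choose ν := by
    intro c _
    have h1 : (powersetCard ν univ).bipartiteAbove r c
        = powersetCard ν (univ.filter (fun i => c i = 0)) := by
      ext S
      simp only [mem_bipartiteAbove, mem_powersetCard, r]
      constructor
      · rintro ⟨⟨_, h2⟩, h3⟩
        exact ⟨fun i hi => by simp [h3 i hi], h2⟩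
      · rintro ⟨h1, h2⟩
        exact ⟨⟨subset_univ _, h2⟩, fun i hi => by simpa using h1 hi⟩
    rw [h1, card_powersetCard]
    congr 1
    have h2 : (univ.filter (fun i => c i = 0)) = (univ.filter (fun i => c i ≠ 0))ᶜ := by
      ext i; simp
    rw [h2, card_compl]
    simp [hammingNorm]
  have hR : ∀ S ∈ powersetCard ν univ, #((words C).bipartiteBelow r S) = 2 ^ (12 - ν) := by
    intro S hS
    rw [mem_powersetCard] at hS
    have := card_vanish C hdim horth hmin S (by rw [hS.2]; exact hν)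
    rw [hS.2] at this
    exact this
  rw [sum_congr rfl hL, sum_congr rfl hR] at key
  rw [key, sum_const, card_powersetCard, card_univ, Fintype.card_fin, smul_eq_mul]

theorem sum_eq_norm (c : Fin 24 → ZMod 2) : ∑ i, c i = (hammingNorm c : ZMod 2) := by
  unfold hammingNorm
  rw [Finset.natCast_card_filter]
  have key : ∀ x : ZMod 2, x = if x ≠ 0 then 1 else 0 := by decide
  apply Finset.sum_congr rfl
  intro i _
  exact key (c i)

theorem even_norm (C : Submodule (ZMod 2) (Fin 24 → ZMod 2))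
    (horth : ∀ v ∈ C, ∀ w ∈ C, ∑ i, v i * w i = 0)
    {c : Fin 24 → ZMod 2} (hc : c ∈ C) : 2 ∣ hammingNorm c := by
  have h := horth c hc c hc
  have key : ∀ x : ZMod 2, x * x = x := by decide
  have h2 : ∑ i, c i * c i = ∑ i, c i := by
    apply Finset.sum_congr rfl
    intro i _
    exact key (c i)
  rw [h2, sum_eq_norm] at h
  exact (ZMod.natCast_eq_zero_iff _ 2).1 h

theorem one_mem (C : Submodule (ZMod 2) (Fin 24 → ZMod 2))
    (hdim : Module.finrank (ZMod 2) C = 12)
    (horth : ∀ v ∈ C, ∀ w ∈ C, ∑ i, v i * w i = 0) : (1 : Fin 24 → ZMod 2) ∈ C := by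
  apply mem_of_orth C hdim horth
  intro c hc
  simp only [Pi.one_apply, mul_one]
  rw [sum_eq_norm]
  exact (ZMod.natCast_eq_zero_iff _ 2).2 (even_norm C horth hc)

theorem norm_one_add (c : Fin 24 → ZMod 2) : hammingNorm (1 + c) = 24 - hammingNorm c := by
  unfold hammingNorm
  have h2 : (univ.filter (fun i => (1 + c) i ≠ 0)) = (univ.filter (fun i => c i ≠ 0))ᶜ := by
    ext i
    simp only [Pi.add_apply, Pi.one_apply, mem_filter, mem_univ, true_and, mem_compl, not_not]
    have key : ∀ x : ZMod 2, 1 + x ≠ 0 ↔ x = 0 := by decide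
    exact key (c i)
  rw [h2, card_compl]
  simp

theorem one_add_one_add (c : Fin 24 → ZMod 2) : 1 + (1 + c) = c := by
  funext i
  simp only [Pi.add_apply, Pi.one_apply]
  have key : ∀ x : ZMod 2, 1 + (1 + x) = x := by decide
  exact key (c i)

theorem norm_cases (C : Submodule (ZMod 2) (Fin 24 → ZMod 2))
    (hdim : Module.finrank (ZMod 2) C = 12)
    (horth : ∀ v ∈ C, ∀ w ∈ C, ∑ i, v i * w i = 0)
    (hmin : ∀ w ∈ C, w ≠ 0 → 8 ≤ hammingNorm w)
    {c : Fin 24 → ZMod 2} (hc : c ∈ C) :
    hammingNorm c = 0 ∨ hammingNorm c = 8 ∨ hammingNorm c = 10 ∨ hammingNorm c = 12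
      ∨ hammingNorm c = 14 ∨ hammingNorm c = 16 ∨ hammingNorm c = 24 := by
  have hev := even_norm C horth hc
  have h1 := norm_one_add c
  by_cases h0 : c = 0
  · left; rw [h0]; exact hammingNorm_zero
  by_cases h1c : 1 + c = 0
  · rw [h1c, hammingNorm_zero] at h1
    have : hammingNorm c ≤ 24 := by
      unfold hammingNorm
      exact (Finset.card_le_univ _).trans (by simp)
    omega
  have h8 := hmin c hc h0
  have h8' := hmin (1 + c) (C.add_mem (one_mem C hdim horth) hc) h1c
  omega

/-- Number of words of a given weight. -/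
noncomputable def N (C : Submodule (ZMod 2) (Fin 24 → ZMod 2)) (w : ℕ) : ℕ :=
  ((words C).filter (fun c => hammingNorm c = w)).card

theorem N_zero (C : Submodule (ZMod 2) (Fin 24 → ZMod 2)) : N C 0 = 1 := by
  unfold N
  rw [Finset.card_eq_one]
  refine ⟨0, ?_⟩
  ext c
  simp only [mem_filter, mem_words, mem_singleton, hammingNorm_eq_zero]
  constructor
  · exact fun h => h.2
  · rintro rfl; exact ⟨C.zero_mem, rfl⟩

theorem N_compl (C : Submodule (ZMod 2) (Fin 24 → ZMod 2))
    (hdim : Module.finrank (ZMod 2) C = 12)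
    (horth : ∀ v ∈ C, ∀ w ∈ C, ∑ i, v i * w i = 0) (w : ℕ) (hw : w ≤ 24) :
    N C (24 - w) = N C w := by
  unfold N
  symm
  apply Finset.card_bij (fun c _ => 1 + c)
  · intro c hc
    simp only [mem_filter, mem_words] at hc ⊢
    exact ⟨C.add_mem (one_mem C hdim horth) hc.1, by rw [norm_one_add, hc.2]⟩
  · intro c _ c' _ h
    exact add_left_cancel h
  · intro d hd
    simp only [mem_filter, mem_words] at hd
    refine ⟨1 + d, ?_, one_add_one_add d⟩
    simp only [mem_filter, mem_words]
    exact ⟨C.add_mem (one_mem C hdim horth) hd.1, by rw [norm_one_add, hd.2]; omega⟩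

theorem sum_norm (C : Submodule (ZMod 2) (Fin 24 → ZMod 2))
    (hdim : Module.finrank (ZMod 2) C = 12)
    (horth : ∀ v ∈ C, ∀ w ∈ C, ∑ i, v i * w i = 0)
    (hmin : ∀ w ∈ C, w ≠ 0 → 8 ≤ hammingNorm w) (g : ℕ → ℕ) :
    ∑ c ∈ words C, g (hammingNorm c)
      = N C 0 * g 0 + N C 8 * g 8 + N C 10 * g 10 + N C 12 * g 12 + N C 14 * g 14
        + N C 16 * g 16 + N C 24 * g 24 := by
  classical
  have hmaps : ∀ c ∈ words C, hammingNorm c ∈ ({0, 8, 10, 12, 14, 16, 24} : Finset ℕ) := by
    intro c hc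
    rw [mem_words] at hc
    have := norm_cases C hdim horth hmin hc
    simp only [mem_insert, mem_singleton]
    exact this
  rw [← Finset.sum_fiberwise_of_maps_to hmaps]
  have hin : ∀ w : ℕ, ∑ c ∈ (words C).filter (fun c => hammingNorm c = w), g (hammingNorm c)
      = N C w * g w := by
    intro w
    rw [Finset.sum_congr rfl (fun c hc => by rw [(mem_filter.1 hc).2] : ∀ c ∈ (words C).filter
      (fun c => hammingNorm c = w), g (hammingNorm c) = g w), sum_const, smul_eq_mul]
    rfl
  simp only [hin]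
  simp [Finset.sum_insert]
  ring

theorem weights (C : Submodule (ZMod 2) (Fin 24 → ZMod 2))
    (hdim : Module.finrank (ZMod 2) C = 12)
    (horth : ∀ v ∈ C, ∀ w ∈ C, ∑ i, v i * w i = 0)
    (hmin : ∀ w ∈ C, w ≠ 0 → 8 ≤ hammingNorm w) :
    N C 8 = 759 ∧ N C 10 = 0 ∧ N C 12 = 2576 ∧ N C 14 = 0 ∧ N C 16 = 759 ∧ N C 24 = 1 := by
  have e0 := moment C hdim horth hmin 0 (by norm_num)
  have e2 := moment C hdim horth hmin 2 (by norm_num)
  have e4 := moment C hdim horth hmin 4 (by norm_num)
  rw [sum_norm C hdim horth hmin (fun n => (24 - n).choose 0)] at e0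
  rw [sum_norm C hdim horth hmin (fun n => (24 - n).choose 2)] at e2
  rw [sum_norm C hdim horth hmin (fun n => (24 - n).choose 4)] at e4
  have h0 := N_zero C
  have h24 := N_compl C hdim horth 0 (by norm_num)
  have h16 := N_compl C hdim horth 8 (by norm_num)
  have h14 := N_compl C hdim horth 10 (by norm_num)
  have c1 : Nat.choose 24 2 = 276 := by decide
  have c2 : Nat.choose 16 2 = 120 := by decide
  have c3 : Nat.choose 14 2 = 91 := by decide
  have c4 : Nat.choose 12 2 = 66 := by decide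
  have c5 : Nat.choose 10 2 = 45 := by decide
  have c6 : Nat.choose 8 2 = 28 := by decide
  have d1 : Nat.choose 24 4 = 10626 := by decide
  have d2 : Nat.choose 16 4 = 1820 := by decide
  have d3 : Nat.choose 14 4 = 1001 := by decide
  have d4 : Nat.choose 12 4 = 495 := by decide
  have d5 : Nat.choose 10 4 = 210 := by decide
  have d6 : Nat.choose 8 4 = 70 := by decide
  simp only [Nat.reduceSub, Nat.choose_zero_right, c1, c2, c3, c4, c5, c6, d1, d2, d3, d4, d5, d6,
    Nat.reducePow] at e0 e2 e4 h24 h16 h14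
  have z2 : Nat.choose 0 2 = 0 := by decide
  have z4 : Nat.choose 0 4 = 0 := by decide
  rw [z2] at e2
  rw [z4] at e4
  omega

theorem norm_cases' (C : Submodule (ZMod 2) (Fin 24 → ZMod 2))
    (hdim : Module.finrank (ZMod 2) C = 12)
    (horth : ∀ v ∈ C, ∀ w ∈ C, ∑ i, v i * w i = 0)
    (hmin : ∀ w ∈ C, w ≠ 0 → 8 ≤ hammingNorm w)
    {c : Fin 24 → ZMod 2} (hc : c ∈ C) :
    hammingNorm c = 0 ∨ hammingNorm c = 8 ∨ hammingNorm c = 12 ∨ hammingNorm c = 16
      ∨ hammingNorm c = 24 := by
  have hw := weights C hdim horth hmin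
  have hno : ∀ k : ℕ, N C k = 0 → hammingNorm c ≠ k := by
    intro k hk h
    unfold N at hk
    rw [Finset.card_eq_zero] at hk
    have : c ∈ (words C).filter (fun c => hammingNorm c = k) := by
      simp [hc, h]
    rw [hk] at this
    simp at this
  have h10 := hno 10 hw.2.1
  have h14 := hno 14 hw.2.2.2.1
  have := norm_cases C hdim horth hmin hc
  omega

theorem four_dvd (C : Submodule (ZMod 2) (Fin 24 → ZMod 2))
    (hdim : Module.finrank (ZMod 2) C = 12)
    (horth : ∀ v ∈ C, ∀ w ∈ C, ∑ i, v i * w i = 0)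
    (hmin : ∀ w ∈ C, w ≠ 0 → 8 ≤ hammingNorm w)
    {c : Fin 24 → ZMod 2} (hc : c ∈ C) : 4 ∣ hammingNorm c := by
  have := norm_cases' C hdim horth hmin hc
  omega

theorem exists_octad (C : Submodule (ZMod 2) (Fin 24 → ZMod 2))
    (hdim : Module.finrank (ZMod 2) C = 12)
    (horth : ∀ v ∈ C, ∀ w ∈ C, ∑ i, v i * w i = 0)
    (hmin : ∀ w ∈ C, w ≠ 0 → 8 ≤ hammingNorm w) : ∃ w ∈ C, hammingNorm w = 8 := by
  have hw := (weights C hdim horth hmin).1
  unfold N at hw
  have hne : ((words C).filter (fun c => hammingNorm c = 8)).Nonempty := by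
    rw [← Finset.card_pos, hw]; norm_num
  obtain ⟨c, hc⟩ := hne
  simp only [mem_filter, mem_words] at hc
  exact ⟨c, hc.1, hc.2⟩

/-- Weight of a sum and the overlap of the supports. -/
theorem norm_add (u v : Fin 24 → ZMod 2) :
    hammingNorm (u + v)
      + 2 * ((univ.filter (fun i => u i ≠ 0)) ∩ (univ.filter (fun i => v i ≠ 0))).card
      = hammingNorm u + hammingNorm v := by
  unfold hammingNorm
  rw [← Finset.filter_and]
  simp only [Finset.card_filter]
  rw [Finset.mul_sum, ← Finset.sum_add_distrib, ← Finset.sum_add_distrib]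
  apply Finset.sum_congr rfl
  intro i _
  have key : ∀ x y : ZMod 2, (if x + y ≠ 0 then 1 else 0) + 2 * (if x ≠ 0 ∧ y ≠ 0 then 1 else 0)
      = (if x ≠ 0 then 1 else 0) + (if y ≠ 0 then 1 else 0) := by decide
  exact key (u i) (v i)

theorem sub_eq_add' (u v : Fin 24 → ZMod 2) : u - v = u + v := by
  funext i
  simp only [Pi.add_apply, Pi.sub_apply]
  have key : ∀ x y : ZMod 2, x - y = x + y := by decide
  exact key (u i) (v i)

/-- Two distinct words of weight at most 4 in the same coset. -/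
theorem pair (C : Submodule (ZMod 2) (Fin 24 → ZMod 2))
    (hmin : ∀ w ∈ C, w ≠ 0 → 8 ≤ hammingNorm w)
    {w u u' : Fin 24 → ZMod 2} (hu : u - w ∈ C) (hu' : u' - w ∈ C) (hne : u ≠ u')
    (h4 : hammingNorm u ≤ 4) (h4' : hammingNorm u' ≤ 4) :
    hammingNorm u = 4 ∧ hammingNorm u' = 4 ∧
      Disjoint (univ.filter (fun i => u i ≠ 0)) (univ.filter (fun i => u' i ≠ 0)) := by
  have hmem : u + u' ∈ C := by
    have := C.sub_mem hu hu'
    rw [sub_sub_sub_cancel_right, sub_eq_add'] at this
    exact this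
  have hne0 : u + u' ≠ 0 := by
    intro h
    apply hne
    rw [← sub_eq_add', sub_eq_zero] at h
    exact h
  have h8 := hmin _ hmem hne0
  have hadd := norm_add u u'
  refine ⟨by omega, by omega, ?_⟩
  rw [Finset.disjoint_iff_inter_eq_empty, ← Finset.card_eq_zero]
  omega

end Cfsg.Agent.Lib.Helper8.SelfDual24
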