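import Mathlib
import Cfsg.Agent.Lib.Helper8.SelfDual24

set_option autoImplicit false

namespace Cfsg.Agent.Lib.Helper8.SelfDual24Leaders

open Finset Cfsg.Agent.Lib.Helper8.SelfDual24

/-- Characteristic vector of a set of coordinates. -/
def chi (s : Finset (Fin 24)) : Fin 24 → ZMod 2 := fun i => if i ∈ s then 1 else 0

theorem supp_chi (s : Finset (Fin 24)) : univ.filter (fun i => chi s i ≠ 0) = s := by
  ext i
  simp [chi]

theorem chi_supp (u : Fin 24 → ZMod 2) : chi (univ.filter (fun i => u i ≠ 0)) = u := by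
  funext i
  simp only [chi, mem_filter, mem_univ, true_and]
  have key : ∀ x : ZMod 2, (if x ≠ 0 then (1 : ZMod 2) else 0) = x := by decide
  exact key (u i)

theorem card_norm_eq (k : ℕ) :
    (univ.filter (fun u : Fin 24 → ZMod 2 => hammingNorm u = k)).card = (24).choose k := by
  have h24 : (24).choose k = (powersetCard k (univ : Finset (Fin 24))).card := by
    rw [card_powersetCard, card_univ, Fintype.card_fin]
  rw [h24]
  apply Finset.card_bij (fun u _ => univ.filter (fun i => u i ≠ 0))
  · intro u hu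
    simp only [mem_filter, mem_univ, true_and] at hu
    rw [mem_powersetCard]
    exact ⟨subset_univ _, hu⟩
  · intro u _ u' _ h
    rw [← chi_supp u, ← chi_supp u']
    exact congrArg chi h
  · intro s hs
    rw [mem_powersetCard] at hs
    refine ⟨chi s, ?_, supp_chi s⟩
    simp only [mem_filter, mem_univ, true_and]
    show (univ.filter (fun i => chi s i ≠ 0)).card = k
    rw [supp_chi]
    exact hs.2

theorem card_filter_le_three {α : Type*} (s : Finset α) (f : α → ℕ) :
    (s.filter (fun u => f u ≤ 3)).card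
      = (s.filter (fun u => f u = 0)).card + (s.filter (fun u => f u = 1)).card
        + (s.filter (fun u => f u = 2)).card + (s.filter (fun u => f u = 3)).card := by
  have hpt : ∀ u : α, (if f u ≤ 3 then 1 else 0)
      = (if f u = 0 then 1 else 0) + (if f u = 1 then 1 else 0)
        + (if f u = 2 then 1 else 0) + (if f u = 3 then 1 else 0) := by
    intro u
    generalize f u = n
    split_ifs <;> omega
  simp only [card_filter]
  rw [sum_congr rfl (fun u _ => hpt u)]
  simp only [sum_add_distrib]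

theorem card_le_three :
    (univ.filter (fun u : Fin 24 → ZMod 2 => hammingNorm u ≤ 3)).card = 2325 := by
  rw [card_filter_le_three, card_norm_eq, card_norm_eq, card_norm_eq, card_norm_eq]
  decide

theorem card_univ_V : (univ : Finset (Fin 24 → ZMod 2)).card = 16777216 := by
  rw [Finset.card_univ, Fintype.card_fun, ZMod.card, Fintype.card_fin]
  norm_num

theorem eq_of_sum_eq {ι : Type*} (s : Finset ι) (f : ι → ℕ) (c n : ℕ) (hcard : s.card = n)
    (hle : ∀ i ∈ s, f i ≤ c) (hsum : ∑ i ∈ s, f i = c * n) : ∀ i ∈ s, f i = c := by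
  have h2 : ∑ i ∈ s, f i = ∑ i ∈ s, c := by
    rw [hsum, sum_const, smul_eq_mul, mul_comm, hcard]
  exact (Finset.sum_eq_sum_iff_of_le hle).1 h2

theorem card_words (C : Submodule (ZMod 2) (Fin 24 → ZMod 2))
    (hdim : Module.finrank (ZMod 2) C = 12)
    (horth : ∀ v ∈ C, ∀ w ∈ C, ∑ i, v i * w i = 0)
    (hmin : ∀ w ∈ C, w ≠ 0 → 8 ≤ hammingNorm w) : (words C).card = 4096 := by
  have h := card_vanish C hdim horth hmin ∅ (by simp)
  simpa using h

/-- Words in the coset of `w` whose weight satisfies `P`. -/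
noncomputable def coset (C : Submodule (ZMod 2) (Fin 24 → ZMod 2)) (w : Fin 24 → ZMod 2)
    (P : ℕ → Prop) [DecidablePred P] : Finset (Fin 24 → ZMod 2) :=
  haveI : DecidablePred (fun u : Fin 24 → ZMod 2 => u - w ∈ C) := Classical.decPred _
  univ.filter (fun u => u - w ∈ C ∧ P (hammingNorm u))

theorem mem_coset {C : Submodule (ZMod 2) (Fin 24 → ZMod 2)} {w : Fin 24 → ZMod 2}
    {P : ℕ → Prop} [DecidablePred P] {u : Fin 24 → ZMod 2} :
    u ∈ coset C w P ↔ u - w ∈ C ∧ P (hammingNorm u) := by
  simp [coset]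

theorem sum_coset_count (C : Submodule (ZMod 2) (Fin 24 → ZMod 2))
    (hdim : Module.finrank (ZMod 2) C = 12)
    (horth : ∀ v ∈ C, ∀ w ∈ C, ∑ i, v i * w i = 0)
    (hmin : ∀ w ∈ C, w ≠ 0 → 8 ≤ hammingNorm w) (P : ℕ → Prop) [DecidablePred P] :
    ∑ w : Fin 24 → ZMod 2, (coset C w P).card
      = (univ.filter (fun u : Fin 24 → ZMod 2 => P (hammingNorm u))).card * 4096 := by
  classical
  let r : (Fin 24 → ZMod 2) → (Fin 24 → ZMod 2) → Prop := fun w u => u - w ∈ C
  have key := sum_card_bipartiteAbove_eq_sum_card_bipartiteBelow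
    (s := (univ : Finset (Fin 24 → ZMod 2)))
    (t := univ.filter (fun u : Fin 24 → ZMod 2 => P (hammingNorm u))) r
  have hL : ∀ w ∈ (univ : Finset (Fin 24 → ZMod 2)),
      #((univ.filter (fun u : Fin 24 → ZMod 2 => P (hammingNorm u))).bipartiteAbove r w)
        = (coset C w P).card := by
    intro w _
    refine congrArg Finset.card ?_
    ext u
    simp only [mem_bipartiteAbove, mem_filter, mem_univ, true_and, mem_coset, r]
    exact and_comm
  have hR : ∀ u ∈ univ.filter (fun u : Fin 24 → ZMod 2 => P (hammingNorm u)),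
      #((univ : Finset (Fin 24 → ZMod 2)).bipartiteBelow r u) = 4096 := by
    intro u _
    rw [← card_words C hdim horth hmin]
    apply Finset.card_bij (fun w _ => u - w)
    · intro w hw
      simp only [mem_bipartiteBelow, mem_univ, true_and, r] at hw
      simpa using hw
    · intro w _ w' _ h
      exact sub_right_injective h
    · intro c hc
      rw [mem_words] at hc
      refine ⟨u - c, ?_, by simp⟩
      simp only [mem_bipartiteBelow, mem_univ, true_and, r]
      simpa using hc
  rw [sum_congr rfl hL, sum_congr rfl hR] at key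
  rw [key, sum_const, smul_eq_mul]

theorem sum_coset_count' (C : Submodule (ZMod 2) (Fin 24 → ZMod 2))
    (hdim : Module.finrank (ZMod 2) C = 12)
    (horth : ∀ v ∈ C, ∀ w ∈ C, ∑ i, v i * w i = 0)
    (hmin : ∀ w ∈ C, w ≠ 0 → 8 ≤ hammingNorm w) (P : ℕ → Prop) [DecidablePred P] (n : ℕ)
    (hn : (univ.filter (fun u : Fin 24 → ZMod 2 => P (hammingNorm u))).card = n) :
    ∑ w : Fin 24 → ZMod 2, (coset C w P).card = n * 4096 := by
  rw [sum_coset_count C hdim horth hmin, hn]

theorem card_eq_four :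
    (univ.filter (fun u : Fin 24 → ZMod 2 => hammingNorm u = 4)).card = 10626 := by
  rw [card_norm_eq]
  decide

theorem local_bound (C : Submodule (ZMod 2) (Fin 24 → ZMod 2))
    (hmin : ∀ w ∈ C, w ≠ 0 → 8 ≤ hammingNorm w) (w : Fin 24 → ZMod 2) :
    6 * (coset C w (· ≤ 3)).card + (coset C w (· = 4)).card ≤ 6 := by
  classical
  by_cases hA : (coset C w (· ≤ 3)).Nonempty
  · obtain ⟨u, hu⟩ := hA
    have hu' := mem_coset.1 hu
    have hA1 : coset C w (· ≤ 3) ⊆ {u} := by
      intro u' hu2
      have hu2' := mem_coset.1 hu2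
      rw [mem_singleton]
      by_contra hne
      have := pair C hmin hu'.1 hu2'.1 (Ne.symm hne) (by have := hu'.2; omega)
        (by have := hu2'.2; omega)
      have := hu'.2
      omega
    have hB0 : coset C w (· = 4) = ∅ := by
      rw [eq_empty_iff_forall_notMem]
      intro u' hu2
      have hu2' := mem_coset.1 hu2
      have hne : u ≠ u' := by
        rintro rfl
        have h1 := hu'.2
        have h2 := hu2'.2
        omega
      have := pair C hmin hu'.1 hu2'.1 hne (by have := hu'.2; omega)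
        (by have := hu2'.2; omega)
      have := hu'.2
      omega
    have h1 := card_le_card hA1
    rw [card_singleton] at h1
    rw [hB0, card_empty]
    omega
  · rw [not_nonempty_iff_eq_empty] at hA
    rw [hA, card_empty]
    have hdisj : ((coset C w (· = 4) : Finset (Fin 24 → ZMod 2)) : Set (Fin 24 → ZMod 2)).PairwiseDisjoint
        (fun u => univ.filter (fun i => u i ≠ 0)) := by
      intro u hu u' hu2 hne
      have hu' := mem_coset.1 (mem_coe.1 hu)
      have hu2' := mem_coset.1 (mem_coe.1 hu2)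
      exact (pair C hmin hu'.1 hu2'.1 hne (by have := hu'.2; omega)
        (by have := hu2'.2; omega)).2.2
    have hcard := Finset.card_biUnion hdisj
    have hsum : ∑ u ∈ coset C w (· = 4), #(univ.filter (fun i => u i ≠ 0))
        = 4 * (coset C w (· = 4)).card := by
      rw [Finset.sum_const_nat (m := 4)]
      · rw [mul_comm]
      · intro u hu
        exact (mem_coset.1 hu).2
    have h24 : #((coset C w (· = 4)).biUnion (fun u => univ.filter (fun i => u i ≠ 0))) ≤ 24 :=
      (card_le_univ _).trans (by simp)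
    omega

theorem local_eq (C : Submodule (ZMod 2) (Fin 24 → ZMod 2))
    (hdim : Module.finrank (ZMod 2) C = 12)
    (horth : ∀ v ∈ C, ∀ w ∈ C, ∑ i, v i * w i = 0)
    (hmin : ∀ w ∈ C, w ≠ 0 → 8 ≤ hammingNorm w) (w : Fin 24 → ZMod 2) :
    6 * (coset C w (· ≤ 3)).card + (coset C w (· = 4)).card = 6 := by
  have h3 := sum_coset_count' C hdim horth hmin (· ≤ 3) 2325 card_le_three
  have h4 := sum_coset_count' C hdim horth hmin (· = 4) 10626 card_eq_four
  have hsum : ∑ w : Fin 24 → ZMod 2, (6 * (coset C w (· ≤ 3)).card + (coset C w (· = 4)).card)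
      = 6 * 16777216 := by
    rw [sum_add_distrib, ← mul_sum, h3, h4]
    norm_num
  exact eq_of_sum_eq univ _ 6 16777216 card_univ_V (fun w _ => local_bound C hmin w) hsum w
    (mem_univ w)

theorem exists_leader (C : Submodule (ZMod 2) (Fin 24 → ZMod 2))
    (hdim : Module.finrank (ZMod 2) C = 12)
    (horth : ∀ v ∈ C, ∀ w ∈ C, ∑ i, v i * w i = 0)
    (hmin : ∀ w ∈ C, w ≠ 0 → 8 ≤ hammingNorm w) (w : Fin 24 → ZMod 2) :
    ∃ u : Fin 24 → ZMod 2, u - w ∈ C ∧ hammingNorm u ≤ 4 := by
  have heq := local_eq C hdim horth hmin w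
  by_cases hA : (coset C w (· ≤ 3)).Nonempty
  · obtain ⟨u, hu⟩ := hA
    have hu' := mem_coset.1 hu
    exact ⟨u, hu'.1, by have := hu'.2; omega⟩
  · rw [not_nonempty_iff_eq_empty] at hA
    rw [hA, card_empty] at heq
    have hne : (coset C w (· = 4)).Nonempty := by
      rw [← card_pos]; omega
    obtain ⟨u, hu⟩ := hne
    have hu' := mem_coset.1 hu
    exact ⟨u, hu'.1, by have := hu'.2; omega⟩

theorem leaders (C : Submodule (ZMod 2) (Fin 24 → ZMod 2))
    (hdim : Module.finrank (ZMod 2) C = 12)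
    (horth : ∀ v ∈ C, ∀ w ∈ C, ∑ i, v i * w i = 0)
    (hmin : ∀ w ∈ C, w ≠ 0 → 8 ≤ hammingNorm w) (w : Fin 24 → ZMod 2) :
    (∃ u : Fin 24 → ZMod 2, {u : Fin 24 → ZMod 2 | u - w ∈ C ∧ hammingNorm u ≤ 4} = {u}
        ∧ hammingNorm u ≤ 3)
    ∨ ({u : Fin 24 → ZMod 2 | u - w ∈ C ∧ hammingNorm u ≤ 4}.ncard = 6
      ∧ ∀ u ∈ {u : Fin 24 → ZMod 2 | u - w ∈ C ∧ hammingNorm u ≤ 4}, hammingNorm u = 4
        ∧ ∀ u' ∈ {u : Fin 24 → ZMod 2 | u - w ∈ C ∧ hammingNorm u ≤ 4}, u ≠ u' →
          Disjoint (Finset.univ.filter fun i => u i ≠ 0)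
            (Finset.univ.filter fun i => u' i ≠ 0)) := by
  have heq := local_eq C hdim horth hmin w
  by_cases hA : (coset C w (· ≤ 3)).Nonempty
  · left
    obtain ⟨u, hu⟩ := hA
    have hu' := mem_coset.1 hu
    refine ⟨u, ?_, hu'.2⟩
    ext u'
    simp only [Set.mem_ofPred_eq, Set.mem_singleton_iff]
    constructor
    · rintro ⟨h1, h2⟩
      by_contra hne
      have := pair C hmin hu'.1 h1 (Ne.symm hne) (by have := hu'.2; omega) h2
      have := hu'.2
      omega
    · rintro rfl
      exact ⟨hu'.1, by have := hu'.2; omega⟩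
  · right
    rw [not_nonempty_iff_eq_empty] at hA
    have hA' := hA
    rw [hA, card_empty] at heq
    have hset : {u : Fin 24 → ZMod 2 | u - w ∈ C ∧ hammingNorm u ≤ 4}
        = ↑(coset C w (· = 4)) := by
      ext u
      simp only [Set.mem_ofPred_eq, mem_coe, mem_coset]
      constructor
      · rintro ⟨h1, h2⟩
        refine ⟨h1, ?_⟩
        by_contra h4
        have : u ∈ coset C w (· ≤ 3) := mem_coset.2 ⟨h1, by omega⟩
        rw [hA'] at this
        simp at this
      · rintro ⟨h1, h2⟩
        exact ⟨h1, by omega⟩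
    rw [hset, Set.ncard_coe_finset]
    refine ⟨by omega, ?_⟩
    intro u hu
    rw [mem_coe, mem_coset] at hu
    refine ⟨hu.2, ?_⟩
    intro u' hu' hne
    rw [mem_coe, mem_coset] at hu'
    exact (pair C hmin hu.1 hu'.1 hne (by omega) (by omega)).2.2

end Cfsg.Agent.Lib.Helper8.SelfDual24Leaders
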