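import Mathlib
import Cfsg.Prelude.Def_Sporadic_a
import Cfsg.Agent.Lib.Helper8.Steiner
import Cfsg.Agent.Lib.Helper8.S5824
import Cfsg.Agent.Lib.Helper8.SelfDual24
import Cfsg.Agent.Lib.Helper8.SelfDual24Leaders

set_option autoImplicit false

namespace Cfsg.Agent.Lib.Helper8.SelfDual24Octads

open Finset Cfsg.Agent.Lib.Helper8.SelfDual24 Cfsg.Agent.Lib.Helper8.SelfDual24Leaders
  Cfsg.Agent.Lib.Helper8.Steiner

/-- The octads of a code: supports of its words of weight 8. -/
abbrev oct (C : Submodule (ZMod 2) (Fin 24 → ZMod 2)) : Set (Finset (Fin 24)) :=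
  Cfsg.wordsOfWeight (C : Set (Fin 24 → ZMod 2)) 8

theorem mem_oct {C : Submodule (ZMod 2) (Fin 24 → ZMod 2)} {b : Finset (Fin 24)} :
    b ∈ oct C ↔ chi b ∈ C ∧ b.card = 8 := by
  unfold oct Cfsg.wordsOfWeight Cfsg.supports
  simp only [Set.mem_ofPred_eq, Set.mem_image, SetLike.mem_coe]
  constructor
  · rintro ⟨⟨c, hc, rfl⟩, h8⟩
    refine ⟨?_, h8⟩
    have : chi (Cfsg.support₂ c) = c := chi_supp c
    rw [this]
    exact hc
  · rintro ⟨hc, h8⟩
    exact ⟨⟨chi b, hc, supp_chi b⟩, h8⟩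

theorem norm_chi (b : Finset (Fin 24)) : hammingNorm (chi b) = b.card := by
  show (univ.filter (fun i => chi b i ≠ 0)).card = b.card
  rw [supp_chi]

theorem oct_unique (C : Submodule (ZMod 2) (Fin 24 → ZMod 2))
    (hmin : ∀ w ∈ C, w ≠ 0 → 8 ≤ hammingNorm w)
    {b b' : Finset (Fin 24)} (hb : b ∈ oct C) (hb' : b' ∈ oct C)
    (h5 : 5 ≤ (b ∩ b').card) : b = b' := by
  rw [mem_oct] at hb hb'
  by_contra hne
  have hne' : chi b ≠ chi b' := fun h => hne (by rw [← supp_chi b, ← supp_chi b', h])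
  have hmem : chi b + chi b' ∈ C := C.add_mem hb.1 hb'.1
  have hne0 : chi b + chi b' ≠ 0 := by
    intro h
    apply hne'
    rw [← sub_eq_add', sub_eq_zero] at h
    exact h
  have h8 := hmin _ hmem hne0
  have hadd := norm_add (chi b) (chi b')
  rw [supp_chi, supp_chi, norm_chi, norm_chi] at hadd
  omega

theorem card_oct (C : Submodule (ZMod 2) (Fin 24 → ZMod 2))
    (hdim : Module.finrank (ZMod 2) C = 12)
    (horth : ∀ v ∈ C, ∀ w ∈ C, ∑ i, v i * w i = 0)
    (hmin : ∀ w ∈ C, w ≠ 0 → 8 ≤ hammingNorm w) : (blocks (oct C)).card = 759 := by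
  rw [← (weights C hdim horth hmin).1]
  unfold N
  symm
  apply Finset.card_bij (fun c _ => univ.filter (fun i => c i ≠ 0))
  · intro c hc
    simp only [mem_filter, mem_words] at hc
    rw [mem_blocks, mem_oct, chi_supp]
    exact ⟨hc.1, hc.2⟩
  · intro c _ c' _ h
    rw [← chi_supp c, ← chi_supp c']
    exact congrArg chi h
  · intro b hb
    rw [mem_blocks, mem_oct] at hb
    refine ⟨chi b, ?_, supp_chi b⟩
    simp only [mem_filter, mem_words]
    exact ⟨hb.1, by rw [norm_chi]; exact hb.2⟩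

theorem oct_through (C : Submodule (ZMod 2) (Fin 24 → ZMod 2))
    (hdim : Module.finrank (ZMod 2) C = 12)
    (horth : ∀ v ∈ C, ∀ w ∈ C, ∑ i, v i * w i = 0)
    (hmin : ∀ w ∈ C, w ≠ 0 → 8 ≤ hammingNorm w)
    (s : Finset (Fin 24)) (hs : s.card = 5) :
    ((blocks (oct C)).filter (fun b => s ⊆ b)).card = 1 := by
  classical
  have hle : ∀ s ∈ powersetCard 5 (univ : Finset (Fin 24)),
      ((blocks (oct C)).filter (fun b => s ⊆ b)).card ≤ 1 := by
    intro s hs
    rw [mem_powersetCard] at hs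
    rw [Finset.card_le_one]
    intro b hb b' hb'
    simp only [mem_filter, mem_blocks] at hb hb'
    apply oct_unique C hmin hb.1 hb'.1
    rw [← hs.2]
    exact card_le_card (subset_inter hb.2 hb'.2)
  have hsum : ∑ s ∈ powersetCard 5 (univ : Finset (Fin 24)),
      ((blocks (oct C)).filter (fun b => s ⊆ b)).card = 1 * 42504 := by
    let r : Finset (Fin 24) → Finset (Fin 24) → Prop := fun s b => s ⊆ b
    have key := sum_card_bipartiteAbove_eq_sum_card_bipartiteBelow
      (s := powersetCard 5 (univ : Finset (Fin 24))) (t := blocks (oct C)) r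
    have hR : ∀ b ∈ blocks (oct C),
        #((powersetCard 5 (univ : Finset (Fin 24))).bipartiteBelow r b) = 56 := by
      intro b hb
      rw [mem_blocks, mem_oct] at hb
      have h1 : (powersetCard 5 (univ : Finset (Fin 24))).bipartiteBelow r b
          = powersetCard 5 b := by
        ext s
        simp only [mem_bipartiteBelow, mem_powersetCard, r]
        constructor
        · rintro ⟨⟨_, h2⟩, h3⟩
          exact ⟨h3, h2⟩
        · rintro ⟨h1, h2⟩
          exact ⟨⟨subset_univ _, h2⟩, h1⟩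
      rw [h1, card_powersetCard, hb.2]
      decide
    rw [sum_congr rfl hR, sum_const, card_oct C hdim horth hmin] at key
    exact key
  have hcard : (powersetCard 5 (univ : Finset (Fin 24))).card = 42504 := by
    rw [card_powersetCard, card_univ, Fintype.card_fin]
    decide
  exact eq_of_sum_eq _ _ 1 42504 hcard hle hsum s
    (by rw [mem_powersetCard]; exact ⟨subset_univ _, hs⟩)

theorem steiner (C : Submodule (ZMod 2) (Fin 24 → ZMod 2))
    (hdim : Module.finrank (ZMod 2) C = 12)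
    (horth : ∀ v ∈ C, ∀ w ∈ C, ∑ i, v i * w i = 0)
    (hmin : ∀ w ∈ C, w ≠ 0 → 8 ≤ hammingNorm w) : Cfsg.IsSteinerSystem 5 8 (oct C) := by
  refine ⟨fun b hb => (mem_oct.1 hb).2, ?_⟩
  intro s hs
  have h1 := oct_through C hdim horth hmin s hs
  rw [Finset.card_eq_one] at h1
  obtain ⟨b, hb⟩ := h1
  have hbm : b ∈ (blocks (oct C)).filter (fun b => s ⊆ b) := by
    rw [hb]
    exact mem_singleton_self b
  rw [mem_filter, mem_blocks] at hbm
  refine ⟨b, hbm, ?_⟩
  rintro b' ⟨hb'1, hb'2⟩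
  have : b' ∈ (blocks (oct C)).filter (fun b => s ⊆ b) := by
    rw [mem_filter, mem_blocks]
    exact ⟨hb'1, hb'2⟩
  rw [hb, mem_singleton] at this
  exact this

end Cfsg.Agent.Lib.Helper8.SelfDual24Octads
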