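import Mathlib
import Cfsg.Prelude.Def_Sporadic_a
import Cfsg.Agent.Lib.Helper8.Steiner
import Cfsg.Agent.Lib.Helper8.S5824
import Cfsg.Agent.Lib.Helper8.SelfDual24
import Cfsg.Agent.Lib.Helper8.SelfDual24Leaders
import Cfsg.Agent.Lib.Helper8.SelfDual24Octads

set_option autoImplicit false

namespace Cfsg.Agent.Lib.Helper8.SelfDual24Span

open Finset Cfsg.Agent.Lib.Helper8.SelfDual24 Cfsg.Agent.Lib.Helper8.SelfDual24Leaders
  Cfsg.Agent.Lib.Helper8.Steiner Cfsg.Agent.Lib.Helper8.SelfDual24Octads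

theorem dot_chi (b : Finset (Fin 24)) (u : Fin 24 → ZMod 2) :
    ∑ i, chi b i * u i = (((b ∩ univ.filter (fun i => u i ≠ 0)).card : ℕ) : ZMod 2) := by
  have hset : b ∩ univ.filter (fun i => u i ≠ 0) = univ.filter (fun i => i ∈ b ∧ u i ≠ 0) := by
    ext i
    simp
  rw [hset, Finset.natCast_card_filter]
  have key1 : ∀ x : ZMod 2, x = if x ≠ 0 then 1 else 0 := by decide
  apply Finset.sum_congr rfl
  intro i _
  unfold chi
  by_cases hp : i ∈ b
  · simp only [hp, if_true, true_and, one_mul]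
    exact key1 (u i)
  · simp [hp]

/-- A set of at most 4 points meeting every octad evenly is empty. -/
theorem card_eq_zero_of_even (C : Submodule (ZMod 2) (Fin 24 → ZMod 2))
    (hdim : Module.finrank (ZMod 2) C = 12)
    (horth : ∀ v ∈ C, ∀ w ∈ C, ∑ i, v i * w i = 0)
    (hmin : ∀ w ∈ C, w ≠ 0 → 8 ≤ hammingNorm w)
    (T : Finset (Fin 24)) (hT4 : T.card ≤ 4)
    (huo : ∀ b ∈ blocks (oct C), 2 ∣ (b ∩ T).card) : T.card = 0 := by
  have hst := steiner C hdim horth hmin
  have hα : Fintype.card (Fin 24) = 24 := Fintype.card_fin 24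
  have e1 := Cfsg.Agent.Lib.Helper8.S5824.m1 hα hst T
  have e2 := Cfsg.Agent.Lib.Helper8.S5824.m2 hα hst T
  have e4 := Cfsg.Agent.Lib.Helper8.S5824.m4 hα hst T
  have hpt : ∀ b ∈ blocks (oct C),
      (b ∩ T).card + 8 * (b ∩ T).card.choose 4 = 2 * (b ∩ T).card.choose 2 := by
    intro b hb
    have hev := huo b hb
    have hle : (b ∩ T).card ≤ 4 := (card_le_card inter_subset_right).trans hT4
    have h3 : (b ∩ T).card = 0 ∨ (b ∩ T).card = 2 ∨ (b ∩ T).card = 4 := by omega
    rcases h3 with h | h | h <;> rw [h] <;> decide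
  have hsum := sum_congr rfl hpt
  rw [sum_add_distrib, ← mul_sum, ← mul_sum, e1, e2, e4] at hsum
  have h5 : T.card = 0 ∨ T.card = 1 ∨ T.card = 2 ∨ T.card = 3 ∨ T.card = 4 := by omega
  rcases h5 with h | h | h | h | h
  · exact h
  all_goals (exfalso; rw [h] at hsum; revert hsum; decide)

theorem span_octads (C : Submodule (ZMod 2) (Fin 24 → ZMod 2))
    (hdim : Module.finrank (ZMod 2) C = 12)
    (horth : ∀ v ∈ C, ∀ w ∈ C, ∑ i, v i * w i = 0)
    (hmin : ∀ w ∈ C, w ≠ 0 → 8 ≤ hammingNorm w) :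
    Submodule.span (ZMod 2) {w : Fin 24 → ZMod 2 | w ∈ C ∧ hammingNorm w = 8} = C := by
  have hDC : Submodule.span (ZMod 2) {w : Fin 24 → ZMod 2 | w ∈ C ∧ hammingNorm w = 8} ≤ C :=
    Submodule.span_le.2 (fun w hw => hw.1)
  let B : LinearMap.BilinForm (ZMod 2) (Fin 24 → ZMod 2) := Matrix.toBilin' 1
  have hB : B.Nondegenerate :=
    LinearMap.BilinForm.nondegenerate_toBilin'_of_det_ne_zero' _ (by simp)
  have hBapp : ∀ x y : Fin 24 → ZMod 2, B x y = ∑ i, x i * y i := by
    intro x y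
    simp [B, Matrix.toBilin'_apply', dotProduct]
  have hperp : B.orthogonal
      (Submodule.span (ZMod 2) {w : Fin 24 → ZMod 2 | w ∈ C ∧ hammingNorm w = 8}) ≤ C := by
    intro v hv
    rw [LinearMap.BilinForm.mem_orthogonal_iff] at hv
    obtain ⟨u, hu, hu4⟩ := exists_leader C hdim horth hmin v
    have huo : ∀ b ∈ blocks (oct C), 2 ∣ (b ∩ univ.filter (fun i => u i ≠ 0)).card := by
      intro b hb
      rw [mem_blocks, mem_oct] at hb
      have h1 : B (chi b) v = 0 :=
        hv (chi b) (Submodule.subset_span ⟨hb.1, by rw [norm_chi]; exact hb.2⟩)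
      have h2 : ∑ i, chi b i * (u - v) i = 0 := horth _ hb.1 _ hu
      rw [hBapp] at h1
      have h3 : ∑ i, chi b i * u i = 0 := by
        have h4 : ∑ i, chi b i * u i = ∑ i, chi b i * (u - v) i + ∑ i, chi b i * v i := by
          rw [← sum_add_distrib]
          apply sum_congr rfl
          intro i _
          simp only [Pi.sub_apply]
          ring
        rw [h4, h1, h2, add_zero]
      rw [dot_chi] at h3
      exact (ZMod.natCast_eq_zero_iff _ 2).1 h3
    have hT0 := card_eq_zero_of_even C hdim horth hmin _ hu4 huo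
    have hu0 : u = 0 := by
      rw [← hammingNorm_eq_zero]
      exact hT0
    rw [hu0, zero_sub] at hu
    exact (Submodule.neg_mem_iff _).1 hu
  have hfin := LinearMap.BilinForm.finrank_orthogonal hB
    (Submodule.span (ZMod 2) {w : Fin 24 → ZMod 2 | w ∈ C ∧ hammingNorm w = 8})
  have h24 : Module.finrank (ZMod 2) (Fin 24 → ZMod 2) = 24 := by simp
  have hle := Submodule.finrank_mono hperp
  have hle2 := Submodule.finrank_mono hDC
  exact Submodule.eq_of_le_of_finrank_le hDC (by omega)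

end Cfsg.Agent.Lib.Helper8.SelfDual24Span
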