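import Mathlib
import Cfsg.Agent.Lib.Helper41.SpFStmt

/-!
# S5975, part A: shared lemmas for the `Sp_4` pieces (TRANS4, INV4P, INV4NS, INV4NN)

`sf` is the symplectic form on `F^4`; `gm e₁ f₁ e₂ f₂` is the matrix with columns
`f₁, f₂, e₁, e₂`; it is symplectic when `e₁, f₁, e₂, f₂` is a symplectic basis, and
`J0 l` is the matrix of `e₁ ↦ e₂ ↦ l e₁`, `f₁ ↦ l f₂`, `f₂ ↦ f₁` in that basis.
-/

set_option autoImplicit false

namespace Cfsg.Agent.Lib.Helper8.SpFCommon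

open Matrix
open Cfsg.Agent.Lib.Helper40.SympConj

variable {F : Type*} [Field F]

/-- The symplectic form on `F^4`. -/
def sf (u v : Fin 2 ⊕ Fin 2 → F) : F := u ⬝ᵥ (J (Fin 2) F *ᵥ v)

theorem sf_add_left (u u' v : Fin 2 ⊕ Fin 2 → F) : sf (u + u') v = sf u v + sf u' v := by
  unfold sf; rw [add_dotProduct]

theorem sf_add_right (u v v' : Fin 2 ⊕ Fin 2 → F) : sf u (v + v') = sf u v + sf u v' := by
  unfold sf; rw [mulVec_add, dotProduct_add]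

theorem sf_smul_left (c : F) (u v : Fin 2 ⊕ Fin 2 → F) : sf (c • u) v = c * sf u v := by
  unfold sf; rw [smul_dotProduct, smul_eq_mul]

theorem sf_smul_right (c : F) (u v : Fin 2 ⊕ Fin 2 → F) : sf u (c • v) = c * sf u v := by
  unfold sf; rw [mulVec_smul, dotProduct_smul, smul_eq_mul]

theorem sf_neg_left (u v : Fin 2 ⊕ Fin 2 → F) : sf (-u) v = - sf u v := by
  unfold sf; rw [neg_dotProduct]

theorem sf_neg_right (u v : Fin 2 ⊕ Fin 2 → F) : sf u (-v) = - sf u v := by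
  unfold sf; rw [mulVec_neg, dotProduct_neg]

theorem sf_sub_left (u u' v : Fin 2 ⊕ Fin 2 → F) : sf (u - u') v = sf u v - sf u' v := by
  unfold sf; rw [sub_dotProduct]

theorem sf_sub_right (u v v' : Fin 2 ⊕ Fin 2 → F) : sf u (v - v') = sf u v - sf u v' := by
  unfold sf; rw [mulVec_sub, dotProduct_sub]

theorem sf_self (u : Fin 2 ⊕ Fin 2 → F) : sf u u = 0 := J_alt u

theorem sf_skew (u v : Fin 2 ⊕ Fin 2 → F) : sf v u = - sf u v := by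
  have h := sf_self (u + v)
  rw [sf_add_left, sf_add_right, sf_add_right, sf_self, sf_self] at h
  linear_combination h

theorem sf_adj (M : Matrix (Fin 2 ⊕ Fin 2) (Fin 2 ⊕ Fin 2) F) (u v : Fin 2 ⊕ Fin 2 → F) :
    sf (M *ᵥ u) v = sf u (sadj M *ᵥ v) := adjoint_rel M u v

theorem sf_nondeg (u : Fin 2 ⊕ Fin 2 → F) (h : ∀ w, sf u w = 0) : u = 0 := eq_zero_of_J u h

theorem gram_apply (b : Fin 2 ⊕ Fin 2 → (Fin 2 ⊕ Fin 2 → F)) (a c : Fin 2 ⊕ Fin 2) :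
    ((Matrix.of fun i j => b j i)ᵀ * J (Fin 2) F * (Matrix.of fun i j => b j i)) a c
      = sf (b a) (b c) := by
  unfold sf
  rw [Matrix.mul_apply, dotProduct]
  simp only [Matrix.mul_apply, Matrix.transpose_apply, Matrix.of_apply, Matrix.mulVec, dotProduct,
    Finset.sum_mul, Finset.mul_sum]
  rw [Finset.sum_comm]
  refine Finset.sum_congr rfl fun i _ => Finset.sum_congr rfl fun k _ => ?_
  ring

/-- The matrix with columns `f₁, f₂, e₁, e₂` (at `inl 0, inl 1, inr 0, inr 1`). -/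
def gm (e₁ f₁ e₂ f₂ : Fin 2 ⊕ Fin 2 → F) : Matrix (Fin 2 ⊕ Fin 2) (Fin 2 ⊕ Fin 2) F :=
  Matrix.of fun i j => Sum.elim ![f₁, f₂] ![e₁, e₂] j i

theorem gm_symp (e₁ f₁ e₂ f₂ : Fin 2 ⊕ Fin 2 → F) (h1 : sf e₁ f₁ = 1) (h2 : sf e₂ f₂ = 1)
    (h3 : sf e₁ e₂ = 0) (h4 : sf e₁ f₂ = 0) (h5 : sf f₁ e₂ = 0) (h6 : sf f₁ f₂ = 0) :
    sadj (gm e₁ f₁ e₂ f₂) * gm e₁ f₁ e₂ f₂ = 1 := by
  have hG : (gm e₁ f₁ e₂ f₂)ᵀ * J (Fin 2) F * gm e₁ f₁ e₂ f₂ = J (Fin 2) F := by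
    ext a c
    rw [gm, gram_apply]
    have k1 : sf f₁ e₁ = -1 := by rw [sf_skew e₁ f₁, h1]
    have k2 : sf f₂ e₂ = -1 := by rw [sf_skew e₂ f₂, h2]
    have k3 : sf e₂ e₁ = 0 := by rw [sf_skew e₁ e₂, h3, neg_zero]
    have k4 : sf f₂ e₁ = 0 := by rw [sf_skew e₁ f₂, h4, neg_zero]
    have k5 : sf e₂ f₁ = 0 := by rw [sf_skew f₁ e₂, h5, neg_zero]
    have k6 : sf f₂ f₁ = 0 := by rw [sf_skew f₁ f₂, h6, neg_zero]
    rcases a with a | a <;> rcases c with c | c <;> fin_cases a <;> fin_cases c <;>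
      simp [Matrix.J, sf_self, h1, h2, h3, h4, h5, h6, k1, k2, k3, k4, k5, k6]
  unfold sadj
  rw [Matrix.mul_assoc, Matrix.mul_assoc, ← Matrix.mul_assoc _ᵀ, hG, neg_J_mul_J]

theorem mul_colMat (X Y : Matrix (Fin 2 ⊕ Fin 2) (Fin 2 ⊕ Fin 2) F)
    (b : Fin 2 ⊕ Fin 2 → (Fin 2 ⊕ Fin 2 → F)) (h : ∀ c, X *ᵥ b c = ∑ a, Y a c • b a) :
    X * (Matrix.of fun i j => b j i) = (Matrix.of fun i j => b j i) * Y := by
  ext i c
  have hc := congrFun (h c) i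
  rw [Matrix.mul_apply, Matrix.mul_apply]
  simp only [Matrix.mulVec, dotProduct, Finset.sum_apply, Pi.smul_apply, smul_eq_mul] at hc
  simp only [Matrix.of_apply]
  rw [hc]
  exact Finset.sum_congr rfl fun a _ => mul_comm _ _

/-- The matrix of `e₁ ↦ e₂ ↦ l e₁`, `f₁ ↦ l f₂`, `f₂ ↦ f₁`. -/
def J0 (l : F) : Matrix (Fin 2 ⊕ Fin 2) (Fin 2 ⊕ Fin 2) F :=
  Matrix.fromBlocks !![0, 1; l, 0] 0 0 !![0, l; 1, 0]

theorem J0_sq (l : F) : J0 l * J0 l = l • (1 : Matrix (Fin 2 ⊕ Fin 2) (Fin 2 ⊕ Fin 2) F) := by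
  ext i j
  rcases i with i | i <;> rcases j with j | j <;> fin_cases i <;> fin_cases j <;>
    simp [J0, Matrix.mul_apply, Fintype.sum_sum_type]

theorem J0_adj (l : F) : sadj (J0 l) = J0 l := by
  ext i j
  rcases i with i | i <;> rcases j with j | j <;> fin_cases i <;> fin_cases j <;>
    simp [sadj, J0, Matrix.J, Matrix.mul_apply, Fintype.sum_sum_type, Matrix.one_apply]

theorem mul_gm_J0 (l : F) (X : Matrix (Fin 2 ⊕ Fin 2) (Fin 2 ⊕ Fin 2) F)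
    (e₁ f₁ e₂ f₂ : Fin 2 ⊕ Fin 2 → F) (h1 : X *ᵥ e₁ = e₂) (h2 : X *ᵥ e₂ = l • e₁)
    (h3 : X *ᵥ f₁ = l • f₂) (h4 : X *ᵥ f₂ = f₁) :
    X * gm e₁ f₁ e₂ f₂ = gm e₁ f₁ e₂ f₂ * J0 l := by
  unfold gm
  apply mul_colMat
  intro c
  rcases c with c | c <;> fin_cases c <;>
    simp [J0, Fintype.sum_sum_type, h1, h2, h3, h4]

/-- The matrix of an involution with eigenvectors `e₁, f₁` (`1`) and `e₂, f₂` (`-1`). -/
def X0P : Matrix (Fin 2 ⊕ Fin 2) (Fin 2 ⊕ Fin 2) F :=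
  Matrix.fromBlocks !![1, 0; 0, -1] 0 0 !![1, 0; 0, -1]

theorem X0P_anti (l : F) : (X0P : Matrix (Fin 2 ⊕ Fin 2) (Fin 2 ⊕ Fin 2) F) * J0 l
    = -(J0 l * X0P) := by
  ext i j
  rcases i with i | i <;> rcases j with j | j <;> fin_cases i <;> fin_cases j <;>
    simp [J0, X0P, Matrix.mul_apply, Fintype.sum_sum_type]

theorem mul_gm_X0P (X : Matrix (Fin 2 ⊕ Fin 2) (Fin 2 ⊕ Fin 2) F)
    (e₁ f₁ e₂ f₂ : Fin 2 ⊕ Fin 2 → F) (h1 : X *ᵥ e₁ = e₁) (h2 : X *ᵥ e₂ = -e₂)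
    (h3 : X *ᵥ f₁ = f₁) (h4 : X *ᵥ f₂ = -f₂) :
    X * gm e₁ f₁ e₂ f₂ = gm e₁ f₁ e₂ f₂ * X0P := by
  unfold gm
  apply mul_colMat
  intro c
  rcases c with c | c <;> fin_cases c <;>
    simp [X0P, Fintype.sum_sum_type, h1, h2, h3, h4]

/-- The matrix of `e₁ ↦ α f₁`, `f₁ ↦ -α⁻¹ e₁`, `e₂ ↦ β f₂`, `f₂ ↦ -β⁻¹ e₂`. -/
def X0N (α β : F) : Matrix (Fin 2 ⊕ Fin 2) (Fin 2 ⊕ Fin 2) F :=
  Matrix.fromBlocks 0 !![α, 0; 0, β] !![-α⁻¹, 0; 0, -β⁻¹] 0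

theorem X0N_comm (l α : F) (hl : l ≠ 0) (hα : α ≠ 0) :
    X0N α (l * α) * J0 l = J0 l * X0N α (l * α) := by
  ext i j
  rcases i with i | i <;> rcases j with j | j <;> fin_cases i <;> fin_cases j <;>
    simp [J0, X0N, Matrix.mul_apply, Fintype.sum_sum_type] <;> field_simp

theorem mul_gm_X0N (α β : F) (X : Matrix (Fin 2 ⊕ Fin 2) (Fin 2 ⊕ Fin 2) F)
    (e₁ f₁ e₂ f₂ : Fin 2 ⊕ Fin 2 → F) (h1 : X *ᵥ e₁ = α • f₁) (h2 : X *ᵥ e₂ = β • f₂)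
    (h3 : X *ᵥ f₁ = -(α⁻¹ • e₁)) (h4 : X *ᵥ f₂ = -(β⁻¹ • e₂)) :
    X * gm e₁ f₁ e₂ f₂ = gm e₁ f₁ e₂ f₂ * X0N α β := by
  unfold gm
  apply mul_colMat
  intro c
  rcases c with c | c <;> fin_cases c <;>
    simp [X0N, Fintype.sum_sum_type, h1, h2, h3, h4]

/-! ### Transfer along a symplectic base change -/

section transfer
variable (g J₀ x x₀ : Matrix (Fin 2 ⊕ Fin 2) (Fin 2 ⊕ Fin 2) F)

theorem mul_sadj_self (hg : sadj g * g = 1) : g * sadj g = 1 := mul_eq_one_comm.mp hg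

theorem sadj_conj (hg : sadj g * g = 1) (hx : x * g = g * x₀) : sadj g * x = x₀ * sadj g := by
  have hg' := mul_sadj_self g hg
  calc sadj g * x = sadj g * x * (g * sadj g) := by rw [hg', Matrix.mul_one]
    _ = sadj g * (x * g) * sadj g := by simp only [Matrix.mul_assoc]
    _ = (sadj g * g) * x₀ * sadj g := by rw [hx]; simp only [Matrix.mul_assoc]
    _ = x₀ * sadj g := by rw [hg, Matrix.one_mul]

theorem transfer_sq (l : F) (hg : sadj g * g = 1) (hJ : J₀ * J₀ = l • 1) :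
    (g * J₀ * sadj g) * (g * J₀ * sadj g) = l • 1 := by
  have hg' := mul_sadj_self g hg
  calc (g * J₀ * sadj g) * (g * J₀ * sadj g) = g * J₀ * (sadj g * g) * J₀ * sadj g := by
        simp only [Matrix.mul_assoc]
    _ = g * (J₀ * J₀) * sadj g := by rw [hg, Matrix.mul_one]; simp only [Matrix.mul_assoc]
    _ = l • 1 := by rw [hJ, Matrix.mul_smul, Matrix.smul_mul, Matrix.mul_one, hg']

theorem transfer_adj (hJ : sadj J₀ = J₀) : sadj (g * J₀ * sadj g) = g * J₀ * sadj g := by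
  rw [sadj_mul, sadj_mul, sadj_sadj, hJ, Matrix.mul_assoc]

theorem transfer_comm (hg : sadj g * g = 1) (hx : x * g = g * x₀) (hc : x₀ * J₀ = J₀ * x₀) :
    x * (g * J₀ * sadj g) = (g * J₀ * sadj g) * x := by
  have h1 := sadj_conj g x x₀ hg hx
  calc x * (g * J₀ * sadj g) = (x * g) * J₀ * sadj g := by simp only [Matrix.mul_assoc]
    _ = g * (x₀ * J₀) * sadj g := by rw [hx]; simp only [Matrix.mul_assoc]
    _ = g * J₀ * (x₀ * sadj g) := by rw [hc]; simp only [Matrix.mul_assoc]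
    _ = (g * J₀ * sadj g) * x := by rw [← h1]; simp only [Matrix.mul_assoc]

theorem transfer_anti (hg : sadj g * g = 1) (hx : x * g = g * x₀) (hc : x₀ * J₀ = -(J₀ * x₀)) :
    x * (g * J₀ * sadj g) = -((g * J₀ * sadj g) * x) := by
  have h1 := sadj_conj g x x₀ hg hx
  calc x * (g * J₀ * sadj g) = (x * g) * J₀ * sadj g := by simp only [Matrix.mul_assoc]
    _ = g * (x₀ * J₀) * sadj g := by rw [hx]; simp only [Matrix.mul_assoc]
    _ = -(g * J₀ * (x₀ * sadj g)) := by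
        rw [hc]; simp only [Matrix.mul_assoc, Matrix.mul_neg, Matrix.neg_mul]
    _ = -((g * J₀ * sadj g) * x) := by rw [← h1]; simp only [Matrix.mul_assoc]

end transfer

end Cfsg.Agent.Lib.Helper8.SpFCommon
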