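import Mathlib
import Cfsg.Agent.Lib.Helper41.SpFStmt
import Cfsg.Agent.Lib.Helper37.InvConj
import Cfsg.Agent.Lib.Helper8.SpFCommon

/-!
# S5975 / INV4NS, INV4NN: for `x ∈ Sp_4(F)` with `x² = -1` there is a self-adjoint `J'`
with `J'² = l` commuting with `x` (one construction, whether or not `-1` is a square)
-/

set_option autoImplicit false

namespace Cfsg.Agent.Lib.Helper8.SpFINV4N

open Matrix
open Cfsg.Agent.Lib.Helper40.SympConj
open Cfsg.Agent.Lib.Helper8.SpFCommon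

universe u

variable {F : Type u} [Field F]

theorem exists_ne_zero_perp (p q : Fin 2 ⊕ Fin 2 → F) :
    ∃ w : Fin 2 ⊕ Fin 2 → F, w ≠ 0 ∧ w ⬝ᵥ p = 0 ∧ w ⬝ᵥ q = 0 := by
  classical
  let φ : (Fin 2 ⊕ Fin 2 → F) →ₗ[F] (Fin 2 → F) :=
    { toFun := fun v => ![v ⬝ᵥ p, v ⬝ᵥ q]
      map_add' := by intro v w; ext i; fin_cases i <;> simp [add_dotProduct]
      map_smul' := by intro c v; ext i; fin_cases i <;> simp [smul_dotProduct] }
  have hlt : Module.finrank F (Fin 2 → F) < Module.finrank F (Fin 2 ⊕ Fin 2 → F) := by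
    simp
  have hker := LinearMap.ker_ne_bot_of_finrank_lt hlt (f := φ)
  obtain ⟨w, hw, hw0⟩ := (Submodule.ne_bot_iff _).mp hker
  have hw' : φ w = 0 := LinearMap.mem_ker.mp hw
  refine ⟨w, hw0, ?_, ?_⟩
  · have := congrFun hw' 0
    simpa [φ] using this
  · have := congrFun hw' 1
    simpa [φ] using this

theorem core [Fintype F] (h2 : (2 : F) ≠ 0) (l : F) (hl0 : l ≠ 0)
    (x : Matrix (Fin 2 ⊕ Fin 2) (Fin 2 ⊕ Fin 2) F) (hx : sadj x * x = 1) (hxx : x * x = -1) :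
    ∃ J' : Matrix (Fin 2 ⊕ Fin 2) (Fin 2 ⊕ Fin 2) F,
      J' * J' = l • 1 ∧ sadj J' = J' ∧ x * J' = J' * x := by
  classical
  have hadj : sadj x = -x := by
    calc sadj x = sadj x * (x * (-x)) := by rw [Matrix.mul_neg, hxx, neg_neg, Matrix.mul_one]
      _ = (sadj x * x) * (-x) := by rw [Matrix.mul_assoc]
      _ = -x := by rw [hx, Matrix.one_mul]
  have X2 : ∀ u : Fin 2 ⊕ Fin 2 → F, x *ᵥ (x *ᵥ u) = -u := by
    intro u
    rw [Matrix.mulVec_mulVec, hxx, Matrix.neg_mulVec, Matrix.one_mulVec]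
  -- `sf (x u) v = - sf u (x v)`
  have S1 : ∀ u v : Fin 2 ⊕ Fin 2 → F, sf (x *ᵥ u) v = - sf u (x *ᵥ v) := by
    intro u v
    rw [sf_adj, hadj, Matrix.neg_mulVec, sf_neg_right]
  -- symmetry of `h u v = sf u (x v)`
  have S2 : ∀ u v : Fin 2 ⊕ Fin 2 → F, sf v (x *ᵥ u) = sf u (x *ᵥ v) := by
    intro u v
    rw [sf_skew (x *ᵥ u) v, S1, neg_neg]
  have S3 : ∀ u v : Fin 2 ⊕ Fin 2 → F, sf (x *ᵥ u) (x *ᵥ v) = sf u v := by
    intro u v
    rw [S1, X2, sf_neg_right, neg_neg]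
  have two : ∀ t : F, 2 * t = 0 → t = 0 := by
    intro t ht
    rcases mul_eq_zero.mp ht with h | h
    · exact absurd h h2
    · exact h
  -- step 1: a vector with `sf u₁ (x u₁) ≠ 0`
  have E1 : ∃ u₁ : Fin 2 ⊕ Fin 2 → F, sf u₁ (x *ᵥ u₁) ≠ 0 := by
    by_contra H
    push Not at H
    have H2 : ∀ u v : Fin 2 ⊕ Fin 2 → F, sf u (x *ᵥ v) = 0 := by
      intro u v
      have h := H (u + v)
      rw [Matrix.mulVec_add, sf_add_left, sf_add_right, sf_add_right, H u, H v, S2 u v] at h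
      exact two _ (by linear_combination h)
    have H3 : ∀ v : Fin 2 ⊕ Fin 2 → F, x *ᵥ v = 0 := by
      intro v
      apply sf_nondeg
      intro w
      rw [sf_skew w (x *ᵥ v), H2, neg_zero]
    have H4 : ∀ v : Fin 2 ⊕ Fin 2 → F, v = 0 := by
      intro v
      have h := X2 v
      rw [H3 v, Matrix.mulVec_zero] at h
      exact neg_eq_zero.mp h.symm
    have h5 := congrFun (H4 (Pi.single (Sum.inl 0) 1)) (Sum.inl 0)
    simp at h5
  obtain ⟨u₁, hα⟩ := E1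
  set α : F := sf u₁ (x *ᵥ u₁) with hαdef
  -- step 2: a vector `u₂ ⊥ u₁, x u₁` with `sf u₂ (x u₂) ≠ 0`
  have E2 : ∃ u₂ : Fin 2 ⊕ Fin 2 → F, sf u₂ u₁ = 0 ∧ sf u₂ (x *ᵥ u₁) = 0 ∧
      sf u₂ (x *ᵥ u₂) ≠ 0 := by
    by_contra H
    push Not at H
    obtain ⟨w, hw0, hw1, hw2⟩ := exists_ne_zero_perp (J (Fin 2) F *ᵥ u₁)
      (J (Fin 2) F *ᵥ (x *ᵥ u₁))
    have hw1' : sf w u₁ = 0 := hw1
    have hw2' : sf w (x *ᵥ u₁) = 0 := hw2
    have hxw : x *ᵥ w ≠ 0 := by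
      intro h
      have h' := X2 w
      rw [h, Matrix.mulVec_zero] at h'
      exact hw0 (neg_eq_zero.mp h'.symm)
    have hex : ∃ v : Fin 2 ⊕ Fin 2 → F, sf v (x *ᵥ w) ≠ 0 := by
      by_contra H'
      push Not at H'
      apply hxw
      apply sf_nondeg
      intro z
      rw [sf_skew z (x *ᵥ w), H', neg_zero]
    obtain ⟨v, hv⟩ := hex
    set v' : Fin 2 ⊕ Fin 2 → F :=
      v - (sf v (x *ᵥ u₁) / α) • u₁ + (sf v u₁ / α) • (x *ᵥ u₁) with hv'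
    have a1 : sf (x *ᵥ u₁) u₁ = -α := by rw [sf_skew u₁ (x *ᵥ u₁)]
    have hv'1 : sf v' u₁ = 0 := by
      rw [hv', sf_add_left, sf_sub_left, sf_smul_left, sf_smul_left, sf_self, a1]
      field_simp
      ring
    have hv'2 : sf v' (x *ᵥ u₁) = 0 := by
      rw [hv', sf_add_left, sf_sub_left, sf_smul_left, sf_smul_left, S3, sf_self, ← hαdef]
      field_simp
      ring
    have b1 : sf u₁ (x *ᵥ w) = 0 := by rw [S2 w u₁, hw2']
    have b2 : sf (x *ᵥ u₁) (x *ᵥ w) = 0 := by rw [S3, sf_skew w u₁, hw1', neg_zero]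
    have hv'3 : sf v' (x *ᵥ w) = sf v (x *ᵥ w) := by
      rw [hv', sf_add_left, sf_sub_left, sf_smul_left, sf_smul_left, b1, b2]
      ring
    have c1 := H v' hv'1 hv'2
    have c2 := H w hw1' hw2'
    have c3 : sf (v' + w) (x *ᵥ (v' + w)) = 0 := by
      apply H
      · rw [sf_add_left, hv'1, hw1', add_zero]
      · rw [sf_add_left, hv'2, hw2', add_zero]
    rw [Matrix.mulVec_add, sf_add_left, sf_add_right, sf_add_right, c1, c2, S2 v' w, hv'3] at c3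
    exact hv (two _ (by linear_combination c3))
  obtain ⟨u₂, hu1, hu2, hβ⟩ := E2
  set β : F := sf u₂ (x *ᵥ u₂) with hβdef
  -- step 3: `a² + b² = l α / β`
  obtain ⟨a, b, hab⟩ := Cfsg.Agent.Lib.Helper37.InvConj.exists_norm (-1 : F) (l * α / β)
    (neg_ne_zero.mpr one_ne_zero)
  have hab' : (a ^ 2 + b ^ 2) * β = l * α := by
    have : a ^ 2 + b ^ 2 = l * α / β := by linear_combination hab
    rw [this]
    field_simp
  set e₂ : Fin 2 ⊕ Fin 2 → F := a • u₂ + b • (x *ᵥ u₂) with he₂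
  have hxe₂ : x *ᵥ e₂ = a • (x *ᵥ u₂) - b • u₂ := by
    rw [he₂, Matrix.mulVec_add, Matrix.mulVec_smul, Matrix.mulVec_smul, X2, smul_neg,
      sub_eq_add_neg]
  have d1 : sf (x *ᵥ u₂) u₂ = -β := by rw [sf_skew u₂ (x *ᵥ u₂)]
  have hq : sf e₂ (x *ᵥ e₂) = l * α := by
    rw [hxe₂, he₂]
    simp only [sf_add_left, sf_sub_right, sf_smul_left, sf_smul_right, S3, sf_self, d1, ← hβdef]
    linear_combination hab'
  -- orthogonality of `e₂, x e₂` to `u₁, x u₁`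
  have o1 : sf u₁ u₂ = 0 := by rw [sf_skew u₂ u₁, hu1, neg_zero]
  have o2 : sf u₁ (x *ᵥ u₂) = 0 := by rw [S2 u₂ u₁, hu2]
  have o3 : sf (x *ᵥ u₁) u₂ = 0 := by rw [sf_skew u₂ (x *ᵥ u₁), hu2, neg_zero]
  have o4 : sf (x *ᵥ u₁) (x *ᵥ u₂) = 0 := by rw [S3, o1]
  have p1 : sf u₁ e₂ = 0 := by
    rw [he₂, sf_add_right, sf_smul_right, sf_smul_right, o1, o2]; ring
  have p2 : sf u₁ (x *ᵥ e₂) = 0 := by
    rw [hxe₂, sf_sub_right, sf_smul_right, sf_smul_right, o1, o2]; ring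
  have p3 : sf (x *ᵥ u₁) e₂ = 0 := by
    rw [he₂, sf_add_right, sf_smul_right, sf_smul_right, o3, o4]; ring
  have p4 : sf (x *ᵥ u₁) (x *ᵥ e₂) = 0 := by
    rw [hxe₂, sf_sub_right, sf_smul_right, sf_smul_right, o3, o4]; ring
  have hlα : l * α ≠ 0 := mul_ne_zero hl0 hα
  set g := gm u₁ (α⁻¹ • (x *ᵥ u₁)) e₂ ((l * α)⁻¹ • (x *ᵥ e₂)) with hg
  have hgs : sadj g * g = 1 := by
    apply gm_symp
    · rw [sf_smul_right, ← hαdef, inv_mul_cancel₀ hα]
    · rw [sf_smul_right, hq, inv_mul_cancel₀ hlα]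
    · exact p1
    · rw [sf_smul_right, p2, mul_zero]
    · rw [sf_smul_left, p3, mul_zero]
    · rw [sf_smul_left, sf_smul_right, p4, mul_zero, mul_zero]
  have hxg : x * g = g * X0N α (l * α) := by
    apply mul_gm_X0N
    · rw [smul_smul, mul_inv_cancel₀ hα, one_smul]
    · rw [smul_smul, mul_inv_cancel₀ hlα, one_smul]
    · rw [Matrix.mulVec_smul, X2, smul_neg]
    · rw [Matrix.mulVec_smul, X2, smul_neg]
  exact ⟨g * J0 l * sadj g, transfer_sq g (J0 l) l hgs (J0_sq l), transfer_adj g (J0 l) (J0_adj l),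
    transfer_comm g (J0 l) x (X0N α (l * α)) hgs hxg (X0N_comm l α hl0 hα)⟩

theorem ne_zero_of_not_isSquare (l : F) (hl : ¬ IsSquare l) : l ≠ 0 := by
  rintro rfl
  exact hl ⟨0, by simp⟩

end Cfsg.Agent.Lib.Helper8.SpFINV4N
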