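import Mathlib
import Cfsg.Agent.Lib.Helper41.SpFStmt
import Cfsg.Agent.Lib.Helper8.SpFINV4N

/-!
# S5975 / INV4NS
-/

set_option autoImplicit false

namespace Cfsg.Agent.Lib.Helper8.SpFINV4NS

universe u

theorem main : Cfsg.Agent.Lib.Helper41.SpFStmt.Inv4NS.{u} := by
  intro F _ _ h2 l hl _ x hx hxx
  exact Cfsg.Agent.Lib.Helper8.SpFINV4N.core h2 l
    (Cfsg.Agent.Lib.Helper8.SpFINV4N.ne_zero_of_not_isSquare l hl) x hx hxx

end Cfsg.Agent.Lib.Helper8.SpFINV4NS
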