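import Mathlib
import Cfsg.Agent.Lib.Helper41.SpFStmt
import Cfsg.Agent.Lib.Helper8.SpFCommon

/-!
# S5975 / TRANS4: `Sp_4` is transitive on self-adjoint `J` with `J² = l` a non-square
-/

set_option autoImplicit false

namespace Cfsg.Agent.Lib.Helper8.SpFTRANS4

open Matrix
open Cfsg.Agent.Lib.Helper40.SympConj
open Cfsg.Agent.Lib.Helper8.SpFCommon

universe u

variable {F : Type u} [Field F]

/-- A self-adjoint `J` with `J² = l` (non-square) is `Sp_4`-conjugate to `J0 l`. -/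
theorem exists_std (h2 : (2 : F) ≠ 0) (l : F) (hl : ¬ IsSquare l)
    (J : Matrix (Fin 2 ⊕ Fin 2) (Fin 2 ⊕ Fin 2) F) (hJ : J * J = l • 1) (hadj : sadj J = J) :
    ∃ g : Matrix (Fin 2 ⊕ Fin 2) (Fin 2 ⊕ Fin 2) F, sadj g * g = 1 ∧ J * g = g * J0 l := by
  classical
  have hl0 : l ≠ 0 := by
    rintro rfl
    exact hl ⟨0, by simp⟩
  have A1 : ∀ u u' : Fin 2 ⊕ Fin 2 → F, sf (J *ᵥ u) u' = sf u (J *ᵥ u') := by
    intro u u'
    rw [sf_adj, hadj]
  have A2 : ∀ u : Fin 2 ⊕ Fin 2 → F, J *ᵥ (J *ᵥ u) = l • u := by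
    intro u
    rw [Matrix.mulVec_mulVec, hJ, Matrix.smul_mulVec, Matrix.one_mulVec]
  have A3 : ∀ u : Fin 2 ⊕ Fin 2 → F, sf u (J *ᵥ u) = 0 := by
    intro u
    have h := sf_skew u (J *ᵥ u)
    rw [A1] at h
    have h' : (2 : F) * sf u (J *ᵥ u) = 0 := by linear_combination h
    rcases mul_eq_zero.mp h' with h'' | h''
    · exact absurd h'' h2
    · exact h''
  set v : Fin 2 ⊕ Fin 2 → F := Pi.single (Sum.inr 0) 1 with hv
  set w₀ : Fin 2 ⊕ Fin 2 → F := Pi.single (Sum.inl 0) 1 with hw₀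
  have hvw₀ : sf v w₀ = 1 := by
    simp [sf, hv, hw₀, Matrix.J]
  set c : F := sf (J *ᵥ v) w₀ with hc
  have hD : l - c ^ 2 ≠ 0 := by
    intro h
    exact hl ⟨c, by linear_combination h⟩
  set w : Fin 2 ⊕ Fin 2 → F := (l / (l - c ^ 2)) • w₀ - (c / (l - c ^ 2)) • (J *ᵥ w₀) with hw
  have hvw : sf v w = 1 := by
    rw [hw, sf_sub_right, sf_smul_right, sf_smul_right, ← A1, ← hc, hvw₀]
    field_simp
  have hJvw : sf (J *ᵥ v) w = 0 := by
    rw [hw, sf_sub_right, sf_smul_right, sf_smul_right, ← hc, A1 v (J *ᵥ w₀), A2, sf_smul_right,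
      hvw₀]
    field_simp
    ring
  refine ⟨gm v w (J *ᵥ v) (l⁻¹ • (J *ᵥ w)), ?_, ?_⟩
  · apply gm_symp
    · exact hvw
    · rw [sf_smul_right, A1, A2, sf_smul_right, hvw]
      field_simp
    · exact A3 v
    · rw [sf_smul_right, ← A1, hJvw, mul_zero]
    · rw [sf_skew (J *ᵥ v) w, hJvw, neg_zero]
    · rw [sf_smul_right, A3, mul_zero]
  · apply mul_gm_J0
    · rfl
    · exact A2 v
    · rw [smul_smul, mul_inv_cancel₀ hl0, one_smul]
    · rw [Matrix.mulVec_smul, A2, smul_smul, inv_mul_cancel₀ hl0, one_smul]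

theorem main : Cfsg.Agent.Lib.Helper41.SpFStmt.Trans4.{u} := by
  intro F _ h2 l hl J J' hJ hJ' hadj hadj'
  obtain ⟨g₁, hg₁, hc₁⟩ := exists_std h2 l hl J hJ hadj
  obtain ⟨g₂, hg₂, hc₂⟩ := exists_std h2 l hl J' hJ' hadj'
  have hg₂' := mul_sadj_self g₂ hg₂
  have h1 := sadj_conj g₂ J' (J0 l) hg₂ hc₂
  refine ⟨g₁ * sadj g₂, ?_, ?_⟩
  · rw [sadj_mul, sadj_sadj]
    calc g₂ * sadj g₁ * (g₁ * sadj g₂) = g₂ * (sadj g₁ * g₁) * sadj g₂ := by
          simp only [Matrix.mul_assoc]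
      _ = 1 := by rw [hg₁, Matrix.mul_one, hg₂']
  · calc g₁ * sadj g₂ * J' = g₁ * (sadj g₂ * J') := by simp only [Matrix.mul_assoc]
      _ = (g₁ * J0 l) * sadj g₂ := by rw [h1]; simp only [Matrix.mul_assoc]
      _ = J * (g₁ * sadj g₂) := by rw [← hc₁]; simp only [Matrix.mul_assoc]

end Cfsg.Agent.Lib.Helper8.SpFTRANS4
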