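import Mathlib
import Cfsg.Agent.Lib.Helper44.TSStmt
import Cfsg.Agent.Lib.Helper8.HypHYPSUB

/-!
# S5972 / TSIN: a nondegenerate subspace of dimension `> 2 j` contains a totally singular
`j`-space
-/

set_option autoImplicit false

namespace Cfsg.Agent.Lib.Helper8.TSTSIN

open Module QuadraticMap
open Cfsg.Agent.Lib.Helper44.QSpace Cfsg.Agent.Lib.Helper44.NegPairs Cfsg.Agent.Lib.Helper44.OEmb
open Cfsg.Agent.Lib.Helper44.WittND Cfsg.Agent.Lib.Helper44.WittND2
open Cfsg.Agent.Lib.Helper44.TSTrans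
open Cfsg.Agent.Lib.Helper37.HypStmt Cfsg.Agent.Lib.Helper37.HypStmt2
open Cfsg.Agent.Lib.Helper44.TSStmt
open Cfsg.Agent.Lib.Helper8.HypHYPSUB

universe u

theorem main : TsIn.{u} := by
  intro F _ _ hodd d Y j hY hj
  classical
  have hY' : NDsub (oddQ d F) Y := ndsub_of_ndeg hY
  have hfH : finrank F (Fin j ⊕ Fin j → F) = 2 * j := by
    rw [Module.finrank_fintype_fun_eq_card, Fintype.card_sum, Fintype.card_fin]
    ring
  obtain ⟨φ, hφ⟩ := exists_embedding j (Fin j ⊕ Fin j → F) (plusQ j F) Y (res (oddQ d F) Y) hfH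
    (by rw [hfH]; exact hj) (sep_plusQ j) (sep_res_of_ndsub hY')
  have hinj := isom_inj (sep_plusQ j) φ hφ
  refine ⟨LinearMap.range (Y.subtype ∘ₗ φ ∘ₗ inlMap j), ?_, ?_, ?_⟩
  · rintro _ ⟨a, rfl⟩
    exact (φ (inlMap j a)).2
  · rintro _ ⟨a, rfl⟩
    have h5 := hφ (inlMap j a)
    rw [res_apply, plusQ_inlMap] at h5
    exact h5
  · have hinj2 : Function.Injective (Y.subtype ∘ₗ φ ∘ₗ inlMap j) := by
      rw [LinearMap.coe_comp, LinearMap.coe_comp]
      exact (Y.subtype_injective.comp hinj).comp (inlMap_inj j)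
    rw [LinearMap.finrank_range_of_inj hinj2, Module.finrank_fintype_fun_eq_card,
      Fintype.card_fin]

end Cfsg.Agent.Lib.Helper8.TSTSIN
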