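import Mathlib
import Cfsg.Prelude.Def_SporadicCombinatorics

set_option autoImplicit false

namespace Cfsg.Agent.Lib.Helper8.TernaryGolay

open Finset Cfsg

theorem sum_zmod3 (f : ZMod 3 → ZMod 3) : ∑ r : ZMod 3, f r = f 0 + f 1 + f 2 :=
  Fin.sum_univ_three f

/-- A word on the 4 × 3 array given by a table. -/
def tab (m : Fin 4 → Fin 3 → ZMod 3) : ArrayPt → ZMod 3 := fun p => m p.1 p.2

/-- The word of the ternary code with given information symbols. -/
def wd (a0 a1 a2 a3 a4 a5 : ZMod 3) : ArrayPt → ZMod 3 :=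
  tab ![![a0, a1, a2],
    ![a3, a4, a0 + a1 + a2 + 2 * a3 + 2 * a4],
    ![a5, 2 * a1 + a2 + 2 * a3 + a4 + a5, a0 + 2 * a1 + a3 + 2 * a4 + a5],
    ![a0 + 2 * a1 + 2 * a2 + 2 * a3 + 2 * a5, a0 + a2 + a3 + a4 + 2 * a5, 2 * a0 + 2 * a1 + a2 + 2 * a4 + 2 * a5]]

theorem parity {x : ArrayPt → ZMod 3} (hx : x ∈ ternaryGolayCode) :
    x (1, 2) = x (0, 0) + x (0, 1) + x (0, 2) + 2 * x (1, 0) + 2 * x (1, 1) ∧
    x (2, 1) = 2 * x (0, 1) + x (0, 2) + 2 * x (1, 0) + x (1, 1) + x (2, 0) ∧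
    x (2, 2) = x (0, 0) + 2 * x (0, 1) + x (1, 0) + 2 * x (1, 1) + x (2, 0) ∧
    x (3, 0) = x (0, 0) + 2 * x (0, 1) + 2 * x (0, 2) + 2 * x (1, 0) + 2 * x (2, 0) ∧
    x (3, 1) = x (0, 0) + x (0, 2) + x (1, 0) + x (1, 1) + 2 * x (2, 0) ∧
    x (3, 2) = 2 * x (0, 0) + 2 * x (0, 1) + x (0, 2) + 2 * x (1, 1) + 2 * x (2, 0) := by
  obtain ⟨s, hs, hT⟩ := hx
  have h3 : (3 : ZMod 3) = 0 := by decide
  have hC0 := hs 0
  have hC1 := hs 1
  have hC2 := hs 2
  have hC3 := hs 3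
  rw [sum_zmod3] at hC0 hC1 hC2 hC3
  have hT0 := hT ![0, 0, 0, 0] (Submodule.mem_span_pair.2 ⟨0, 0, by decide⟩)
  have hT1 := hT ![1, 0, 1, 2] (Submodule.mem_span_pair.2 ⟨0, 1, by decide⟩)
  have hT3 := hT ![0, 1, 1, 1] (Submodule.mem_span_pair.2 ⟨1, 0, by decide⟩)
  simp only [Fin.sum_univ_four, Matrix.cons_val_zero, Matrix.cons_val_one, Matrix.cons_val] at hT0 hT1 hT3
  refine ⟨?_, ?_, ?_, ?_, ?_, ?_⟩
  · linear_combination (2) * hC0 + (1) * hC1 + ((-1) * x (0, 0) + (-1) * x (0, 1) + (-1) * x (0, 2) + (-1) * x (1, 0) + (-1) * x (1, 1) + (-1) * s) * h3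
  · linear_combination (2) * hC0 + (1) * hC3 + (2) * hT0 + (2) * hT1 + (2) * hT3 + ((-2) * x (0, 0) + (-2) * x (0, 1) + (-1) * x (0, 2) + (-2) * x (1, 0) + (-1) * x (1, 1) + (-1) * x (2, 0) + (-1) * x (2, 1) + (-1) * x (3, 0) + (-1) * x (3, 1) + (-1) * x (3, 2) + (1) * s) * h3
  · linear_combination (1) * hC2 + (2) * hC3 + (1) * hT0 + (1) * hT1 + (1) * hT3 + ((-1) * x (0, 0) + (-1) * x (0, 1) + (-1) * x (1, 0) + (-1) * x (1, 1) + (-1) * x (2, 0) + (-1) * x (2, 1) + (-1) * x (3, 0) + (-1) * x (3, 1) + (-1) * x (3, 2)) * h3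
  · linear_combination (1) * hC0 + (1) * hT0 + ((-1) * x (0, 0) + (-1) * x (0, 1) + (-1) * x (0, 2) + (-1) * x (1, 0) + (-1) * x (2, 0)) * h3
  · linear_combination (2) * hC0 + (2) * hC3 + (1) * hT0 + (1) * hT1 + (2) * hT3 + ((-2) * x (0, 0) + (-1) * x (0, 1) + (-1) * x (0, 2) + (-1) * x (1, 0) + (-1) * x (1, 1) + (-1) * x (2, 0) + (-1) * x (2, 1) + (-1) * x (3, 0) + (-1) * x (3, 1) + (-1) * x (3, 2)) * h3
  · linear_combination (2) * hC0 + (2) * hC3 + (1) * hT0 + (2) * hT1 + (1) * hT3 + ((-2) * x (0, 0) + (-2) * x (0, 1) + (-1) * x (0, 2) + (-1) * x (1, 0) + (-1) * x (1, 1) + (-1) * x (2, 0) + (-1) * x (2, 1) + (-1) * x (3, 0) + (-1) * x (3, 1) + (-1) * x (3, 2)) * h3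

theorem tet_mem {t : Fin 4 → ZMod 3} (ht : t ∈ tetracode) :
    ∃ a b : ZMod 3, t = ![b, a, a + b, a + 2 * b] := by
  obtain ⟨a, b, rfl⟩ := Submodule.mem_span_pair.1 ht
  refine ⟨a, b, ?_⟩
  funext i
  fin_cases i
  · simp
  · simp
  · simp
  · simp
    ring

/-- Decidable form of the defining conditions. -/
abbrev IsTG (x : ArrayPt → ZMod 3) : Prop :=
  ∃ s : ZMod 3, (∀ i : Fin 4, ∑ r : ZMod 3, x (i, r) = -s) ∧
    ∀ a b : ZMod 3, ∑ i : Fin 4, x (i, ![b, a, a + b, a + 2 * b] i) = s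

theorem mem_of_isTG {x : ArrayPt → ZMod 3} (h : IsTG x) : x ∈ ternaryGolayCode := by
  obtain ⟨s, hs, hT⟩ := h
  refine ⟨s, hs, ?_⟩
  intro t ht
  obtain ⟨a, b, rfl⟩ := tet_mem ht
  exact hT a b

theorem wd_isTG : ∀ a0 a1 a2 a3 a4 a5 : ZMod 3, IsTG (wd a0 a1 a2 a3 a4 a5) := by
  decide +kernel

theorem wd_mem (a0 a1 a2 a3 a4 a5 : ZMod 3) : wd a0 a1 a2 a3 a4 a5 ∈ ternaryGolayCode :=
  mem_of_isTG (wd_isTG a0 a1 a2 a3 a4 a5)

theorem forall_pt {P : ArrayPt → Prop} (h00 : P (0, 0)) (h01 : P (0, 1)) (h02 : P (0, 2))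
    (h10 : P (1, 0)) (h11 : P (1, 1)) (h12 : P (1, 2)) (h20 : P (2, 0)) (h21 : P (2, 1))
    (h22 : P (2, 2)) (h30 : P (3, 0)) (h31 : P (3, 1)) (h32 : P (3, 2)) : ∀ p, P p := by
  rintro ⟨i, r⟩
  have hr : r = 0 ∨ r = 1 ∨ r = 2 := by
    revert r
    decide
  fin_cases i <;> rcases hr with rfl | rfl | rfl <;> assumption

theorem eq_wd {x : ArrayPt → ZMod 3} (hx : x ∈ ternaryGolayCode) :
    x = wd (x (0, 0)) (x (0, 1)) (x (0, 2)) (x (1, 0)) (x (1, 1)) (x (2, 0)) := by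
  obtain ⟨h1, h2, h3, h4, h5, h6⟩ := parity hx
  funext p
  revert p
  apply forall_pt
  · rfl
  · rfl
  · rfl
  · rfl
  · rfl
  · exact h1
  · rfl
  · exact h2
  · exact h3
  · exact h4
  · exact h5
  · exact h6

/-- Information symbols as a tuple. -/
abbrev Inf : Type := ZMod 3 × ZMod 3 × ZMod 3 × ZMod 3 × ZMod 3 × ZMod 3

def info (x : ArrayPt → ZMod 3) : Inf :=
  (x (0, 0), x (0, 1), x (0, 2), x (1, 0), x (1, 1), x (2, 0))

def wdp (a : Inf) : ArrayPt → ZMod 3 :=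
  wd a.1 a.2.1 a.2.2.1 a.2.2.2.1 a.2.2.2.2.1 a.2.2.2.2.2

theorem wdp_info {x : ArrayPt → ZMod 3} (hx : x ∈ ternaryGolayCode) : wdp (info x) = x :=
  (eq_wd hx).symm

theorem info_wdp (a : Inf) : info (wdp a) = a := rfl

theorem wdp_mem (a : Inf) : wdp a ∈ ternaryGolayCode := wd_mem _ _ _ _ _ _

theorem wdp_injective : Function.Injective wdp := fun a b h => by
  rw [← info_wdp a, ← info_wdp b, h]

theorem card_code : Nat.card ternaryGolayCode = 729 := by
  have e : ternaryGolayCode ≃ Inf :=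
    { toFun := fun x => info x.1
      invFun := fun a => ⟨wdp a, wdp_mem a⟩
      left_inv := fun x => Subtype.ext (wdp_info x.2)
      right_inv := info_wdp }
  rw [Nat.card_congr e]
  simp

theorem ncard_eq (P : (ArrayPt → ZMod 3) → Prop) [DecidablePred P] :
    {x : ArrayPt → ZMod 3 | x ∈ ternaryGolayCode ∧ P x}.ncard
      = ((univ : Finset Inf).filter (fun a => P (wdp a))).card := by
  have h : {x : ArrayPt → ZMod 3 | x ∈ ternaryGolayCode ∧ P x}
      = ↑(((univ : Finset Inf).filter (fun a => P (wdp a))).image wdp) := by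
    ext x
    simp only [Set.mem_ofPred_eq, coe_image, coe_filter, mem_univ, true_and, Set.mem_image]
    constructor
    · rintro ⟨hx, hP⟩
      exact ⟨info x, by rw [wdp_info hx]; exact hP, wdp_info hx⟩
    · rintro ⟨a, hP, rfl⟩
      exact ⟨wdp_mem a, hP⟩
  rw [h, Set.ncard_coe_finset, Finset.card_image_of_injective _ wdp_injective]

/-- Weight of a word. -/
abbrev wt (x : ArrayPt → ZMod 3) : ℕ := (ternarySupport x).card

theorem wt_cases : ∀ a : Inf, wt (wdp a) = 0 ∨ wt (wdp a) = 6 ∨ wt (wdp a) = 9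
    ∨ wt (wdp a) = 12 := by
  decide +kernel

theorem count6 : ((univ : Finset Inf).filter (fun a => wt (wdp a) = 6)).card = 264 := by
  decide +kernel

theorem count9 : ((univ : Finset Inf).filter (fun a => wt (wdp a) = 9)).card = 440 := by
  decide +kernel

theorem count12 : ((univ : Finset Inf).filter (fun a => wt (wdp a) = 12)).card = 24 := by
  decide +kernel

theorem wt_eq_zero {x : ArrayPt → ZMod 3} : wt x = 0 ↔ x = 0 := by
  unfold wt ternarySupport
  rw [Finset.card_eq_zero, Finset.filter_eq_empty_iff]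
  constructor
  · intro h
    funext p
    have := h (mem_univ p)
    simpa using this
  · rintro rfl p _
    simp

theorem wt_mem {x : ArrayPt → ZMod 3} (hx : x ∈ ternaryGolayCode) (h0 : x ≠ 0) :
    wt x = 6 ∨ wt x = 9 ∨ wt x = 12 := by
  have h := wt_cases (info x)
  rw [wdp_info hx] at h
  rcases h with h | h
  · exact absurd (wt_eq_zero.1 h) h0
  · exact h

theorem orth {x y : ArrayPt → ZMod 3} (hx : x ∈ ternaryGolayCode) (hy : y ∈ ternaryGolayCode) :
    ∑ p, x p * y p = 0 := by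
  obtain ⟨hx1, hx2, hx3, hx4, hx5, hx6⟩ := parity hx
  obtain ⟨hy1, hy2, hy3, hy4, hy5, hy6⟩ := parity hy
  have h3 : (3 : ZMod 3) = 0 := by decide
  rw [Fintype.sum_prod_type]
  simp only [Fin.sum_univ_four, sum_zmod3]
  linear_combination y (1, 2) * hx1 + (x (0, 0) + x (0, 1) + x (0, 2) + 2 * x (1, 0) + 2 * x (1, 1)) * hy1 + y (2, 1) * hx2 + (2 * x (0, 1) + x (0, 2) + 2 * x (1, 0) + x (1, 1) + x (2, 0)) * hy2 + y (2, 2) * hx3 + (x (0, 0) + 2 * x (0, 1) + x (1, 0) + 2 * x (1, 1) + x (2, 0)) * hy3 + y (3, 0) * hx4 + (x (0, 0) + 2 * x (0, 1) + 2 * x (0, 2) + 2 * x (1, 0) + 2 * x (2, 0)) * hy4 + y (3, 1) * hx5 + (x (0, 0) + x (0, 2) + x (1, 0) + x (1, 1) + 2 * x (2, 0)) * hy5 + y (3, 2) * hx6 + (2 * x (0, 0) + 2 * x (0, 1) + x (0, 2) + 2 * x (1, 1) + 2 * x (2, 0)) * hy6 + (3 * x (0, 0) * y (0, 0) + 3 * x (0, 0) * y (0, 1) + 2 * x (0, 0) * y (0, 2) + 2 * x (0, 0) * y (1, 0) + 3 * x (0, 0) * y (1, 1) + 3 * x (0, 0) * y (2, 0) + 3 * x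 (0, 1) * y (0, 0) + 6 * x (0, 1) * y (0, 1) + 3 * x (0, 1) * y (0, 2) + 4 * x (0, 1) * y (1, 0) + 4 * x (0, 1) * y (1, 1) + 4 * x (0, 1) * y (2, 0) + 2 * x (0, 2) * y (0, 0) + 3 * x (0, 2) * y (0, 1) + 3 * x (0, 2) * y (0, 2) + 3 * x (0, 2) * y (1, 0) + 2 * x (0, 2) * y (1, 1) + 3 * x (0, 2) * y (2, 0) + 2 * x (1, 0) * y (0, 0) + 4 * x (1, 0) * y (0, 1) + 3 * x (1, 0) * y (0, 2) + 5 * x (1, 0) * y (1, 0) + 3 * x (1, 0) * y (1, 1) + 3 * x (1, 0) * y (2, 0) + 3 * x (1, 1) * y (0, 0) + 4 * x (1, 1) * y (0, 1) + 2 * x (1, 1) * y (0, 2) + 3 * x (1, 1) * y (1, 0) + 5 * x (1, 1) * y (1, 1) + 3 * x (1, 1) * y (2, 0) + 3 * x (2, 0) * y (0, 0) + 4 * x (2, 0) * y (0, 1) + 3 * x (2, 0) * y (0, 2) + 3 * x (2, 0) * y (1, 0) + 3 * x (2, 0) * y (1, 1) + 5 * x (2, 0) * y (2, 0)) * h3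

theorem wt_sub_add (x y : ArrayPt → ZMod 3) :
    wt (x - y) + wt (x + y) + 3 * (ternarySupport x ∩ ternarySupport y).card
      = 2 * wt x + 2 * wt y := by
  unfold wt ternarySupport
  rw [← Finset.filter_and]
  simp only [Finset.card_filter]
  rw [Finset.mul_sum, Finset.mul_sum, Finset.mul_sum, ← Finset.sum_add_distrib,
    ← Finset.sum_add_distrib, ← Finset.sum_add_distrib]
  apply Finset.sum_congr rfl
  intro p _
  have key : ∀ a b : ZMod 3, (if a - b ≠ 0 then 1 else 0) + (if a + b ≠ 0 then 1 else 0)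
      + 3 * (if a ≠ 0 ∧ b ≠ 0 then 1 else 0)
      = 2 * (if a ≠ 0 then 1 else 0) + 2 * (if b ≠ 0 then 1 else 0) := by decide
  exact key (x p) (y p)

theorem supp_neg (x : ArrayPt → ZMod 3) : ternarySupport (-x) = ternarySupport x := by
  unfold ternarySupport
  ext p
  simp

/-- Two words of weight 6 whose supports share five points are equal or opposite. -/
theorem eq_or_neg {x y : ArrayPt → ZMod 3} (hx : x ∈ ternaryGolayCode)
    (hy : y ∈ ternaryGolayCode) (h6x : wt x = 6) (h6y : wt y = 6)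
    (h5 : 5 ≤ (ternarySupport x ∩ ternarySupport y).card) : y = x ∨ y = -x := by
  by_contra hne
  push Not at hne
  have h1 : x - y ≠ 0 := fun h => hne.1 (sub_eq_zero.1 h).symm
  have h2 : x + y ≠ 0 := fun h => hne.2 (eq_neg_of_add_eq_zero_right h)
  have w1 := wt_mem (Submodule.sub_mem _ hx hy) h1
  have w2 := wt_mem (Submodule.add_mem _ hx hy) h2
  have := wt_sub_add x y
  omega

theorem ne_neg {x : ArrayPt → ZMod 3} (h0 : x ≠ 0) : x ≠ -x := by
  intro h
  apply h0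
  funext p
  have hp := congrFun h p
  have key : ∀ a : ZMod 3, a = -a → a = 0 := by decide
  exact key (x p) hp

/-- The words of weight 6 as a finset. -/
def S6 : Finset (ArrayPt → ZMod 3) :=
  ((univ : Finset Inf).filter (fun a => wt (wdp a) = 6)).image wdp

theorem mem_S6 {x : ArrayPt → ZMod 3} : x ∈ S6 ↔ x ∈ ternaryGolayCode ∧ wt x = 6 := by
  unfold S6
  simp only [mem_image, mem_filter, mem_univ, true_and]
  constructor
  · rintro ⟨a, hP, rfl⟩
    exact ⟨wdp_mem a, hP⟩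
  · rintro ⟨hx, hP⟩
    exact ⟨info x, by rw [wdp_info hx]; exact hP, wdp_info hx⟩

theorem card_S6 : S6.card = 264 := by
  unfold S6
  rw [Finset.card_image_of_injective _ wdp_injective]
  exact count6

theorem card_image_two {α β : Type*} [DecidableEq α] [DecidableEq β] (s : Finset α) (f : α → β)
    (hf : ∀ a ∈ s, (s.filter (fun a' => f a' = f a)).card = 2) :
    s.card = 2 * (s.image f).card := by
  rw [Finset.card_eq_sum_card_image f s, Finset.sum_const_nat (m := 2), mul_comm]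
  intro b hb
  obtain ⟨a, ha, rfl⟩ := mem_image.1 hb
  exact hf a ha

/-- The supports of the words of weight 6, as a finset. -/
def blocksF : Finset (Finset ArrayPt) := S6.image ternarySupport

theorem mem_blocksF {h : Finset ArrayPt} :
    h ∈ blocksF ↔ ∃ x ∈ ternaryGolayCode, ternarySupport x = h ∧ h.card = 6 := by
  unfold blocksF
  simp only [mem_image, mem_S6]
  constructor
  · rintro ⟨x, ⟨hx, h6⟩, rfl⟩
    exact ⟨x, hx, rfl, h6⟩
  · rintro ⟨x, hx, rfl, h6⟩
    exact ⟨x, ⟨hx, h6⟩, rfl⟩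

theorem card_blocksF : blocksF.card = 132 := by
  have h := card_image_two S6 ternarySupport (by
    intro x hx
    rw [mem_S6] at hx
    have hx0 : x ≠ 0 := by
      intro h0
      have := wt_eq_zero.2 h0
      omega
    have hset : S6.filter (fun y => ternarySupport y = ternarySupport x) = {x, -x} := by
      ext y
      simp only [mem_filter, mem_S6, mem_insert, mem_singleton]
      constructor
      · rintro ⟨⟨hy, h6⟩, hs⟩
        apply eq_or_neg hx.1 hy hx.2 h6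
        rw [hs, Finset.inter_self]
        have : (ternarySupport x).card = 6 := hx.2
        omega
      · rintro (rfl | rfl)
        · exact ⟨hx, rfl⟩
        · refine ⟨⟨Submodule.neg_mem _ hx.1, ?_⟩, supp_neg x⟩
          show (ternarySupport (-x)).card = 6
          rw [supp_neg]
          exact hx.2
    rw [hset, Finset.card_pair (ne_neg hx0)])
  rw [card_S6] at h
  unfold blocksF
  omega

theorem blocks_unique {b b' : Finset ArrayPt} (hb : b ∈ blocksF) (hb' : b' ∈ blocksF)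
    (h5 : 5 ≤ (b ∩ b').card) : b = b' := by
  rw [mem_blocksF] at hb hb'
  obtain ⟨x, hx, rfl, h6⟩ := hb
  obtain ⟨y, hy, rfl, h6'⟩ := hb'
  rcases eq_or_neg hx hy h6 h6' h5 with h | h
  · rw [h]
  · rw [h, supp_neg]

theorem eq_of_sum_eq {ι : Type*} (s : Finset ι) (f : ι → ℕ) (c n : ℕ) (hcard : s.card = n)
    (hle : ∀ i ∈ s, f i ≤ c) (hsum : ∑ i ∈ s, f i = c * n) : ∀ i ∈ s, f i = c := by
  have h2 : ∑ i ∈ s, f i = ∑ i ∈ s, c := by
    rw [hsum, sum_const, smul_eq_mul, mul_comm, hcard]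
  exact (Finset.sum_eq_sum_iff_of_le hle).1 h2

theorem blocks_through (s : Finset ArrayPt) (hs : s.card = 5) :
    (blocksF.filter (fun b => s ⊆ b)).card = 1 := by
  have hle : ∀ s ∈ powersetCard 5 (univ : Finset ArrayPt),
      (blocksF.filter (fun b => s ⊆ b)).card ≤ 1 := by
    intro s hs
    rw [mem_powersetCard] at hs
    rw [Finset.card_le_one]
    intro b hb b' hb'
    simp only [mem_filter] at hb hb'
    apply blocks_unique hb.1 hb'.1
    rw [← hs.2]
    exact card_le_card (subset_inter hb.2 hb'.2)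
  have hsum : ∑ s ∈ powersetCard 5 (univ : Finset ArrayPt),
      (blocksF.filter (fun b => s ⊆ b)).card = 1 * 792 := by
    let r : Finset ArrayPt → Finset ArrayPt → Prop := fun s b => s ⊆ b
    have key := sum_card_bipartiteAbove_eq_sum_card_bipartiteBelow
      (s := powersetCard 5 (univ : Finset ArrayPt)) (t := blocksF) r
    have hR : ∀ b ∈ blocksF,
        #((powersetCard 5 (univ : Finset ArrayPt)).bipartiteBelow r b) = 6 := by
      intro b hb
      rw [mem_blocksF] at hb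
      obtain ⟨x, hx, rfl, h6⟩ := hb
      have h1 : (powersetCard 5 (univ : Finset ArrayPt)).bipartiteBelow r (ternarySupport x)
          = powersetCard 5 (ternarySupport x) := by
        ext s
        simp only [mem_bipartiteBelow, mem_powersetCard, r]
        constructor
        · rintro ⟨⟨_, h2⟩, h3⟩
          exact ⟨h3, h2⟩
        · rintro ⟨h1, h2⟩
          exact ⟨⟨subset_univ _, h2⟩, h1⟩
      rw [h1, card_powersetCard, h6]
      decide
    rw [sum_congr rfl hR, sum_const, card_blocksF] at key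
    exact key
  have hcard : (powersetCard 5 (univ : Finset ArrayPt)).card = 792 := by
    rw [card_powersetCard, card_univ]
    decide
  exact eq_of_sum_eq _ _ 1 792 hcard hle hsum s
    (by rw [mem_powersetCard]; exact ⟨subset_univ _, hs⟩)

theorem unit_cases : ∀ u : (ZMod 3)ˣ, u = 1 ∨ u = -1 := by
  intro u
  have h0 : (u : ZMod 3) ≠ 0 := u.ne_zero
  have key : ∀ a : ZMod 3, a ≠ 0 → a = 1 ∨ a = -1 := by decide
  rcases key _ h0 with h | h
  · left
    exact Units.ext h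
  · right
    exact Units.ext (by rw [h]; simp)

/-- A sign change preserving the code is constant. -/
theorem same_sign {c : ArrayPt → (ZMod 3)ˣ}
    (h : ∀ x ∈ ternaryGolayCode, (fun i => (c i : ZMod 3) * x i) ∈ ternaryGolayCode)
    (p q : ArrayPt) : c p = c q := by
  have hc12 : 5 ≤ Fintype.card ArrayPt := by
    rw [Fintype.card_prod, Fintype.card_fin, ZMod.card]
    norm_num
  obtain ⟨s, hs1, hs2⟩ := Finset.exists_superset_card_eq (s := ({p, q} : Finset ArrayPt))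
    (n := 5) (by have := Finset.card_le_two (a := p) (b := q); omega) hc12
  have h1 := blocks_through s hs2
  obtain ⟨b, hb⟩ := Finset.card_eq_one.1 h1
  have hbm : b ∈ blocksF.filter (fun b => s ⊆ b) := by
    rw [hb]
    exact mem_singleton_self b
  rw [mem_filter, mem_blocksF] at hbm
  obtain ⟨⟨x, hx, rfl, h6⟩, hsub⟩ := hbm
  have hp : x p ≠ 0 := by
    have : p ∈ ternarySupport x := hsub (hs1 (by simp))
    simpa [ternarySupport] using this
  have hq : x q ≠ 0 := by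
    have : q ∈ ternarySupport x := hsub (hs1 (by simp))
    simpa [ternarySupport] using this
  have hy := h x hx
  have hsupp : ternarySupport (fun i => (c i : ZMod 3) * x i) = ternarySupport x := by
    unfold ternarySupport
    ext i
    simp
  have h6y : wt (fun i => (c i : ZMod 3) * x i) = 6 := by
    show (ternarySupport (fun i => (c i : ZMod 3) * x i)).card = 6
    rw [hsupp]
    exact h6
  have h5 : 5 ≤ (ternarySupport x ∩ ternarySupport (fun i => (c i : ZMod 3) * x i)).card := by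
    rw [hsupp, Finset.inter_self]
    omega
  rcases unit_cases (c p) with hcp | hcp <;> rcases unit_cases (c q) with hcq | hcq
  · rw [hcp, hcq]
  · exfalso
    rcases eq_or_neg hx hy h6 h6y h5 with h' | h'
    · have e2 := congrFun h' q
      simp only [hcq] at e2
      have k : ∀ a : ZMod 3, a ≠ 0 → ((-1 : (ZMod 3)ˣ) : ZMod 3) * a ≠ a := by decide
      exact k _ hq e2
    · have e1 := congrFun h' p
      simp only [hcp, Pi.neg_apply] at e1
      have k : ∀ a : ZMod 3, a ≠ 0 → ((1 : (ZMod 3)ˣ) : ZMod 3) * a ≠ -a := by decide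
      exact k _ hp e1
  · exfalso
    rcases eq_or_neg hx hy h6 h6y h5 with h' | h'
    · have e1 := congrFun h' p
      simp only [hcp] at e1
      have k : ∀ a : ZMod 3, a ≠ 0 → ((-1 : (ZMod 3)ˣ) : ZMod 3) * a ≠ a := by decide
      exact k _ hp e1
    · have e2 := congrFun h' q
      simp only [hcq, Pi.neg_apply] at e2
      have k : ∀ a : ZMod 3, a ≠ 0 → ((1 : (ZMod 3)ˣ) : ZMod 3) * a ≠ -a := by decide
      exact k _ hq e2
  · rw [hcp, hcq]

end Cfsg.Agent.Lib.Helper8.TernaryGolay
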