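import Mathlib
import Cfsg.Agent.Lib.Helper35.StemB
import Cfsg.Agent.Lib.Helper66.PrimeMult

/-!
Abstract lemmas for the 2-local analysis of central extensions: commutator images of an abelian
normal subgroup, the complement they give, and the commutator subgroup of a product.
-/

set_option autoImplicit false

namespace Cfsg.Agent.Lib.Helper8.TwoLocal

open Subgroup
open scoped commutatorElement

section cm

variable {Γ : Type*} [Group Γ]

/-- `A` is commutative and normalised by `g`. -/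
structure AbN (A : Subgroup Γ) (g : Γ) : Prop where
  comm : ∀ x ∈ A, ∀ y ∈ A, x * y = y * x
  conj : ∀ x ∈ A, g * x * g⁻¹ ∈ A
  conj' : ∀ x ∈ A, g⁻¹ * x * g ∈ A

variable {A : Subgroup Γ} {g : Γ}

theorem comm_mul (h : AbN A g) {x y : Γ} (hx : x ∈ A) (hy : y ∈ A) :
    ⁅x, g⁆ * ⁅y, g⁆ = ⁅x * y, g⁆ := by
  have hu : g * x⁻¹ * g⁻¹ ∈ A := h.conj _ (A.inv_mem hx)
  have hv : g * y⁻¹ * g⁻¹ ∈ A := h.conj _ (A.inv_mem hy)
  have e1 := h.comm _ hu _ hy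
  have e2 := h.comm _ hu _ hv
  calc ⁅x, g⁆ * ⁅y, g⁆ = x * ((g * x⁻¹ * g⁻¹) * y) * (g * y⁻¹ * g⁻¹) := by
        simp only [commutatorElement_def]; group
    _ = x * (y * (g * x⁻¹ * g⁻¹)) * (g * y⁻¹ * g⁻¹) := by rw [e1]
    _ = x * y * ((g * x⁻¹ * g⁻¹) * (g * y⁻¹ * g⁻¹)) := by group
    _ = x * y * ((g * y⁻¹ * g⁻¹) * (g * x⁻¹ * g⁻¹)) := by rw [e2]
    _ = ⁅x * y, g⁆ := by simp only [commutatorElement_def]; group

theorem comm_inv (h : AbN A g) {x : Γ} (hx : x ∈ A) : ⁅x, g⁆⁻¹ = ⁅x⁻¹, g⁆ := by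
  have := comm_mul h hx (A.inv_mem hx)
  rw [mul_inv_cancel, commutatorElement_one_left] at this
  exact inv_eq_of_mul_eq_one_right this

theorem comm_mem (h : AbN A g) {x : Γ} (hx : x ∈ A) : ⁅x, g⁆ ∈ A := by
  have : ⁅x, g⁆ = x * (g * x⁻¹ * g⁻¹) := by simp only [commutatorElement_def]; group
  rw [this]
  exact A.mul_mem hx (h.conj _ (A.inv_mem hx))

/-- The subgroup of the commutators `⁅x, g⁆`, `x ∈ A`. -/
def cm (A : Subgroup Γ) (g : Γ) (h : AbN A g) : Subgroup Γ where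
  carrier := {y | ∃ x ∈ A, y = ⁅x, g⁆}
  one_mem' := ⟨1, A.one_mem, by simp⟩
  mul_mem' := by
    rintro _ _ ⟨x, hx, rfl⟩ ⟨y, hy, rfl⟩
    exact ⟨x * y, A.mul_mem hx hy, comm_mul h hx hy⟩
  inv_mem' := by
    rintro _ ⟨x, hx, rfl⟩
    exact ⟨x⁻¹, A.inv_mem hx, comm_inv h hx⟩

theorem mem_cm (h : AbN A g) {y : Γ} : y ∈ cm A g h ↔ ∃ x ∈ A, y = ⁅x, g⁆ := Iff.rfl

theorem cm_le (h : AbN A g) : cm A g h ≤ A := by
  rintro _ ⟨x, hx, rfl⟩
  exact comm_mem h hx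

theorem cm_inf (h : AbN A g) (K : Subgroup Γ) (hK : K ≤ center Γ)
    (hfix : ∀ x ∈ A, ⁅x, g⁆ ∈ K → x ∈ K) : cm A g h ⊓ K = ⊥ := by
  rw [eq_bot_iff]
  rintro _ ⟨⟨x, hx, rfl⟩, hk⟩
  have hxc := Subgroup.mem_center_iff.mp (hK (hfix x hx hk))
  rw [Subgroup.mem_bot, commutatorElement_def, ← hxc g]
  group

theorem cm_conj_self (h : AbN A g) : ∀ y ∈ cm A g h, g * y * g⁻¹ ∈ cm A g h := by
  rintro _ ⟨x, hx, rfl⟩
  exact ⟨g * x * g⁻¹, h.conj x hx, by simp only [commutatorElement_def]; group⟩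

theorem cm_conj_self' (h : AbN A g) : ∀ y ∈ cm A g h, g⁻¹ * y * g ∈ cm A g h := by
  rintro _ ⟨x, hx, rfl⟩
  exact ⟨g⁻¹ * x * g, h.conj' x hx, by simp only [commutatorElement_def]; group⟩

theorem comm_mul_central_right {a b k : Γ} (hk : ∀ z : Γ, k * z = z * k) :
    ⁅a, b * k⁆ = ⁅a, b⁆ := by
  have e : ⁅a, b * k⁆ = a * b * (k * a⁻¹) * k⁻¹ * b⁻¹ := by
    simp only [commutatorElement_def]; group
  rw [e, hk a⁻¹]
  simp only [commutatorElement_def]; group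

theorem comm_central_mul_left {a b k : Γ} (hk : ∀ z : Γ, k * z = z * k) :
    ⁅k * a, b⁆ = ⁅a, b⁆ := by
  have e : ⁅k * a, b⁆ = (k * (a * b * a⁻¹)) * k⁻¹ * b⁻¹ := by
    simp only [commutatorElement_def]; group
  rw [e, hk (a * b * a⁻¹)]
  simp only [commutatorElement_def]; group

/-- An element `b` normalising `A` with `b g b⁻¹ ≡ g²` modulo a central subgroup normalises
`cm A g`. -/
theorem cm_conj_of_sq (h : AbN A g) (K : Subgroup Γ) (hK : K ≤ center Γ) {b : Γ}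
    (hb : ∀ x ∈ A, b * x * b⁻¹ ∈ A) (hbg : (g * g)⁻¹ * (b * g * b⁻¹) ∈ K) :
    ∀ y ∈ cm A g h, b * y * b⁻¹ ∈ cm A g h := by
  rintro _ ⟨x, hx, rfl⟩
  have hkc := Subgroup.mem_center_iff.mp (hK hbg)
  have hx' := hb x hx
  have e1 : b * ⁅x, g⁆ * b⁻¹ = ⁅b * x * b⁻¹, (g * g) * ((g * g)⁻¹ * (b * g * b⁻¹))⁆ := by
    simp only [commutatorElement_def]; group
  rw [e1, comm_mul_central_right (fun z => (hkc z).symm)]
  have e2 : ⁅b * x * b⁻¹, g * g⁆ = ⁅b * x * b⁻¹, g⁆ * (g * ⁅b * x * b⁻¹, g⁆ * g⁻¹) := by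
    simp only [commutatorElement_def]; group
  rw [e2]
  exact (cm A g h).mul_mem ⟨_, hx', rfl⟩ (cm_conj_self h _ ⟨_, hx', rfl⟩)

/-- If `A = K · cm A g` and `b` normalises `A` and `cm A g`, then `cm A b ≤ cm A g`. -/
theorem cm_le_cm (h : AbN A g) (K : Subgroup Γ) (hK : K ≤ center Γ) {b : Γ} (hb : AbN A b)
    (hsur : ∀ x ∈ A, ∃ k ∈ K, ∃ y ∈ cm A g h, x = k * y)
    (hbc : ∀ y ∈ cm A g h, b * y * b⁻¹ ∈ cm A g h) : cm A b hb ≤ cm A g h := by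
  rintro _ ⟨x, hx, rfl⟩
  obtain ⟨k, hk, y, hy, rfl⟩ := hsur x hx
  have hkc := Subgroup.mem_center_iff.mp (hK hk)
  rw [comm_central_mul_left (fun z => (hkc z).symm)]
  have : ⁅y, b⁆ = y * (b * y⁻¹ * b⁻¹) := by simp only [commutatorElement_def]; group
  rw [this]
  exact (cm A g h).mul_mem hy (hbc _ ((cm A g h).inv_mem hy))

/-- An element `u` normalising `A` and inverting `b` modulo a central subgroup normalises
`cm A b`. -/
theorem cm_conj_of_inv (K : Subgroup Γ) (hK : K ≤ center Γ) {b u : Γ} (hb : AbN A b)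
    (hu : ∀ x ∈ A, u * x * u⁻¹ ∈ A) (hub : b * (u * b * u⁻¹) ∈ K) :
    ∀ y ∈ cm A b hb, u * y * u⁻¹ ∈ cm A b hb := by
  rintro _ ⟨x, hx, rfl⟩
  have hkc := Subgroup.mem_center_iff.mp (hK hub)
  have hx' := hu x hx
  have e1 : u * ⁅x, b⁆ * u⁻¹ = ⁅u * x * u⁻¹, b⁻¹ * (b * (u * b * u⁻¹))⁆ := by
    simp only [commutatorElement_def]; group
  rw [e1, comm_mul_central_right (fun z => (hkc z).symm)]
  have hx'' : b⁻¹ * (u * x * u⁻¹)⁻¹ * b ∈ A := hb.conj' _ (A.inv_mem hx')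
  have e2 : ⁅u * x * u⁻¹, b⁻¹⁆ = (u * x * u⁻¹) * (b⁻¹ * (u * x * u⁻¹)⁻¹ * b) := by
    simp only [commutatorElement_def]; group
  have e3 : ⁅b⁻¹ * (u * x * u⁻¹)⁻¹ * b, b⁆ = (b⁻¹ * (u * x * u⁻¹)⁻¹ * b) * (u * x * u⁻¹) := by
    simp only [commutatorElement_def]; group
  rw [e2, hb.comm _ hx' _ hx'', ← e3]
  exact ⟨_, hx'', rfl⟩

theorem conj_inv_mem_of_finite (N : Subgroup Γ) [Finite N] (y : Γ)
    (h : ∀ x ∈ N, y * x * y⁻¹ ∈ N) : ∀ x ∈ N, y⁻¹ * x * y ∈ N := by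
  intro x hx
  let f : N → N := fun z => ⟨y * z * y⁻¹, h z z.2⟩
  have hf : Function.Injective f := by
    intro a b hab
    have : y * a * y⁻¹ = y * b * y⁻¹ := congrArg Subtype.val hab
    apply Subtype.ext
    simpa using this
  obtain ⟨z, hz⟩ := (Finite.injective_iff_surjective.mp hf) ⟨x, hx⟩
  have hz' : y * z * y⁻¹ = x := congrArg Subtype.val hz
  rw [← hz']
  have : y⁻¹ * (y * z * y⁻¹) * y = z := by group
  rw [this]
  exact z.2

/-- A fixed-point-free element acts surjectively by commutators on a finite abelian subgroup. -/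
theorem fpf_surj (E : Subgroup Γ) [Finite E] (h : AbN E g)
    (hfix : ∀ e ∈ E, ⁅e, g⁆ = 1 → e = 1) : ∀ e ∈ E, ∃ e' ∈ E, e = ⁅e', g⁆ := by
  intro e he
  let f : E → E := fun z => ⟨⁅(z : Γ), g⁆, comm_mem h z.2⟩
  have hf : Function.Injective f := by
    intro a b hab
    have e1 : ⁅(a : Γ), g⁆ = ⁅(b : Γ), g⁆ := congrArg Subtype.val hab
    have e2 : ⁅(a : Γ) * (b : Γ)⁻¹, g⁆ = 1 := by
      rw [← comm_mul h a.2 (E.inv_mem b.2), ← comm_inv h b.2, e1, mul_inv_cancel]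
    have e3 := hfix _ (E.mul_mem a.2 (E.inv_mem b.2)) e2
    apply Subtype.ext
    exact mul_inv_eq_one.mp e3
  obtain ⟨z, hz⟩ := (Finite.injective_iff_surjective.mp hf) ⟨e, he⟩
  exact ⟨z, z.2, (congrArg Subtype.val hz).symm⟩

/-- The key step: an element `u` normalising `cm A b ≤ cm A g` and inverting, modulo the central
subgroup `K`, an element `e0` which together with `cm A b` and `K` generates `A`, maps `cm A g`
into `cm A g` times the powers of `u e0 u⁻¹ e0`. -/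
theorem conj_mem_sup (h : AbN A g) (K : Subgroup Γ) (hK : K ≤ center Γ)
    (hfix : ∀ x ∈ A, ⁅x, g⁆ ∈ K → x ∈ K) {b u e0 : Γ} (hb : AbN A b)
    (hbg : cm A b hb ≤ cm A g h) (hub : ∀ y ∈ cm A b hb, u * y * u⁻¹ ∈ cm A b hb)
    (he0 : e0 ∈ cm A g h) (hβ : u * e0 * u⁻¹ * e0 ∈ K)
    (hdec : ∀ y ∈ A, ∃ k ∈ K, ∃ c ∈ cm A b hb, ∃ m : ℤ, y = k * c * e0 ^ m) :
    ∀ y ∈ cm A g h, ∃ y' ∈ cm A g h, ∃ n : ℤ, u * y * u⁻¹ = y' * (u * e0 * u⁻¹ * e0) ^ n := by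
  intro y hy
  obtain ⟨k, hk, c, hc, m, rfl⟩ := hdec y (cm_le h hy)
  have hcg : c ∈ cm A g h := hbg hc
  have hem : e0 ^ m ∈ cm A g h := (cm A g h).zpow_mem he0 m
  have hk1 : k = 1 := by
    have e : k = (k * c * e0 ^ m) * (c * e0 ^ m)⁻¹ := by group
    have hkm : k ∈ cm A g h := by
      rw [e]
      exact (cm A g h).mul_mem hy ((cm A g h).inv_mem ((cm A g h).mul_mem hcg hem))
    have : k ∈ cm A g h ⊓ K := ⟨hkm, hk⟩
    rwa [cm_inf h K hK hfix, Subgroup.mem_bot] at this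
  subst hk1
  set β := u * e0 * u⁻¹ * e0 with hβdef
  have hβc := Subgroup.mem_center_iff.mp (hK hβ)
  have e1 : u * e0 * u⁻¹ = β * e0⁻¹ := by rw [hβdef]; group
  have e2 : u * e0 ^ m * u⁻¹ = (u * e0 * u⁻¹) ^ m := (conj_zpow (a := u) (b := e0) (i := m)).symm
  have hcomm : Commute β e0⁻¹ := (hβc e0⁻¹).symm
  have e3 : (β * e0⁻¹) ^ m = β ^ m * e0⁻¹ ^ m := hcomm.mul_zpow m
  have hcomm2 : Commute (β ^ m) (e0⁻¹ ^ m) := (hcomm.zpow_left m).zpow_right m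
  refine ⟨(u * c * u⁻¹) * e0⁻¹ ^ m, ?_, m, ?_⟩
  · exact (cm A g h).mul_mem (hbg (hub c hc)) ((cm A g h).zpow_mem ((cm A g h).inv_mem he0) m)
  · calc u * (1 * c * e0 ^ m) * u⁻¹ = (u * c * u⁻¹) * (u * e0 ^ m * u⁻¹) := by group
      _ = (u * c * u⁻¹) * (β ^ m * e0⁻¹ ^ m) := by rw [e2, e1, e3]
      _ = (u * c * u⁻¹) * (e0⁻¹ ^ m * β ^ m) := by rw [hcomm2.eq]
      _ = (u * c * u⁻¹) * e0⁻¹ ^ m * β ^ m := by group

end cm

section product

variable {Γ : Type*} [Group Γ]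

/-- The commutator subgroup of `N ⊔ H` with `H` normalising `N`. -/
theorem comm_sup_le (N H : Subgroup Γ) (hN : H ≤ normalizer (N : Set Γ)) :
    ⁅N ⊔ H, N ⊔ H⁆ ≤ N ⊔ ⁅H, H⁆ := by
  rw [Subgroup.commutator_le]
  intro a ha b hb
  obtain ⟨n1, hn1, h1, hh1, rfl⟩ := Cfsg.Agent.Lib.Helper35.StemB.exists_mul_of_mem_sup hN ha
  obtain ⟨n2, hn2, h2, hh2, rfl⟩ := Cfsg.Agent.Lib.Helper35.StemB.exists_mul_of_mem_sup hN hb
  have hcj : ∀ k ∈ H, ∀ n ∈ N, k * n * k⁻¹ ∈ N := fun k hk n hn =>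
    (Subgroup.mem_normalizer_iff.mp (hN hk) n).mp hn
  have hd : ⁅h1, h2⁆ ∈ ⁅H, H⁆ := Subgroup.commutator_mem_commutator hh1 hh2
  have hdH : ⁅h1, h2⁆ ∈ H := Subgroup.commutator_le_self H hd
  have e : ⁅n1 * h1, n2 * h2⁆ = (n1 * (h1 * n2 * h1⁻¹) *
      ((h1 * h2 * h1⁻¹) * n1⁻¹ * (h1 * h2 * h1⁻¹)⁻¹) * (⁅h1, h2⁆ * n2⁻¹ * ⁅h1, h2⁆⁻¹)) * ⁅h1, h2⁆ := by
    simp only [commutatorElement_def]; group
  rw [e]
  refine Subgroup.mul_mem _ (Subgroup.mem_sup_left ?_) (Subgroup.mem_sup_right hd)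
  refine N.mul_mem (N.mul_mem (N.mul_mem hn1 (hcj h1 hh1 n2 hn2)) ?_) ?_
  · exact hcj _ (H.mul_mem (H.mul_mem hh1 hh2) (H.inv_mem hh1)) _ (N.inv_mem hn1)
  · exact hcj _ hdH _ (N.inv_mem hn2)

/-- Intersecting the commutator subgroup of `(E1 ⊔ B) ⊔ D'` with a central kernel. -/
theorem ker_inf_comm_le {Q : Type*} [Group Q] (τ : Γ →* Q) (hc : τ.ker ≤ center Γ)
    (E1 B D' : Subgroup Γ) (hE1 : E1 ⊓ τ.ker = ⊥) (hB : B ≤ τ.ker)
    (hD : D' ≤ normalizer ((E1 ⊔ B : Subgroup Γ) : Set Γ))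
    (E D : Subgroup Q) (hED : E ⊓ D = ⊥) (hmE : ∀ y ∈ E1, τ y ∈ E) (hmD : ∀ d ∈ D', τ d ∈ D) :
    ⁅(E1 ⊔ B) ⊔ D', (E1 ⊔ B) ⊔ D'⁆ ⊓ τ.ker ≤ B ⊔ (⁅D', D'⁆ ⊓ τ.ker) := by
  rintro z ⟨hz, hzk⟩
  have hz' := comm_sup_le (E1 ⊔ B) D' hD hz
  have hD2 : ⁅D', D'⁆ ≤ normalizer ((E1 ⊔ B : Subgroup Γ) : Set Γ) :=
    (Subgroup.commutator_le_self D').trans hD
  obtain ⟨n, hn, d, hd, rfl⟩ := Cfsg.Agent.Lib.Helper35.StemB.exists_mul_of_mem_sup hD2 hz'
  have hBn : B ≤ normalizer (E1 : Set Γ) := by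
    intro b hb
    rw [Subgroup.mem_normalizer_iff]
    intro x
    have hbc := Subgroup.mem_center_iff.mp (hc (hB hb))
    have : b * x * b⁻¹ = x := by rw [← hbc x]; group
    rw [this]
  obtain ⟨y, hy, b, hb, rfl⟩ := Cfsg.Agent.Lib.Helper35.StemB.exists_mul_of_mem_sup hBn hn
  have hbk : τ b = 1 := MonoidHom.mem_ker.mp (hB hb)
  have h1 : τ y * τ d = 1 := by
    have := MonoidHom.mem_ker.mp hzk
    rwa [map_mul, map_mul, hbk, mul_one] at this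
  have hyE : τ y ∈ E ⊓ D := by
    refine ⟨hmE y hy, ?_⟩
    have : τ y = (τ d)⁻¹ := eq_inv_of_mul_eq_one_left h1
    rw [this]
    exact D.inv_mem (hmD d (Subgroup.commutator_le_self D' hd))
  rw [hED, Subgroup.mem_bot] at hyE
  have hy1 : y = 1 := by
    have : y ∈ E1 ⊓ τ.ker := ⟨hy, MonoidHom.mem_ker.mpr hyE⟩
    rwa [hE1, Subgroup.mem_bot] at this
  have hdk : d ∈ τ.ker := by
    rw [MonoidHom.mem_ker]
    rw [hyE, one_mul] at h1
    exact h1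
  subst hy1
  rw [one_mul]
  exact Subgroup.mul_mem _ (Subgroup.mem_sup_left hb) (Subgroup.mem_sup_right ⟨hd, hdk⟩)

end product

section dihedral

variable {Γ : Type*} {Q : Type*} [Group Γ] [Group Q]

/-- For lifts `R, S` of generators of a dihedral group of order 8, the commutator subgroup of
`⟨R, S⟩` meets a central kernel inside the powers of `⁅S, R⁆ ^ 2`. -/
theorem d8_le (τ : Γ →* Q) (hc : τ.ker ≤ center Γ) (R S : Γ) (hr4 : τ R ^ 4 = 1)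
    (hr2 : τ R ^ 2 ≠ 1) (hsr : τ S * τ R * (τ S)⁻¹ = (τ R)⁻¹) :
    ⁅closure ({R, S} : Set Γ), closure ({R, S} : Set Γ)⁆ ⊓ τ.ker ≤ zpowers (⁅S, R⁆ ^ 2) := by
  have hc0 : S * R * S⁻¹ * R ∈ τ.ker := by
    rw [MonoidHom.mem_ker, map_mul, map_mul, map_mul, map_inv, hsr, inv_mul_cancel]
  have hcc := Subgroup.mem_center_iff.mp (hc hc0)
  have hSR : S * R * S⁻¹ = (S * R * S⁻¹ * R) * R⁻¹ := by group
  obtain ⟨f1, f2, f3⟩ := Cfsg.Agent.Lib.Helper66.DihedralStem.core_facts R S _ hcc hSR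
  obtain ⟨w, hw⟩ : ∃ w, w = S * R * S⁻¹ * R * R⁻¹ * R⁻¹ := ⟨_, rfl⟩
  rw [← hw] at f1 f2 f3
  rw [f3]
  have f1' : R⁻¹ * w * R = w := by
    have : R⁻¹ * (R * w * R⁻¹) * R = w := by group
    rwa [f1] at this
  have f2' : S⁻¹ * w * S = w⁻¹ := by
    have h1 : S⁻¹ * (S * w * S⁻¹) * S = w := by group
    rw [f2] at h1
    have h2 : S⁻¹ * w⁻¹ * S = (S⁻¹ * w * S)⁻¹ := by group
    rw [h2] at h1
    exact inv_eq_iff_eq_inv.mp h1
  have hle : ⁅Subgroup.closure ({R, S} : Set Γ), Subgroup.closure ({R, S} : Set Γ)⁆ ≤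
      Subgroup.zpowers w := by
    apply Cfsg.Agent.Lib.Helper66.StemLocal.commutator_closure_le
    · intro a ha v hv
      obtain ⟨k, rfl⟩ := Subgroup.mem_zpowers_iff.mp hv
      have ha' : a = R ∨ a = S := ha
      rcases ha' with h | h <;> rw [h]
      · constructor
        · have : R * w ^ k * R⁻¹ = (R * w * R⁻¹) ^ k := by
            have := map_zpow (MulAut.conj R) w k
            simpa [MulAut.conj_apply] using this
          rw [this, f1]; exact Subgroup.zpow_mem_zpowers w k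
        · have : R⁻¹ * w ^ k * R = (R⁻¹ * w * R) ^ k := by
            have := map_zpow (MulAut.conj R⁻¹) w k
            simpa [MulAut.conj_apply] using this
          rw [this, f1']; exact Subgroup.zpow_mem_zpowers w k
      · constructor
        · have : S * w ^ k * S⁻¹ = (S * w * S⁻¹) ^ k := by
            have := map_zpow (MulAut.conj S) w k
            simpa [MulAut.conj_apply] using this
          rw [this, f2, inv_zpow]
          exact Subgroup.inv_mem _ (Subgroup.zpow_mem_zpowers w k)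
        · have : S⁻¹ * w ^ k * S = (S⁻¹ * w * S) ^ k := by
            have := map_zpow (MulAut.conj S⁻¹) w k
            simpa [MulAut.conj_apply] using this
          rw [this, f2', inv_zpow]
          exact Subgroup.inv_mem _ (Subgroup.zpow_mem_zpowers w k)
    · intro a ha b hb
      have ha' : a = R ∨ a = S := ha
      have hb' : b = R ∨ b = S := hb
      rcases ha' with h | h <;> rcases hb' with h' | h' <;> rw [h, h']
      · rw [commutatorElement_self]; exact Subgroup.one_mem _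
      · rw [← commutatorElement_inv, f3]
        exact Subgroup.inv_mem _ (Subgroup.mem_zpowers w)
      · rw [f3]; exact Subgroup.mem_zpowers w
      · rw [commutatorElement_self]; exact Subgroup.one_mem _
  have hσw : τ w = (τ R ^ 2)⁻¹ := by
    rw [← f3, map_commutatorElement, commutatorElement_def, hsr, pow_two, mul_inv_rev]
  have ho : orderOf (τ R ^ 2) = 2 := by
    apply orderOf_eq_prime
    · rw [← pow_mul]; exact hr4
    · exact hr2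
  intro x hx
  obtain ⟨hx1, hx2⟩ := Subgroup.mem_inf.mp hx
  obtain ⟨k, rfl⟩ := Subgroup.mem_zpowers_iff.mp (hle hx1)
  rw [MonoidHom.mem_ker, map_zpow, hσw, inv_zpow, inv_eq_one,
    ← orderOf_dvd_iff_zpow_eq_one, ho] at hx2
  obtain ⟨m, rfl⟩ := hx2
  rw [Subgroup.mem_zpowers_iff]
  refine ⟨m, ?_⟩
  rw [← zpow_natCast, ← zpow_mul]

end dihedral

section form

variable {Γ : Type*} [Group Γ]

theorem rearr {a b c : Γ} (hab : Commute a b) (hac : Commute a c) (hbc : Commute b c)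
    (i j k i' j' k' : ℤ) :
    a ^ i * b ^ j * c ^ k * (a ^ i' * b ^ j' * c ^ k') =
      a ^ (i + i') * b ^ (j + j') * c ^ (k + k') := by
  have h1 : Commute (c ^ k) (a ^ i') := hac.symm.zpow_zpow k i'
  have h2 : Commute (b ^ j) (a ^ i') := hab.symm.zpow_zpow j i'
  have h3 : Commute (c ^ k) (b ^ j') := hbc.symm.zpow_zpow k j'
  calc a ^ i * b ^ j * c ^ k * (a ^ i' * b ^ j' * c ^ k')
      = a ^ i * b ^ j * (c ^ k * a ^ i') * (b ^ j' * c ^ k') := by group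
    _ = a ^ i * b ^ j * (a ^ i' * c ^ k) * (b ^ j' * c ^ k') := by rw [h1.eq]
    _ = a ^ i * (b ^ j * a ^ i') * (c ^ k * b ^ j') * c ^ k' := by group
    _ = a ^ i * (a ^ i' * b ^ j) * (b ^ j' * c ^ k) * c ^ k' := by rw [h2.eq, h3.eq]
    _ = (a ^ i * a ^ i') * (b ^ j * b ^ j') * (c ^ k * c ^ k') := by group
    _ = a ^ (i + i') * b ^ (j + j') * c ^ (k + k') := by rw [zpow_add, zpow_add, zpow_add]

/-- Normal form in the group generated by three commuting elements of order dividing 4. -/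
theorem form3 {a b c : Γ} (hab : a * b = b * a) (hac : a * c = c * a) (hbc : b * c = c * b)
    (ha : a ^ 4 = 1) (hb : b ^ 4 = 1) (hc : c ^ 4 = 1) :
    ∀ e ∈ closure ({a, b, c} : Set Γ), ∃ i j k : Fin 4,
      e = a ^ (i : ℕ) * b ^ (j : ℕ) * c ^ (k : ℕ) := by
  have key : ∀ e ∈ closure ({a, b, c} : Set Γ), ∃ i j k : ℤ, e = a ^ i * b ^ j * c ^ k := by
    intro e he
    induction he using Subgroup.closure_induction with
    | mem x hx =>
      rcases hx with rfl | rfl | rfl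
      · exact ⟨1, 0, 0, by simp⟩
      · exact ⟨0, 1, 0, by simp⟩
      · exact ⟨0, 0, 1, by simp⟩
    | one => exact ⟨0, 0, 0, by simp⟩
    | mul x y _ _ hx hy =>
      obtain ⟨i, j, k, rfl⟩ := hx
      obtain ⟨i', j', k', rfl⟩ := hy
      exact ⟨i + i', j + j', k + k', rearr hab hac hbc i j k i' j' k'⟩
    | inv x _ hx =>
      obtain ⟨i, j, k, rfl⟩ := hx
      refine ⟨-i, -j, -k, ?_⟩
      have := rearr hab hac hbc (-i) (-j) (-k) i j k
      rw [neg_add_cancel, neg_add_cancel, neg_add_cancel, zpow_zero, zpow_zero, zpow_zero,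
        one_mul, one_mul] at this
      exact (eq_inv_of_mul_eq_one_left this).symm
  intro e he
  obtain ⟨i, j, k, rfl⟩ := key e he
  have red : ∀ (x : Γ), x ^ 4 = 1 → ∀ i : ℤ, ∃ i' : Fin 4, x ^ i = x ^ (i' : ℕ) := by
    intro x hx i
    have h1 : 0 ≤ i % 4 := Int.emod_nonneg i (by norm_num)
    have h2 : i % 4 < 4 := Int.emod_lt_of_pos i (by norm_num)
    refine ⟨⟨(i % 4).toNat, by omega⟩, ?_⟩
    have hx' : x ^ (4 : ℤ) = 1 := by
      rw [show (4 : ℤ) = ((4 : ℕ) : ℤ) from rfl, zpow_natCast]; exact hx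
    have h3 : x ^ i = x ^ (i % 4) := zpow_eq_zpow_emod i hx'
    rw [h3, ← zpow_natCast]
    congr 1
    show i % 4 = (((i % 4).toNat : ℕ) : ℤ)
    omega
  obtain ⟨i', hi⟩ := red a ha i
  obtain ⟨j', hj⟩ := red b hb j
  obtain ⟨k', hk⟩ := red c hc k
  exact ⟨i', j', k', by rw [hi, hj, hk]⟩

theorem cmr {a b c : Γ} (hz : ∀ z : Γ, z * ⁅a, c⁆ = ⁅a, c⁆ * z) :
    ⁅a, b * c⁆ = ⁅a, b⁆ * ⁅a, c⁆ := by
  have e1 : ⁅a, b * c⁆ = a * b * a⁻¹ * (⁅a, c⁆ * b⁻¹) := by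
    simp only [commutatorElement_def]; group
  have e2 : a * b * a⁻¹ * (b⁻¹ * ⁅a, c⁆) = ⁅a, b⁆ * ⁅a, c⁆ := by
    simp only [commutatorElement_def]; group
  rw [e1, ← hz b⁻¹, e2]

end form

section abelian

variable {Γ : Type*} {Q : Type*} [Group Γ] [Group Q]

theorem pow_five_of_eq {c : Γ} (h : c = c⁻¹ * c⁻¹ * c⁻¹ * c⁻¹) : c ^ 5 = 1 := by
  calc c ^ 5 = c ^ 4 * c := pow_succ c 4
    _ = c ^ 4 * (c⁻¹ * c⁻¹ * c⁻¹ * c⁻¹) := congrArg (c ^ 4 * ·) h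
    _ = 1 := by group

/-- Lifts of three commuting elements `x0, x1 = g x0 g⁻¹, x2 = g x1 g⁻¹` with `x0 ^ 4 = 1` and
`g x2 g⁻¹ = x0 x1³ x2²` commute. -/
theorem lifts_comm (τ : Γ →* Q) (hc : τ.ker ≤ center Γ) (X0 X1 X2 G : Γ)
    (hX1 : X1 = G * X0 * G⁻¹) (hX2 : X2 = G * X1 * G⁻¹)
    (h01 : τ X0 * τ X1 = τ X1 * τ X0) (h02 : τ X0 * τ X2 = τ X2 * τ X0)
    (h4 : τ X0 ^ 4 = 1)
    (hrel : τ (G * X2 * G⁻¹) = τ (X0 * X1 * X1 * X1 * X2 * X2)) :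
    X0 * X1 = X1 * X0 ∧ X0 * X2 = X2 * X0 ∧ X1 * X2 = X2 * X1 := by
  have hk1 : ⁅X0, X1⁆ ∈ τ.ker := by
    rw [MonoidHom.mem_ker, map_commutatorElement, commutatorElement_eq_one_iff_commute]
    exact h01
  have hk2 : ⁅X0, X2⁆ ∈ τ.ker := by
    rw [MonoidHom.mem_ker, map_commutatorElement, commutatorElement_eq_one_iff_commute]
    exact h02
  have c1c := Subgroup.mem_center_iff.mp (hc hk1)
  have c2c := Subgroup.mem_center_iff.mp (hc hk2)
  have e3 : ⁅X1, X2⁆ = ⁅X0, X1⁆ := by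
    have e : ⁅X1, X2⁆ = (G * ⁅X0, X1⁆) * G⁻¹ := by
      rw [hX2, hX1]; simp only [commutatorElement_def]; group
    rw [e, c1c G]; group
  obtain ⟨X3, hX3⟩ : ∃ X3, X3 = G * X2 * G⁻¹ := ⟨_, rfl⟩
  obtain ⟨k, hk⟩ : ∃ k, k = (X0 * X1 * X1 * X1 * X2 * X2)⁻¹ * X3 := ⟨_, rfl⟩
  have hkk : k ∈ τ.ker := by
    rw [MonoidHom.mem_ker, hk, map_mul, map_inv, hX3, hrel, inv_mul_cancel]
  have kc := Subgroup.mem_center_iff.mp (hc hkk)
  have hX3' : X3 = X0 * X1 * X1 * X1 * X2 * X2 * k := by rw [hk]; group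
  have e13 : ⁅X1, X3⁆ = ⁅X0, X2⁆ := by
    have e : ⁅X1, X3⁆ = (G * ⁅X0, X2⁆) * G⁻¹ := by
      rw [hX3, hX1]
      simp only [commutatorElement_def]; group
    rw [e, c2c G]; group
  have e23 : ⁅X2, X3⁆ = ⁅X0, X1⁆ := by
    have e : ⁅X2, X3⁆ = (G * ⁅X1, X2⁆) * G⁻¹ := by
      rw [hX3]
      nth_rewrite 1 [hX2]
      simp only [commutatorElement_def]; group
    rw [e, e3, c1c G]; group
  have comm_k : ∀ a : Γ, ⁅a, k⁆ = 1 := by
    intro a
    rw [commutatorElement_eq_one_iff_commute]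
    exact (kc a)
  have z1k : ∀ z : Γ, z * ⁅X1, k⁆ = ⁅X1, k⁆ * z := by intro z; rw [comm_k]; simp
  have z2k : ∀ z : Γ, z * ⁅X2, k⁆ = ⁅X2, k⁆ * z := by intro z; rw [comm_k]; simp
  have z11 : ∀ z : Γ, z * ⁅X1, X1⁆ = ⁅X1, X1⁆ * z := by
    intro z; rw [commutatorElement_self]; simp
  have z22 : ∀ z : Γ, z * ⁅X2, X2⁆ = ⁅X2, X2⁆ * z := by
    intro z; rw [commutatorElement_self]; simp
  have z12 : ∀ z : Γ, z * ⁅X1, X2⁆ = ⁅X1, X2⁆ * z := by rw [e3]; exact c1c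
  have z21 : ∀ z : Γ, z * ⁅X2, X1⁆ = ⁅X2, X1⁆ * z := by
    intro z
    rw [← commutatorElement_inv X1 X2, e3]
    have := c1c z⁻¹
    have h2 : z * ⁅X0, X1⁆⁻¹ = (⁅X0, X1⁆ * z⁻¹)⁻¹ := by group
    rw [h2, ← this]; group
  -- first expansion
  have f1 : ⁅X1, X3⁆ = ⁅X0, X1⁆⁻¹ * ⁅X0, X1⁆ * ⁅X0, X1⁆ := by
    rw [hX3', cmr z1k, cmr z12, cmr z12, cmr z11, cmr z11, cmr z11, comm_k,
      commutatorElement_self, e3, ← commutatorElement_inv X0 X1]
    group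
  have hc21 : ⁅X0, X2⁆ = ⁅X0, X1⁆ := by
    rw [← e13, f1]; group
  have f2 : ⁅X2, X3⁆ = ⁅X0, X1⁆⁻¹ * ⁅X0, X1⁆⁻¹ * ⁅X0, X1⁆⁻¹ * ⁅X0, X1⁆⁻¹ := by
    rw [hX3', cmr z2k, cmr z22, cmr z22, cmr z21, cmr z21, cmr z21, comm_k,
      commutatorElement_self, ← commutatorElement_inv X0 X2, ← commutatorElement_inv X1 X2,
      e3, hc21]
    group
  have h5 : ⁅X0, X1⁆ ^ 5 = 1 := by
    have h := e23
    rw [f2] at h
    exact pow_five_of_eq h.symm
  have h4' : ⁅X0, X1⁆ ^ 4 = 1 := by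
    have hcomm : X0 * ⁅X0, X1⁆ = ⁅X0, X1⁆ * X0 := c1c X0
    rw [← Cfsg.Agent.Lib.Helper35.StemB.commutator_pow_left hcomm 4,
      commutatorElement_eq_one_iff_commute]
    have hk4 : X0 ^ 4 ∈ τ.ker := by rw [MonoidHom.mem_ker, map_pow, h4]
    exact (Subgroup.mem_center_iff.mp (hc hk4) X1).symm
  have h1 : ⁅X0, X1⁆ = 1 := by
    have e : ⁅X0, X1⁆ ^ 5 = ⁅X0, X1⁆ ^ 4 * ⁅X0, X1⁆ := pow_succ _ 4
    rw [e, h4', one_mul] at h5
    exact h5
  refine ⟨?_, ?_, ?_⟩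
  · exact (commutatorElement_eq_one_iff_commute.mp h1)
  · exact (commutatorElement_eq_one_iff_commute.mp (hc21.trans h1))
  · exact (commutatorElement_eq_one_iff_commute.mp (e3.trans h1))

theorem sq_of_conj_invol (τ : Γ →* Q) (hc : τ.ker ≤ center Γ) {T C J : Γ} (hT : T * T = 1)
    (h : τ J = τ (C * T * C⁻¹)) : ∃ m ∈ τ.ker, J * J = m * m := by
  refine ⟨(C * T * C⁻¹)⁻¹ * J, ?_, ?_⟩
  · rw [MonoidHom.mem_ker, map_mul, map_inv, h, inv_mul_cancel]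
  · have hm : (C * T * C⁻¹)⁻¹ * J ∈ τ.ker := by
      rw [MonoidHom.mem_ker, map_mul, map_inv, h, inv_mul_cancel]
    have mc := Subgroup.mem_center_iff.mp (hc hm)
    set m := (C * T * C⁻¹)⁻¹ * J with hmdef
    have hJ : J = (C * T * C⁻¹) * m := by rw [hmdef]; group
    calc J * J = (C * T * C⁻¹) * (m * (C * T * C⁻¹)) * m := by rw [hJ]; group
      _ = (C * T * C⁻¹) * ((C * T * C⁻¹) * m) * m := by rw [← mc (C * T * C⁻¹)]
      _ = C * (T * T) * C⁻¹ * (m * m) := by group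
      _ = m * m := by rw [hT]; group

theorem sq_of_conj (τ : Γ →* Q) (hc : τ.ker ≤ center Γ) {W C J : Γ} (hW : W * W ∈ τ.ker)
    (h : τ J = τ (C * W * C⁻¹)) : ∃ m ∈ τ.ker, J * J = (W * W) * (m * m) := by
  have hm : (C * W * C⁻¹)⁻¹ * J ∈ τ.ker := by
    rw [MonoidHom.mem_ker, map_mul, map_inv, h, inv_mul_cancel]
  refine ⟨(C * W * C⁻¹)⁻¹ * J, hm, ?_⟩
  have mc := Subgroup.mem_center_iff.mp (hc hm)
  have wc := Subgroup.mem_center_iff.mp (hc hW)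
  set m := (C * W * C⁻¹)⁻¹ * J with hmdef
  have hJ : J = (C * W * C⁻¹) * m := by rw [hmdef]; group
  calc J * J = (C * W * C⁻¹) * (m * (C * W * C⁻¹)) * m := by rw [hJ]; group
    _ = (C * W * C⁻¹) * ((C * W * C⁻¹) * m) * m := by rw [← mc (C * W * C⁻¹)]
    _ = (C * (W * W)) * C⁻¹ * (m * m) := by group
    _ = ((W * W) * C) * C⁻¹ * (m * m) := by rw [wc C]
    _ = (W * W) * (m * m) := by group

end abelian

section endgame

variable {Γ : Type*} [Group Γ]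

/-- The final counting step: a finite central 2-subgroup generated modulo squares by `ω`, where
`ω` is an involution times a square, has order at most 2. -/
theorem card_dvd_two_of (K : Subgroup Γ) [Finite K] (hK : K ≤ center Γ) (hp : IsPGroup 2 K)
    (ω : Γ) (hω : ω ∈ K) (hgen : ∀ z ∈ K, ∃ i : ℤ, ∃ m ∈ K, z = ω ^ i * (m * m))
    (κ n : Γ) (hκ2 : κ * κ = 1) (hn : n ∈ K) (hq : ω = κ * (n * n)) :
    Nat.card K ∣ 2 := by
  have ωc := Subgroup.mem_center_iff.mp (hK hω)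
  have stepA : ∀ t : ℕ, ∀ z ∈ K, ∃ i : ℤ, ∃ m ∈ K, z = ω ^ i * m ^ (2 ^ t) := by
    intro t
    induction t with
    | zero => intro z hz; exact ⟨0, z, hz, by simp⟩
    | succ t ih =>
      intro z hz
      obtain ⟨i, m, hm, rfl⟩ := ih z hz
      obtain ⟨j, m', hm', rfl⟩ := hgen m hm
      refine ⟨i + j * (2 ^ t : ℕ), m', hm', ?_⟩
      have hcomm : Commute (ω ^ j) (m' * m') := by
        apply Commute.zpow_left
        exact (ωc (m' * m')).symm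
      rw [hcomm.mul_pow, zpow_add, zpow_mul, zpow_natCast, mul_assoc]
      congr 2
      rw [← pow_two, ← pow_mul, pow_succ, mul_comm]
  obtain ⟨a, ha⟩ := IsPGroup.iff_card.mp hp
  have hexp : ∀ m ∈ K, m ^ (2 ^ a) = 1 := by
    intro m hm
    have h1 : (⟨m, hm⟩ : K) ^ Nat.card K = 1 := pow_card_eq_one'
    rw [ha] at h1
    exact congrArg Subtype.val h1
  have hle : K ≤ zpowers ω := by
    intro z hz
    obtain ⟨i, m, hm, rfl⟩ := stepA a z hz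
    rw [hexp m hm, mul_one]
    exact Subgroup.zpow_mem_zpowers ω i
  obtain ⟨j, hj⟩ := Subgroup.mem_zpowers_iff.mp (hle hn)
  have hκ : κ = ω ^ (1 - 2 * j) := by
    have e1 : κ = ω * (n * n)⁻¹ := by rw [hq]; group
    rw [e1, ← hj, zpow_sub, zpow_one, two_mul, zpow_add]
  have h1 : ω ^ (2 - 4 * j) = 1 := by
    have e : (2 - 4 * j : ℤ) = (1 - 2 * j) + (1 - 2 * j) := by ring
    rw [e, zpow_add, ← hκ, hκ2]
  have hdvd : (orderOf ω : ℤ) ∣ 2 - 4 * j := orderOf_dvd_iff_zpow_eq_one.mpr h1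
  have hω2 : ω ^ (2 ^ a) = 1 := hexp ω hω
  obtain ⟨c, hc, hco⟩ := (Nat.dvd_prime_pow Nat.prime_two).mp (orderOf_dvd_of_pow_eq_one hω2)
  have hc1 : c ≤ 1 := by
    by_contra hlt
    have h2 : (4 : ℤ) ∣ orderOf ω := by
      rw [hco]
      have : (2 : ℕ) ^ 2 ∣ 2 ^ c := pow_dvd_pow 2 (by omega)
      exact_mod_cast this
    have := h2.trans hdvd
    omega
  have hord : orderOf ω ∣ 2 := by
    rw [hco]
    exact pow_dvd_pow 2 hc1
  have h3 := Subgroup.card_dvd_of_le hle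
  rw [Nat.card_zpowers] at h3
  exact h3.trans hord

end endgame

end Cfsg.Agent.Lib.Helper8.TwoLocal
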