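import Mathlib
import Cfsg.Agent.Lib.Helper8.TwoLocal

/-!
The 2-part of the kernel of a stem extension of a group with a prescribed 2-local configuration:
an abelian subgroup `4^3` with a fixed-point-free element of order 7, an element of order 3 and a
dihedral group of order 8 acting on it.  The configuration data is abstract; the kernel of a stem
extension which is a 2-group then has order at most 2.
-/

set_option autoImplicit false

namespace Cfsg.Agent.Lib.Helper8.TwoLocal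

open Subgroup
open scoped commutatorElement

section general

variable {Γ : Type*} [Group Γ]

theorem comm_of_closure (S : Set Γ) (h : ∀ x ∈ S, ∀ y ∈ S, x * y = y * x) :
    ∀ x ∈ closure S, ∀ y ∈ closure S, x * y = y * x := by
  intro x hx y hy
  have := (Subgroup.closureCommGroupOfComm h).mul_comm ⟨x, hx⟩ ⟨y, hy⟩
  exact congrArg Subtype.val this

theorem conj_closure_mem (s : Set Γ) (g : Γ) (N : Subgroup Γ) (h : ∀ x ∈ s, g * x * g⁻¹ ∈ N) :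
    ∀ x ∈ closure s, g * x * g⁻¹ ∈ N := by
  intro x hx
  have hle : closure s ≤ N.comap (MulAut.conj g).toMonoidHom := by
    rw [closure_le]
    intro y hy
    exact h y hy
  exact hle hx

theorem mem_normalizer_of_conj (N : Subgroup Γ) [Finite N] (g : Γ)
    (h : ∀ x ∈ N, g * x * g⁻¹ ∈ N) : g ∈ normalizer (N : Set Γ) := by
  rw [mem_normalizer_iff]
  intro x
  constructor
  · exact h x
  · intro hx
    have h1 := conj_inv_mem_of_finite N g h _ hx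
    have e : g⁻¹ * (g * x * g⁻¹) * g = x := by group
    rwa [e] at h1

theorem mem_of_eq {M : Subgroup Γ} {a b : Γ} (h : a = b) (hb : b ∈ M) : a ∈ M := by
  rw [h]; exact hb

theorem conj_sup_central (N B : Subgroup Γ) (hB : B ≤ center Γ) (u : Γ)
    (h : ∀ y ∈ N, u * y * u⁻¹ ∈ N ⊔ B) : ∀ y ∈ N ⊔ B, u * y * u⁻¹ ∈ N ⊔ B := by
  intro y hy
  have hle : N ⊔ B ≤ (N ⊔ B).comap (MulAut.conj u).toMonoidHom := by
    apply sup_le
    · intro y hy
      exact h y hy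
    · intro b hb
      have hb' : u * b = b * u := (mem_center_iff.mp (hB hb)) u
      have e : u * b * u⁻¹ = b := by rw [hb', mul_inv_cancel_right]
      show u * b * u⁻¹ ∈ N ⊔ B
      rw [e]
      exact mem_sup_right hb
  exact hle hy

theorem abn_comap {Q : Type*} [Group Q] [Finite Γ] (τ : Γ →* Q) (E : Subgroup Q)
    (hA : ∀ a ∈ E.comap τ, ∀ b ∈ E.comap τ, a * b = b * a) (g : Γ)
    (hg : ∀ e ∈ E, τ g * e * (τ g)⁻¹ ∈ E) : AbN (E.comap τ) g := by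
  have h1 : ∀ x ∈ E.comap τ, g * x * g⁻¹ ∈ E.comap τ := by
    intro x hx
    rw [mem_comap, map_mul, map_mul, map_inv]
    exact hg _ (mem_comap.mp hx)
  exact ⟨hA, h1, conj_inv_mem_of_finite _ g h1⟩

theorem sq_mul_sq {a b : Γ} (hab : a * b = b * a) : a * a * (b * b) = a * b * (a * b) := by
  calc a * a * (b * b) = a * (a * b) * b := by group
    _ = a * (b * a) * b := by rw [hab]
    _ = a * b * (a * b) := by group

theorem gen_sq (K : Subgroup Γ) (hK : K ≤ center Γ) {ω m1 m2 : Γ} (hm1 : m1 ∈ K)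
    (hm2 : m2 ∈ K) (hω : ω ∈ K) (i j : ℤ) :
    ∃ m ∈ K, (ω * (m1 * m1)⁻¹) ^ i * (m2 * m2) ^ j = ω ^ i * (m * m) := by
  have c1 : ∀ z : Γ, Commute m1 z := fun z => ((mem_center_iff.mp (hK hm1)) z).symm
  have c2 : ∀ z : Γ, Commute m2 z := fun z => ((mem_center_iff.mp (hK hm2)) z).symm
  have cω : ∀ z : Γ, Commute ω z := fun z => ((mem_center_iff.mp (hK hω)) z).symm
  refine ⟨m1 ^ (-i) * m2 ^ j, mul_mem (zpow_mem hm1 _) (zpow_mem hm2 _), ?_⟩
  have e1 : (ω * (m1 * m1)⁻¹) ^ i = ω ^ i * (m1 ^ (-i) * m1 ^ (-i)) := by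
    rw [(cω _).mul_zpow, inv_zpow', (c1 m1).mul_zpow]
  have e2 : (m2 * m2) ^ j = m2 ^ j * m2 ^ j := (c2 m2).mul_zpow j
  have e3 : m1 ^ (-i) * m2 ^ j = m2 ^ j * m1 ^ (-i) := ((c1 _).zpow_left (-i)).eq
  rw [e1, e2, mul_assoc, sq_mul_sq e3]

end general

/-- The configuration. -/
structure Cfg (Q : Type*) [Group Q] where
  x0 : Q
  x1 : Q
  x2 : Q
  g7 : Q
  h3 : Q
  s0 : Q
  s2 : Q
  e0 : Q
  w0 : Q
  w2 : Q
  cs : Q
  cr : Q
  c2 : Q
  c3 : Q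
  hx1 : x1 = g7 * x0 * g7⁻¹
  hx2 : x2 = g7 * x1 * g7⁻¹
  hs2 : s2 = g7 * s0 * g7⁻¹
  he0 : e0 = x0 * x0 * x0 * (x1 * x1)
  hw0 : w0 = e0 * s0
  hw2 : w2 = c2 * w0 * c2⁻¹
  c01 : x0 * x1 = x1 * x0
  c02 : x0 * x2 = x2 * x0
  c12 : x1 * x2 = x2 * x1
  p0 : x0 ^ 4 = 1
  p1 : x1 ^ 4 = 1
  p2 : x2 ^ 4 = 1
  g2 : g7 * x2 * g7⁻¹ = x0 * x1 * x1 * x1 * x2 * x2
  fpf : ∀ i j k : Fin 4, x0 ^ (i : ℕ) * x1 ^ (j : ℕ) * x2 ^ (k : ℕ) * g7
      = g7 * (x0 ^ (i : ℕ) * x1 ^ (j : ℕ) * x2 ^ (k : ℕ)) → i = 0 ∧ j = 0 ∧ k = 0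
  inj : ∀ i j k i' j' k' : Fin 4, x0 ^ (i : ℕ) * x1 ^ (j : ℕ) * x2 ^ (k : ℕ)
      = x0 ^ (i' : ℕ) * x1 ^ (j' : ℕ) * x2 ^ (k' : ℕ) → i = i' ∧ j = j' ∧ k = k'
  hh0 : h3 * x0 * h3⁻¹ = x0 * x1 * x1 * x2 * x2
  hh1 : h3 * x1 * h3⁻¹ = x0 * x0 * x2 * x2 * x2
  hh2 : h3 * x2 * h3⁻¹ = x0 * x0 * x1 * x2 * x2 * x2
  hhg : h3 * g7 * h3⁻¹ = g7 * g7
  hs0 : s0 * x0 * s0⁻¹ = x0 * x0 * x0
  hs1 : s0 * x1 * s0⁻¹ = x1 * x1 * x1
  hs2' : s0 * x2 * s0⁻¹ = x0 * x0 * x1 * x1 * x1 * x2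
  s0s0 : s0 * s0 = 1
  hsh : s0 * h3 * s0⁻¹ = h3⁻¹
  hse : s0 * e0 * s0⁻¹ = e0⁻¹
  d0 : x0 = ⁅x0 * x0 * x2 * x2, h3⁆ * (e0 * e0 * e0)
  d1 : x1 = ⁅x0 * x2, h3⁆ * (e0 * e0)
  d2 : x2 = ⁅x1 * x1 * x1 * x2 * x2 * x2, h3⁆
  r4 : (s2 * s0) ^ 4 = 1
  r2 : (s2 * s0) ^ 2 ≠ 1
  sr : s0 * (s2 * s0) * s0⁻¹ = (s2 * s0)⁻¹
  s2s2 : s2 * s2 = 1
  dfix : ∀ (i : Fin 4) (j : Fin 2), (s2 * s0) ^ (i : ℕ) * s2 ^ (j : ℕ) * x0
      = x0 * ((s2 * s0) ^ (i : ℕ) * s2 ^ (j : ℕ)) → i = 0 ∧ j = 0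
  dinj : ∀ (i i' : Fin 4) (j j' : Fin 2), (s2 * s0) ^ (i : ℕ) * s2 ^ (j : ℕ)
      = (s2 * s0) ^ (i' : ℕ) * s2 ^ (j' : ℕ) → i = i' ∧ j = j'
  fs : s0 = cs * (x0 * x0) * cs⁻¹
  fr : ⁅s0, s2 * s0⁆ = cr * (x0 * x0) * cr⁻¹
  w02 : w0 * w2 = w2 * w0
  w3 : w0 * w2 = c3 * w0 * c3⁻¹
  w0w0 : w0 * w0 = 1

namespace Cfg

variable {Q : Type*} [Group Q] (c : Cfg Q)

/-- The abelian subgroup. -/
def E : Subgroup Q := closure {c.x0, c.x1, c.x2}

/-- The dihedral subgroup. -/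
def D : Subgroup Q := closure {c.s2, c.s0}

theorem x0_mem : c.x0 ∈ c.E := subset_closure (by simp)

theorem x1_mem : c.x1 ∈ c.E := subset_closure (by simp)

theorem x2_mem : c.x2 ∈ c.E := subset_closure (by simp)

theorem s2_mem : c.s2 ∈ c.D := subset_closure (by simp)

theorem s0_mem : c.s0 ∈ c.D := subset_closure (by simp)

theorem e0_mem : c.e0 ∈ c.E := by
  rw [c.he0]
  exact mul_mem (mul_mem (mul_mem c.x0_mem c.x0_mem) c.x0_mem) (mul_mem c.x1_mem c.x1_mem)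

theorem E_comm : ∀ a ∈ c.E, ∀ b ∈ c.E, a * b = b * a := by
  apply comm_of_closure
  intro x hx y hy
  simp only [Set.mem_insert_iff, Set.mem_singleton_iff] at hx hy
  rcases hx with rfl | rfl | rfl <;> rcases hy with rfl | rfl | rfl <;>
    first
    | rfl
    | exact c.c01
    | exact c.c02
    | exact c.c12
    | exact c.c01.symm
    | exact c.c02.symm
    | exact c.c12.symm

theorem E_form : ∀ e ∈ c.E, ∃ i j k : Fin 4,
    e = c.x0 ^ (i : ℕ) * c.x1 ^ (j : ℕ) * c.x2 ^ (k : ℕ) :=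
  form3 c.c01 c.c02 c.c12 c.p0 c.p1 c.p2

theorem E_g7 : ∀ e ∈ c.E, c.g7 * e * c.g7⁻¹ ∈ c.E := by
  apply conj_closure_mem
  intro x hx
  simp only [Set.mem_insert_iff, Set.mem_singleton_iff] at hx
  rcases hx with rfl | rfl | rfl
  · rw [← c.hx1]; exact c.x1_mem
  · rw [← c.hx2]; exact c.x2_mem
  · rw [c.g2]
    repeat (first | exact c.x0_mem | exact c.x1_mem | exact c.x2_mem | apply mul_mem)

theorem E_h3 : ∀ e ∈ c.E, c.h3 * e * c.h3⁻¹ ∈ c.E := by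
  apply conj_closure_mem
  intro x hx
  simp only [Set.mem_insert_iff, Set.mem_singleton_iff] at hx
  rcases hx with rfl | rfl | rfl
  · rw [c.hh0]
    repeat (first | exact c.x0_mem | exact c.x1_mem | exact c.x2_mem | apply mul_mem)
  · rw [c.hh1]
    repeat (first | exact c.x0_mem | exact c.x1_mem | exact c.x2_mem | apply mul_mem)
  · rw [c.hh2]
    repeat (first | exact c.x0_mem | exact c.x1_mem | exact c.x2_mem | apply mul_mem)

theorem E_s0 : ∀ e ∈ c.E, c.s0 * e * c.s0⁻¹ ∈ c.E := by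
  apply conj_closure_mem
  intro x hx
  simp only [Set.mem_insert_iff, Set.mem_singleton_iff] at hx
  rcases hx with rfl | rfl | rfl
  · rw [c.hs0]
    repeat (first | exact c.x0_mem | exact c.x1_mem | exact c.x2_mem | apply mul_mem)
  · rw [c.hs1]
    repeat (first | exact c.x0_mem | exact c.x1_mem | exact c.x2_mem | apply mul_mem)
  · rw [c.hs2']
    repeat (first | exact c.x0_mem | exact c.x1_mem | exact c.x2_mem | apply mul_mem)

theorem E_fix : ∀ e ∈ c.E, ⁅e, c.g7⁆ = 1 → e = 1 := by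
  intro e he h
  obtain ⟨i, j, k, rfl⟩ := c.E_form e he
  rw [commutatorElement_eq_one_iff_mul_comm] at h
  obtain ⟨rfl, rfl, rfl⟩ := c.fpf i j k h
  simp

theorem abn_g7 [Finite Q] : AbN c.E c.g7 :=
  ⟨c.E_comm, c.E_g7, conj_inv_mem_of_finite _ _ c.E_g7⟩

theorem abn_h3 [Finite Q] : AbN c.E c.h3 :=
  ⟨c.E_comm, c.E_h3, conj_inv_mem_of_finite _ _ c.E_h3⟩

theorem E_surj [Finite Q] : ∀ e ∈ c.E, ∃ e' ∈ c.E, e = ⁅e', c.g7⁆ :=
  fpf_surj c.E c.abn_g7 c.E_fix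

theorem E_dec [Finite Q] : ∀ e ∈ c.E, ∃ a ∈ c.E, ∃ m : ℤ, e = ⁅a, c.h3⁆ * c.e0 ^ m := by
  intro e he
  have hn : zpowers c.e0 ≤ normalizer ((cm c.E c.h3 c.abn_h3 : Subgroup Q) : Set Q) := by
    rw [zpowers_le]
    apply mem_normalizer_of_conj
    intro y hy
    have e1 : c.e0 * y * c.e0⁻¹ = y := by
      rw [c.E_comm _ c.e0_mem _ (cm_le c.abn_h3 hy), mul_inv_cancel_right]
    rw [e1]
    exact hy
  have m0 : c.x0 * c.x0 * c.x2 * c.x2 ∈ c.E := by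
    repeat (first | exact c.x0_mem | exact c.x1_mem | exact c.x2_mem | apply mul_mem)
  have m1 : c.x0 * c.x2 ∈ c.E := by
    repeat (first | exact c.x0_mem | exact c.x1_mem | exact c.x2_mem | apply mul_mem)
  have m2 : c.x1 * c.x1 * c.x1 * c.x2 * c.x2 * c.x2 ∈ c.E := by
    repeat (first | exact c.x0_mem | exact c.x1_mem | exact c.x2_mem | apply mul_mem)
  have hle : closure ({c.x0, c.x1, c.x2} : Set Q) ≤ cm c.E c.h3 c.abn_h3 ⊔ zpowers c.e0 := by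
    rw [closure_le]
    intro x hx
    simp only [Set.mem_insert_iff, Set.mem_singleton_iff] at hx
    rcases hx with rfl | rfl | rfl
    · exact mem_of_eq c.d0 (mul_mem (mem_sup_left ((mem_cm c.abn_h3).mpr ⟨_, m0, rfl⟩))
        (mem_sup_right (mul_mem (mul_mem (mem_zpowers _) (mem_zpowers _)) (mem_zpowers _))))
    · exact mem_of_eq c.d1 (mul_mem (mem_sup_left ((mem_cm c.abn_h3).mpr ⟨_, m1, rfl⟩))
        (mem_sup_right (mul_mem (mem_zpowers _) (mem_zpowers _))))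
    · exact mem_of_eq c.d2 (mem_sup_left ((mem_cm c.abn_h3).mpr ⟨_, m2, rfl⟩))
  obtain ⟨y, hy, z, hz, rfl⟩ := Cfsg.Agent.Lib.Helper35.StemB.exists_mul_of_mem_sup hn (hle he)
  obtain ⟨a, ha, rfl⟩ := (mem_cm c.abn_h3).mp hy
  obtain ⟨m, rfl⟩ := mem_zpowers_iff.mp hz
  exact ⟨a, ha, m, rfl⟩

theorem card_E : Nat.card c.E = 64 := by
  let f : Fin 4 × Fin 4 × Fin 4 → c.E := fun a =>
    ⟨c.x0 ^ (a.1 : ℕ) * c.x1 ^ (a.2.1 : ℕ) * c.x2 ^ (a.2.2 : ℕ),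
      mul_mem (mul_mem (pow_mem c.x0_mem _) (pow_mem c.x1_mem _)) (pow_mem c.x2_mem _)⟩
  have hf : Function.Bijective f := by
    constructor
    · rintro ⟨i, j, k⟩ ⟨i', j', k'⟩ h
      obtain ⟨h1, h2, h3⟩ := c.inj i j k i' j' k' (congrArg Subtype.val h)
      rw [h1, h2, h3]
    · rintro ⟨e, he⟩
      obtain ⟨i, j, k, rfl⟩ := c.E_form e he
      exact ⟨(i, j, k), rfl⟩
  rw [← Nat.card_congr (Equiv.ofBijective f hf)]
  simp [Nat.card_prod]

theorem D_form : ∀ d ∈ c.D, ∃ (i : Fin 4) (j : Fin 2),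
    d = (c.s2 * c.s0) ^ (i : ℕ) * c.s2 ^ (j : ℕ) := by
  intro d hd
  obtain ⟨i, j, hi, hj, rfl⟩ :=
    Cfsg.Agent.Lib.Helper35.StemB.dihedral_form_four c.s2s2 c.s0s0 c.r4 d hd
  exact ⟨⟨i, hi⟩, ⟨j, hj⟩, rfl⟩

theorem card_D : Nat.card c.D = 8 := by
  let f : Fin 4 × Fin 2 → c.D := fun a =>
    ⟨(c.s2 * c.s0) ^ (a.1 : ℕ) * c.s2 ^ (a.2 : ℕ),
      mul_mem (pow_mem (mul_mem c.s2_mem c.s0_mem) _) (pow_mem c.s2_mem _)⟩
  have hf : Function.Bijective f := by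
    constructor
    · rintro ⟨i, j⟩ ⟨i', j'⟩ h
      obtain ⟨h1, h2⟩ := c.dinj i i' j j' (congrArg Subtype.val h)
      rw [h1, h2]
    · rintro ⟨d, hd⟩
      obtain ⟨i, j, rfl⟩ := c.D_form d hd
      exact ⟨(i, j), rfl⟩
  rw [← Nat.card_congr (Equiv.ofBijective f hf)]
  simp [Nat.card_prod]

theorem E_inf_D : c.E ⊓ c.D = ⊥ := by
  rw [eq_bot_iff]
  rintro d ⟨hdE, hdD⟩
  obtain ⟨i, j, rfl⟩ := c.D_form d hdD
  obtain ⟨rfl, rfl⟩ := c.dfix i j (c.E_comm _ hdE _ c.x0_mem)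
  simp

theorem D_le [Finite Q] : c.D ≤ normalizer (c.E : Set Q) := by
  have h0 : c.s0 ∈ normalizer (c.E : Set Q) := mem_normalizer_of_conj _ _ c.E_s0
  have hg : c.g7 ∈ normalizer (c.E : Set Q) := mem_normalizer_of_conj _ _ c.E_g7
  show closure ({c.s2, c.s0} : Set Q) ≤ _
  rw [closure_le]
  rintro x (rfl | rfl)
  · exact mem_of_eq c.hs2 (mul_mem (mul_mem hg h0) (inv_mem hg))
  · exact h0

theorem card_P [Finite Q] : Nat.card ↥(c.E ⊔ c.D) = 512 := by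
  rw [Cfsg.Agent.Lib.Helper35.StemB.card_sup_of_le_normalizer c.D_le c.E_inf_D, c.card_E, c.card_D]

end Cfg

section main

variable {Γ Q : Type*} [Group Γ] [Group Q]

/-- The main 2-local theorem: under the configuration, the kernel of a central extension
contained in the commutator subgroup which is a 2-group has order at most 2. -/
theorem main [Finite Γ] [Finite Q] (c : Cfg Q) (τ : Γ →* Q)
    (hc : τ.ker ≤ center Γ) (hcomm : τ.ker ≤ commutator Γ) (hp : IsPGroup 2 τ.ker)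
    (hG : ∃ u, τ u = c.g7) (hH : ∃ u, τ u = c.h3) (hU : ∃ u, τ u = c.s0)
    (hX : ∃ u, τ u = c.x0) (hCs : ∃ u, τ u = c.cs) (hCr : ∃ u, τ u = c.cr)
    (hC2 : ∃ u, τ u = c.c2) (hC3 : ∃ u, τ u = c.c3)
    (m : ℕ) (hm : Odd m) (hcard : Nat.card τ.range = 512 * m) :
    Nat.card τ.ker ∣ 2 := by
  obtain ⟨G, hG⟩ := hG
  obtain ⟨H, hH⟩ := hH
  obtain ⟨U, hU⟩ := hU
  obtain ⟨X0', hX0'⟩ := hX
  obtain ⟨Cs, hCs⟩ := hCs
  obtain ⟨Cr, hCr⟩ := hCr
  obtain ⟨C2, hC2⟩ := hC2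
  obtain ⟨C3, hC3⟩ := hC3
  have hKc : ∀ k ∈ τ.ker, ∀ z : Γ, k * z = z * k :=
    fun k hk z => ((mem_center_iff.mp (hc hk)) z).symm
  -- the preimage of `E` is abelian
  have hτX1' : τ (G * X0' * G⁻¹) = c.x1 := by
    rw [map_mul, map_mul, map_inv, hG, hX0', ← c.hx1]
  have hτX2' : τ (G * (G * X0' * G⁻¹) * G⁻¹) = c.x2 := by
    rw [map_mul, map_mul, map_inv, hτX1', hG, ← c.hx2]
  have hErange : c.E ≤ τ.range := by
    show closure ({c.x0, c.x1, c.x2} : Set Q) ≤ _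
    rw [closure_le]
    rintro x (rfl | rfl | rfl)
    · exact ⟨_, hX0'⟩
    · exact ⟨_, hτX1'⟩
    · exact ⟨_, hτX2'⟩
  have hAcomm : ∀ a ∈ c.E.comap τ, ∀ b ∈ c.E.comap τ, a * b = b * a := by
    obtain ⟨h01, h02, h12⟩ := lifts_comm τ hc X0' (G * X0' * G⁻¹) (G * (G * X0' * G⁻¹) * G⁻¹) G
      rfl rfl (by rw [hX0', hτX1']; exact c.c01) (by rw [hX0', hτX2']; exact c.c02)
      (by rw [hX0']; exact c.p0)
      (by rw [map_mul, map_mul, map_inv, hτX2', hG, c.g2]; simp only [map_mul, hX0', hτX1', hτX2'])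
    obtain ⟨X2', hX2'def⟩ : ∃ X2', X2' = G * (G * X0' * G⁻¹) * G⁻¹ := ⟨_, rfl⟩
    rw [← hX2'def] at h02 h12 hτX2'
    obtain ⟨X1', hX1'def⟩ : ∃ X1', X1' = G * X0' * G⁻¹ := ⟨_, rfl⟩
    rw [← hX1'def] at h01 h12 hτX1'
    have hAle : c.E.comap τ ≤ closure (({X0', X1', X2'} : Set Γ) ∪ (τ.ker : Set Γ)) := by
      intro a ha
      obtain ⟨i, j, k, hijk⟩ := c.E_form _ (mem_comap.mp ha)
      obtain ⟨y, hy⟩ : ∃ y, y = X0' ^ (i : ℕ) * X1' ^ (j : ℕ) * X2' ^ (k : ℕ) := ⟨_, rfl⟩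
      have hy' : τ y = τ a := by
        rw [hijk, hy, map_mul, map_mul, map_pow, map_pow, map_pow, hX0', hτX1', hτX2']
      have hk : a * y⁻¹ ∈ τ.ker := by
        rw [MonoidHom.mem_ker, map_mul, map_inv, hy', mul_inv_cancel]
      have e : a = (a * y⁻¹) * y := by group
      rw [e]
      have g0 : X0' ∈ closure (({X0', X1', X2'} : Set Γ) ∪ (τ.ker : Set Γ)) :=
        Subgroup.subset_closure (Set.mem_union_left _ (by simp))
      have g1 : X1' ∈ closure (({X0', X1', X2'} : Set Γ) ∪ (τ.ker : Set Γ)) :=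
        Subgroup.subset_closure (Set.mem_union_left _ (by simp))
      have g2 : X2' ∈ closure (({X0', X1', X2'} : Set Γ) ∪ (τ.ker : Set Γ)) :=
        Subgroup.subset_closure (Set.mem_union_left _ (by simp))
      have g3 : a * y⁻¹ ∈ closure (({X0', X1', X2'} : Set Γ) ∪ (τ.ker : Set Γ)) :=
        Subgroup.subset_closure (Set.mem_union_right _ hk)
      refine mul_mem g3 ?_
      rw [hy]
      exact mul_mem (mul_mem (pow_mem g0 _) (pow_mem g1 _)) (pow_mem g2 _)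
    have hS : ∀ x ∈ (({X0', X1', X2'} : Set Γ) ∪ (τ.ker : Set Γ)),
        ∀ y ∈ (({X0', X1', X2'} : Set Γ) ∪ (τ.ker : Set Γ)), x * y = y * x := by
      rintro x (hx | hx) y (hy | hy)
      · simp only [Set.mem_insert_iff, Set.mem_singleton_iff] at hx hy
        rcases hx with rfl | rfl | rfl <;> rcases hy with rfl | rfl | rfl <;>
          first
          | rfl
          | exact h01
          | exact h02
          | exact h12
          | exact h01.symm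
          | exact h02.symm
          | exact h12.symm
      · exact (hKc y hy x).symm
      · exact hKc x hx y
      · exact hKc x hx y
    exact fun a ha b hb => comm_of_closure _ hS a (hAle ha) b (hAle hb)
  have abnG : AbN (c.E.comap τ) G := abn_comap τ c.E hAcomm G (by rw [hG]; exact c.E_g7)
  have abnH : AbN (c.E.comap τ) H := abn_comap τ c.E hAcomm H (by rw [hH]; exact c.E_h3)
  have hUA : ∀ x ∈ c.E.comap τ, U * x * U⁻¹ ∈ c.E.comap τ :=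
    (abn_comap τ c.E hAcomm U (by rw [hU]; exact c.E_s0)).conj
  -- the complement `E1`
  have hfix : ∀ x ∈ c.E.comap τ, ⁅x, G⁆ ∈ τ.ker → x ∈ τ.ker := by
    intro x hx hxg
    rw [MonoidHom.mem_ker] at hxg ⊢
    rw [map_commutatorElement, hG] at hxg
    exact c.E_fix _ (mem_comap.mp hx) hxg
  have hE1K : cm (c.E.comap τ) G abnG ⊓ τ.ker = ⊥ := cm_inf abnG τ.ker hc hfix
  have hsur : ∀ x ∈ c.E.comap τ, ∃ k ∈ τ.ker, ∃ y ∈ cm (c.E.comap τ) G abnG, x = k * y := by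
    intro x hx
    obtain ⟨e', he', hxe⟩ := c.E_surj _ (mem_comap.mp hx)
    obtain ⟨a, rfl⟩ := hErange he'
    refine ⟨x * ⁅a, G⁆⁻¹, ?_, ⁅a, G⁆, (mem_cm abnG).mpr ⟨a, mem_comap.mpr he', rfl⟩, by group⟩
    rw [MonoidHom.mem_ker, map_mul, map_inv, map_commutatorElement, hG, ← hxe, mul_inv_cancel]
  have hHE1 : ∀ y ∈ cm (c.E.comap τ) G abnG, H * y * H⁻¹ ∈ cm (c.E.comap τ) G abnG :=
    cm_conj_of_sq abnG τ.ker hc abnH.conj (by
      rw [MonoidHom.mem_ker]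
      simp only [map_mul, map_inv, hG, hH]
      rw [c.hhg]
      exact inv_mul_cancel _)
  have hHle : cm (c.E.comap τ) H abnH ≤ cm (c.E.comap τ) G abnG :=
    cm_le_cm abnG τ.ker hc abnH hsur hHE1
  have hUH : ∀ y ∈ cm (c.E.comap τ) H abnH, U * y * U⁻¹ ∈ cm (c.E.comap τ) H abnH :=
    cm_conj_of_inv τ.ker hc abnH hUA (by
      rw [MonoidHom.mem_ker]
      simp only [map_mul, map_inv, hH, hU]
      rw [c.hsh]
      exact mul_inv_cancel _)
  -- lifts in `E1`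
  obtain ⟨X0, hX0E1, hX0⟩ : ∃ X0 ∈ cm (c.E.comap τ) G abnG, τ X0 = c.x0 := by
    obtain ⟨k, hk, y, hy, hxy⟩ := hsur X0' (by rw [mem_comap, hX0']; exact c.x0_mem)
    refine ⟨y, hy, ?_⟩
    have h1 := congrArg τ hxy
    rw [map_mul, MonoidHom.mem_ker.mp hk, one_mul, hX0'] at h1
    exact h1.symm
  obtain ⟨X1, hX1def⟩ : ∃ X1, X1 = G * X0 * G⁻¹ := ⟨_, rfl⟩
  obtain ⟨X2, hX2def⟩ : ∃ X2, X2 = G * X1 * G⁻¹ := ⟨_, rfl⟩
  have hX1E1 : X1 ∈ cm (c.E.comap τ) G abnG := by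
    rw [hX1def]; exact cm_conj_self abnG _ hX0E1
  have hX2E1 : X2 ∈ cm (c.E.comap τ) G abnG := by
    rw [hX2def]; exact cm_conj_self abnG _ hX1E1
  have hX1 : τ X1 = c.x1 := by rw [hX1def, map_mul, map_mul, map_inv, hG, hX0, ← c.hx1]
  have hX2 : τ X2 = c.x2 := by rw [hX2def, map_mul, map_mul, map_inv, hG, hX1, ← c.hx2]
  obtain ⟨e0L, he0Ldef⟩ : ∃ e0L, e0L = X0 * X0 * X0 * (X1 * X1) := ⟨_, rfl⟩
  have he0LE1 : e0L ∈ cm (c.E.comap τ) G abnG := by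
    rw [he0Ldef]
    exact mul_mem (mul_mem (mul_mem hX0E1 hX0E1) hX0E1) (mul_mem hX1E1 hX1E1)
  have he0L : τ e0L = c.e0 := by
    rw [he0Ldef]; simp only [map_mul, hX0, hX1]; exact c.he0.symm
  obtain ⟨β, hβdef⟩ : ∃ β, β = U * e0L * U⁻¹ * e0L := ⟨_, rfl⟩
  have hβK : β ∈ τ.ker := by
    rw [MonoidHom.mem_ker, hβdef]
    simp only [map_mul, map_inv, he0L, hU]
    rw [c.hse]
    exact inv_mul_cancel _
  have hdec : ∀ y ∈ c.E.comap τ, ∃ k ∈ τ.ker, ∃ cc ∈ cm (c.E.comap τ) H abnH, ∃ n : ℤ,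
      y = k * cc * e0L ^ n := by
    intro y hy
    obtain ⟨a, ha, n, hyan⟩ := c.E_dec _ (mem_comap.mp hy)
    obtain ⟨a', rfl⟩ := hErange ha
    refine ⟨y * (⁅a', H⁆ * e0L ^ n)⁻¹, ?_, ⁅a', H⁆, (mem_cm abnH).mpr ⟨a', mem_comap.mpr ha, rfl⟩,
      n, by group⟩
    rw [MonoidHom.mem_ker, map_mul, map_inv, map_mul, map_commutatorElement, map_zpow, hH, he0L,
      ← hyan, mul_inv_cancel]
  have hUE1 := conj_mem_sup abnG τ.ker hc hfix abnH hHle hUH he0LE1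
    (by rw [← hβdef]; exact hβK) hdec
  rw [← hβdef] at hUE1
  -- `U` and `G` normalise `E1 ⊔ B`
  have hBK : zpowers β ≤ τ.ker := by rw [zpowers_le]; exact hβK
  have hBc : zpowers β ≤ center Γ := hBK.trans hc
  have hUN : ∀ y ∈ cm (c.E.comap τ) G abnG ⊔ zpowers β,
      U * y * U⁻¹ ∈ cm (c.E.comap τ) G abnG ⊔ zpowers β := by
    apply conj_sup_central _ _ hBc
    intro y hy
    obtain ⟨y', hy', n, h⟩ := hUE1 y hy
    rw [h]
    exact mul_mem (mem_sup_left hy') (mem_sup_right (zpow_mem (mem_zpowers _) n))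
  have hGN : ∀ y ∈ cm (c.E.comap τ) G abnG ⊔ zpowers β,
      G * y * G⁻¹ ∈ cm (c.E.comap τ) G abnG ⊔ zpowers β := by
    apply conj_sup_central _ _ hBc
    intro y hy
    exact mem_sup_left (cm_conj_self abnG y hy)
  have hUn : U ∈ normalizer ((cm (c.E.comap τ) G abnG ⊔ zpowers β : Subgroup Γ) : Set Γ) :=
    mem_normalizer_of_conj _ U hUN
  have hGn : G ∈ normalizer ((cm (c.E.comap τ) G abnG ⊔ zpowers β : Subgroup Γ) : Set Γ) :=
    mem_normalizer_of_conj _ G hGN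
  obtain ⟨U2, hU2def⟩ : ∃ U2, U2 = G * U * G⁻¹ := ⟨_, rfl⟩
  obtain ⟨R, hRdef⟩ : ∃ R, R = U2 * U := ⟨_, rfl⟩
  have hτU2 : τ U2 = c.s2 := by rw [hU2def, map_mul, map_mul, map_inv, hG, hU, ← c.hs2]
  have hτR : τ R = c.s2 * c.s0 := by rw [hRdef, map_mul, hτU2, hU]
  have hD'n : closure ({R, U} : Set Γ)
      ≤ normalizer ((cm (c.E.comap τ) G abnG ⊔ zpowers β : Subgroup Γ) : Set Γ) := by
    rw [closure_le]
    intro x hx
    simp only [Set.mem_insert_iff, Set.mem_singleton_iff] at hx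
    rw [SetLike.mem_coe]
    rcases hx with h | h
    · rw [h, hRdef, hU2def]
      exact mul_mem (mul_mem (mul_mem hGn hUn) (inv_mem hGn)) hUn
    · rw [h]
      exact hUn
  -- commutators
  have hmD : ∀ d ∈ closure ({R, U} : Set Γ), τ d ∈ c.D := by
    intro d hd
    have hle : closure ({R, U} : Set Γ) ≤ c.D.comap τ := by
      rw [closure_le]
      intro x hx
      simp only [Set.mem_insert_iff, Set.mem_singleton_iff] at hx
      rw [SetLike.mem_coe, mem_comap]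
      rcases hx with h | h
      · rw [h, hτR]; exact mul_mem c.s2_mem c.s0_mem
      · rw [h, hU]; exact c.s0_mem
    exact hle hd
  have hmE : ∀ y ∈ cm (c.E.comap τ) G abnG, τ y ∈ c.E :=
    fun y hy => mem_comap.mp (cm_le abnG hy)
  have hstep := ker_inf_comm_le τ hc (cm (c.E.comap τ) G abnG) (zpowers β)
    (closure ({R, U} : Set Γ)) hE1K hBK hD'n c.E c.D c.E_inf_D hmE hmD
  have hd8 := d8_le τ hc R U (by rw [hτR]; exact c.r4) (by rw [hτR]; exact c.r2)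
    (by rw [hτR, hU]; exact c.sr)
  have hDrange : c.D ≤ τ.range := by
    show closure ({c.s2, c.s0} : Set Q) ≤ _
    rw [closure_le]
    rintro x (rfl | rfl)
    · exact ⟨_, hτU2⟩
    · exact ⟨_, hU⟩
  have hKgen : ∀ z ∈ τ.ker, z ∈ zpowers β ⊔ zpowers (⁅U, R⁆ ^ 2) := by
    intro z hz
    have hz1 : z ∈ ⁅(c.E ⊔ c.D).comap τ, (c.E ⊔ c.D).comap τ⁆ := by
      apply Cfsg.Agent.Lib.Helper35.StemB.mem_commutator_comap τ hc (c.E ⊔ c.D)
        (sup_le hErange hDrange) m (by rw [hcard, c.card_P]) hz (hcomm hz)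
      obtain ⟨k, hk⟩ := (IsPGroup.iff_orderOf.mp hp) ⟨z, hz⟩
      rw [Subgroup.orderOf_mk] at hk
      rw [hk]
      exact Nat.Coprime.pow_left _ (Nat.coprime_two_left.mpr hm)
    have himg : τ '' ({X0, X1, X2, U2, U} : Set Γ)
        = ({c.x0, c.x1, c.x2} : Set Q) ∪ {c.s2, c.s0} := by
      simp only [Set.image_insert_eq, Set.image_singleton, hX0, hX1, hX2, hτU2, hU]
      ext q
      simp only [Set.mem_insert_iff, Set.mem_singleton_iff, Set.mem_union]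
      tauto
    have hcl : c.E ⊔ c.D = closure (τ '' ({X0, X1, X2, U2, U} : Set Γ)) := by
      rw [himg, Subgroup.closure_union]
      rfl
    rw [hcl, Cfsg.Agent.Lib.Helper66.StemLocal.commutator_comap_closure τ hc] at hz1
    have hle : closure ({X0, X1, X2, U2, U} : Set Γ)
        ≤ (cm (c.E.comap τ) G abnG ⊔ zpowers β) ⊔ closure ({R, U} : Set Γ) := by
      rw [closure_le]
      intro x hx
      simp only [Set.mem_insert_iff, Set.mem_singleton_iff] at hx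
      rw [SetLike.mem_coe]
      rcases hx with h | h | h | h | h
      · rw [h]; exact mem_sup_left (mem_sup_left hX0E1)
      · rw [h]; exact mem_sup_left (mem_sup_left hX1E1)
      · rw [h]; exact mem_sup_left (mem_sup_left hX2E1)
      · have e : U2 = R * U⁻¹ := by rw [hRdef]; group
        rw [h, e]
        exact mem_sup_right
          (mul_mem (Subgroup.subset_closure (by simp)) (inv_mem (Subgroup.subset_closure (by simp))))
      · rw [h]; exact mem_sup_right (Subgroup.subset_closure (by simp))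
    exact (sup_le_sup_left hd8 _) (hstep ⟨commutator_mono hle hle hz1, hz⟩)
  -- the squares
  obtain ⟨W0, hW0def⟩ : ∃ W0, W0 = e0L * U := ⟨_, rfl⟩
  obtain ⟨ω, hωdef⟩ : ∃ ω, ω = W0 * W0 := ⟨_, rfl⟩
  have hW0 : τ W0 = c.w0 := by rw [hW0def, map_mul, he0L, hU, ← c.hw0]
  have hωK : ω ∈ τ.ker := by rw [MonoidHom.mem_ker, hωdef, map_mul, hW0, c.w0w0]
  have hβω : β = ω * (U * U)⁻¹ := by
    have h1 : ω = e0L * β * e0L⁻¹ * (U * U) := by rw [hωdef, hW0def, hβdef]; group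
    have h2 : e0L * β = β * e0L := (hKc β hβK e0L).symm
    rw [h1, h2]; group
  have hT : (X0 * X0) * (X0 * X0) = 1 := by
    have h0 : τ ((X0 * X0) * (X0 * X0)) = 1 := by
      simp only [map_mul, hX0]
      have h4 : c.x0 ^ 4 = c.x0 * c.x0 * (c.x0 * c.x0) := by
        rw [show (4 : ℕ) = 2 + 2 from rfl, pow_add, pow_two]
      rw [← h4]
      exact c.p0
    have h1 : (X0 * X0) * (X0 * X0) ∈ cm (c.E.comap τ) G abnG ⊓ τ.ker :=
      mem_inf.mpr ⟨mul_mem (mul_mem hX0E1 hX0E1) (mul_mem hX0E1 hX0E1), MonoidHom.mem_ker.mpr h0⟩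
    rw [hE1K, mem_bot] at h1
    exact h1
  obtain ⟨m1, hm1K, hm1⟩ := sq_of_conj_invol τ hc (T := X0 * X0) (C := Cs) (J := U) hT (by
    rw [hU]; simp only [map_mul, map_inv, hCs, hX0]; exact c.fs)
  obtain ⟨m2, hm2K, hm2⟩ := sq_of_conj_invol τ hc (T := X0 * X0) (C := Cr) (J := ⁅U, R⁆) hT (by
    rw [map_commutatorElement, hU, hτR]; simp only [map_mul, map_inv, hCr, hX0]; exact c.fr)
  have hgen : ∀ z ∈ τ.ker, ∃ i : ℤ, ∃ n ∈ τ.ker, z = ω ^ i * (n * n) := by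
    intro z hz
    have hn : zpowers (⁅U, R⁆ ^ 2) ≤ normalizer ((zpowers β : Subgroup Γ) : Set Γ) := by
      intro g _
      apply mem_normalizer_of_conj
      intro x hx
      have e : g * x * g⁻¹ = x := by rw [← hKc x (hBK hx) g, mul_inv_cancel_right]
      rw [e]; exact hx
    obtain ⟨b, hb, d, hd, hzbd⟩ :=
      Cfsg.Agent.Lib.Helper35.StemB.exists_mul_of_mem_sup hn (hKgen z hz)
    obtain ⟨i, hi⟩ := mem_zpowers_iff.mp hb
    obtain ⟨j, hj⟩ := mem_zpowers_iff.mp hd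
    obtain ⟨n, hn, h⟩ := gen_sq τ.ker hc hm1K hm2K hωK i j
    refine ⟨i, n, hn, ?_⟩
    rw [hzbd, ← hi, ← hj, ← h, hβω, hm1, pow_two, hm2]
  -- the quaternion relation
  obtain ⟨W2, hW2def⟩ : ∃ W2, W2 = C2 * W0 * C2⁻¹ := ⟨_, rfl⟩
  have hW2 : τ W2 = c.w2 := by
    rw [hW2def, map_mul, map_mul, map_inv, hC2, hW0, ← c.hw2]
  have hW2sq : W2 * W2 = ω := by
    have e : W2 * W2 = C2 * ω * C2⁻¹ := by rw [hW2def, hωdef]; group
    rw [e, ← hKc ω hωK C2, mul_inv_cancel_right]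
  obtain ⟨m3, hm3K, hm3⟩ := sq_of_conj τ hc (W := W0) (C := C3) (J := W0 * W2)
    (by rw [← hωdef]; exact hωK)
    (by rw [map_mul, hW0, hW2, c.w3, map_mul, map_mul, map_inv, hC3, hW0])
  rw [← hωdef] at hm3
  obtain ⟨κ, hκdef⟩ : ∃ κ, κ = ⁅W2, W0⁆ := ⟨_, rfl⟩
  have hκK : κ ∈ τ.ker := by
    rw [MonoidHom.mem_ker, hκdef, map_commutatorElement, hW0, hW2,
      commutatorElement_eq_one_iff_mul_comm]
    exact c.w02.symm
  have hκ2 : κ * κ = 1 := by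
    have h1 : ⁅W2, W0 * W0⁆ = ⁅W2, W0⁆ * ⁅W2, W0⁆ :=
      cmr (fun z => by rw [← hκdef]; exact (hKc κ hκK z).symm)
    have h2 : ⁅W2, W0 * W0⁆ = 1 := by
      rw [commutatorElement_eq_one_iff_mul_comm, ← hωdef]
      exact (hKc ω hωK W2).symm
    rw [hκdef, ← h1, h2]
  have hq : ω = κ * (m3 * m3) := by
    have h1 : (W0 * W2) * (W0 * W2) = W0 * κ * W0 * (W2 * W2) := by
      rw [hκdef, commutatorElement_def]; group
    have h2 : W0 * κ = κ * W0 := (hKc κ hκK W0).symm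
    rw [h2, hW2sq, mul_assoc κ W0 W0, ← hωdef, hm3] at h1
    have h3 : m3 * m3 = κ * ω := mul_left_cancel (h1.trans (hKc ω hωK (κ * ω)).symm)
    rw [h3, ← mul_assoc, hκ2, one_mul]
  exact card_dvd_two_of τ.ker hc hp ω hωK hgen κ m3 hκ2 hm3K hq

end main

end Cfsg.Agent.Lib.Helper8.TwoLocal
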